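import Mathlib
import Cfsg.Agent.Lib.Helper5.Simple168
import Cfsg.Agent.Lib.Helper5.Model168Data

/-!
# A simple group of order 168: the concrete model

The elements of a simple group of order 168 are labelled injectively by the 168 codes of
`Model168Data`, multiplicatively.  Element orders, conjugacy and counting are then reduced to
the finite checks.
-/

set_option autoImplicit false

namespace Cfsg.Agent.Lib.Helper5.Model168

open Equiv Cfsg.Agent.Lib.Helper5.Simple168

/-- the code of a permutation. -/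
def encode (σ : Perm (Fin 8)) : ℕ :=
  (σ 0 : ℕ) + 8 * ((σ 1 : ℕ) + 8 * ((σ 2 : ℕ) + 8 * ((σ 3 : ℕ) + 8 * ((σ 4 : ℕ) +
    8 * ((σ 5 : ℕ) + 8 * ((σ 6 : ℕ) + 8 * (σ 7 : ℕ)))))))

theorem app_encode (σ : Perm (Fin 8)) (i : Fin 8) : app (encode σ) i = (σ i : ℕ) := by
  have h0 := (σ 0).isLt
  have h1 := (σ 1).isLt
  have h2 := (σ 2).isLt
  have h3 := (σ 3).isLt
  have h4 := (σ 4).isLt
  have h5 := (σ 5).isLt
  have h6 := (σ 6).isLt
  have h7 := (σ 7).isLt
  have c0 : app (encode σ) 0 = (σ 0 : ℕ) := by unfold app encode; norm_num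
  have c1 : app (encode σ) 1 = (σ 1 : ℕ) := by unfold app encode; norm_num; omega
  have c2 : app (encode σ) 2 = (σ 2 : ℕ) := by unfold app encode; norm_num; omega
  have c3 : app (encode σ) 3 = (σ 3 : ℕ) := by unfold app encode; norm_num; omega
  have c4 : app (encode σ) 4 = (σ 4 : ℕ) := by unfold app encode; norm_num; omega
  have c5 : app (encode σ) 5 = (σ 5 : ℕ) := by unfold app encode; norm_num; omega
  have c6 : app (encode σ) 6 = (σ 6 : ℕ) := by unfold app encode; norm_num; omega
  have c7 : app (encode σ) 7 = (σ 7 : ℕ) := by unfold app encode; norm_num; omega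
  fin_cases i
  · exact c0
  · exact c1
  · exact c2
  · exact c3
  · exact c4
  · exact c5
  · exact c6
  · exact c7

theorem encode_mul (σ τ : Perm (Fin 8)) : encode (σ * τ) = comp (encode σ) (encode τ) := by
  have e0 : app (encode τ) 0 = (τ 0 : ℕ) := app_encode τ 0
  have e1 : app (encode τ) 1 = (τ 1 : ℕ) := app_encode τ 1
  have e2 : app (encode τ) 2 = (τ 2 : ℕ) := app_encode τ 2
  have e3 : app (encode τ) 3 = (τ 3 : ℕ) := app_encode τ 3
  have e4 : app (encode τ) 4 = (τ 4 : ℕ) := app_encode τ 4
  have e5 : app (encode τ) 5 = (τ 5 : ℕ) := app_encode τ 5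
  have e6 : app (encode τ) 6 = (τ 6 : ℕ) := app_encode τ 6
  have e7 : app (encode τ) 7 = (τ 7 : ℕ) := app_encode τ 7
  unfold comp
  rw [e0, e1, e2, e3, e4, e5, e6, e7]
  simp only [app_encode]
  rfl

theorem encode_injective : Function.Injective encode := by
  intro σ τ h
  ext i
  rw [← app_encode σ i, ← app_encode τ i, h]

theorem encode_one : encode 1 = idc := by decide

theorem encode_Y : encode Y₀ = cY := by decide +kernel
theorem encode_D : encode D₀ = cD := by decide +kernel
theorem encode_T : encode T₀ = cT := by decide +kernel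

/-- A labelling of a group by the 168 codes. -/
structure Model (G : Type*) [Group G] where
  /-- the code of an element. -/
  code : G → ℕ
  inj : Function.Injective code
  mem : ∀ g, code g ∈ codes
  surj : ∀ n ∈ codes, ∃ g, code g = n
  mul : ∀ g h, code (g * h) = comp (code g) (code h)
  one : code 1 = idc

theorem mem_of_surj {G : Type*} [Finite G] (code : G → ℕ) (L : List ℕ) (hnd : L.Nodup)
    (hlen : L.length = Nat.card G)
    (hsurj : ∀ n ∈ L, ∃ g, code g = n) : ∀ g, code g ∈ L := by
  choose f hf using fun n : {n // n ∈ L.toFinset} => hsurj n.1 (List.mem_toFinset.1 n.2)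
  have hfinj : Function.Injective f := by
    intro n m h
    apply Subtype.ext
    rw [← hf n, ← hf m, h]
  have hcard : Nat.card {n // n ∈ L.toFinset} = L.length := by
    rw [Nat.card_eq_fintype_card, Fintype.card_coe, List.toFinset_card_of_nodup hnd]
  have hbij := hfinj.bijective_of_nat_card_le (by rw [hcard, hlen])
  intro g
  obtain ⟨n, rfl⟩ := hbij.2 g
  rw [hf]
  exact List.mem_toFinset.1 n.2

/-- A simple group of order 168 has a model. -/
theorem exists_model {G : Type*} [Group G] [Finite G] [IsSimpleGroup G]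
    (hG : Nat.card G = 168) : Nonempty (Model G) := by
  obtain ⟨c⟩ := exists_cfg hG
  obtain ⟨ρ, hρ⟩ := c.exists_rho hG
  have hinj : Function.Injective ρ := Cfg.rho_injective hρ
  have hy := Cfg.rho_y hρ
  have hd := Cfg.rho_d hρ
  have key : ∃ a : G, ρ a = T₀ := by
    rcases tau_class (ρ c.t) (Cfg.rho_t_last hρ) Cfg.rho_t_sq (Cfg.rho_t_ne hρ)
      (Cfg.rho_t_d hρ) with h | h | h
    · exact ⟨c.t, h⟩
    · refine ⟨c.t * c.d⁻¹, ?_⟩
      rw [map_mul, map_inv, hd, h]
      group
    · refine ⟨c.t * c.d⁻¹ * c.d⁻¹, ?_⟩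
      rw [map_mul, map_mul, map_inv, hd, h]
      group
  obtain ⟨a, ha⟩ := key
  let code : G → ℕ := fun g => encode (ρ g)
  have hmul : ∀ g h, code (g * h) = comp (code g) (code h) := fun g h => by
    show encode (ρ (g * h)) = _
    rw [map_mul, encode_mul]
  have hone : code 1 = idc := by
    show encode (ρ 1) = _
    rw [map_one, encode_one]
  have hpow : ∀ g k, code (g ^ k) = pw (code g) k := by
    intro g k
    induction k with
    | zero => rw [pow_zero, hone]; rfl
    | succ k ih => rw [pow_succ', hmul, ih]; rfl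
  have hcinj : Function.Injective code := fun g h hgh => hinj (encode_injective hgh)
  have hsurj : ∀ n ∈ codes, ∃ g, code g = n := by
    intro n hn
    rw [← elts_codes, List.mem_map] at hn
    obtain ⟨t, ht, rfl⟩ := hn
    refine ⟨c.y ^ t.1 * a ^ t.2.1 * c.d ^ t.2.2.1 * c.y ^ t.2.2.2.1, ?_⟩
    rw [hmul, hmul, hmul, hpow, hpow, hpow, hpow]
    have e1 : code c.y = cY := by show encode (ρ c.y) = _; rw [hy, encode_Y]
    have e2 : code a = cT := by show encode (ρ a) = _; rw [ha, encode_T]
    have e3 : code c.d = cD := by show encode (ρ c.d) = _; rw [hd, encode_D]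
    rw [e1, e2, e3]
    exact elts_spec t ht
  exact ⟨⟨code, hcinj, mem_of_surj code codes codes_nodup (by rw [codes_length, hG]) hsurj,
    hsurj, hmul, hone⟩⟩

theorem ordC_cases (n : ℕ) : ordC n = 1 ∨ ordC n = 2 ∨ ordC n = 3 ∨ ordC n = 4 ∨ ordC n = 7 := by
  unfold ordC
  split_ifs <;> simp

namespace Model

variable {G : Type*} [Group G] (M : Model G)

theorem pow (g : G) (k : ℕ) : M.code (g ^ k) = pw (M.code g) k := by
  induction k with
  | zero => rw [pow_zero, M.one]; rfl
  | succ k ih => rw [pow_succ', M.mul, ih]; rfl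

theorem orderOf_eq (g : G) : orderOf g = ordC (M.code g) := by
  obtain ⟨h1, h2⟩ := ord_spec _ (M.mem g)
  have hpos : 0 < ordC (M.code g) := by
    rcases ordC_cases (M.code g) with h | h | h | h | h <;> omega
  rw [orderOf_eq_iff hpos]
  exact ⟨M.inj (by rw [M.pow, h1, M.one]),
    fun m hm hm0 h => h2 m hm hm0 (by rw [← M.pow, h, M.one])⟩

theorem isConj_iff (s t : G) :
    IsConj s t ↔ ∃ c ∈ codes, comp c (M.code s) = comp (M.code t) c := by
  rw [_root_.isConj_iff]
  constructor
  · rintro ⟨c, hc⟩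
    refine ⟨M.code c, M.mem c, ?_⟩
    rw [← M.mul, ← M.mul]
    congr 1
    rw [← hc]; group
  · rintro ⟨c, hc, h⟩
    obtain ⟨g, rfl⟩ := M.surj c hc
    rw [← M.mul, ← M.mul] at h
    have := M.inj h
    exact ⟨g, by rw [this]; group⟩

theorem card_subtype [Finite G] (p : G → Prop) (p' : ℕ → Bool)
    (hp : ∀ g, p g ↔ p' (M.code g) = true) :
    Nat.card {g // p g} = (codes.filter p').length := by
  have hnd : (codes.filter p').Nodup := codes_nodup.filter _
  rw [← List.toFinset_card_of_nodup hnd, ← Fintype.card_coe, ← Nat.card_eq_fintype_card]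
  apply Nat.card_congr
  refine Equiv.ofBijective (fun g => ⟨M.code g.1, ?_⟩) ⟨?_, ?_⟩
  · rw [List.mem_toFinset, List.mem_filter]
    exact ⟨M.mem _, (hp _).1 g.2⟩
  · intro g h hgh
    exact Subtype.ext (M.inj (congrArg Subtype.val hgh))
  · rintro ⟨n, hn⟩
    rw [List.mem_toFinset, List.mem_filter] at hn
    obtain ⟨g, rfl⟩ := M.surj n hn.1
    exact ⟨⟨g, (hp g).2 hn.2⟩, rfl⟩

/-- every element is conjugate to a class representative. -/
theorem conj_rep (g : G) : ∃ r : G, IsConj g r ∧ (orderOf g = 2 → M.code r = cT) ∧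
    (orderOf g = 3 → M.code r = cD) ∧ (orderOf g = 4 → M.code r = cA) ∧
    (orderOf g = 7 → M.code r = cY ∨ M.code r = cYi) := by
  have hn := M.mem g
  rw [← wit_codes, List.mem_map] at hn
  obtain ⟨e, he, hen⟩ := hn
  obtain ⟨h1, h2, h3, h4⟩ := wit_spec e he
  obtain ⟨r, hr⟩ := M.surj _ h2
  refine ⟨r, (M.isConj_iff g r).2 ⟨e.2.1, h1, by rw [hr, ← hen]; exact h3⟩, ?_⟩
  rw [M.orderOf_eq, hr, ← hen]
  exact h4

include M

theorem card_orderOf [Finite G] (k : ℕ) :
    Nat.card {g : G // orderOf g = k} = (codes.filter (fun n => decide (ordC n = k))).length :=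
  M.card_subtype (fun g => orderOf g = k) (fun n => decide (ordC n = k))
    (fun g => by rw [M.orderOf_eq]; simp)

theorem orderOf_cases (g : G) :
    orderOf g = 1 ∨ orderOf g = 2 ∨ orderOf g = 3 ∨ orderOf g = 4 ∨ orderOf g = 7 := by
  rw [M.orderOf_eq]; exact ordC_cases _

theorem isConj_two {s t : G} (hs : orderOf s = 2) (ht : orderOf t = 2) : IsConj s t := by
  obtain ⟨r, hr, hr2, -⟩ := M.conj_rep s
  obtain ⟨r', hr', hr2', -⟩ := M.conj_rep t
  have : r = r' := M.inj ((hr2 hs).trans (hr2' ht).symm)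
  subst this
  exact hr.trans hr'.symm

theorem isConj_three {s t : G} (hs : orderOf s = 3) (ht : orderOf t = 3) : IsConj s t := by
  obtain ⟨r, hr, -, hr2, -⟩ := M.conj_rep s
  obtain ⟨r', hr', -, hr2', -⟩ := M.conj_rep t
  have : r = r' := M.inj ((hr2 hs).trans (hr2' ht).symm)
  subst this
  exact hr.trans hr'.symm

theorem isConj_four {s t : G} (hs : orderOf s = 4) (ht : orderOf t = 4) : IsConj s t := by
  obtain ⟨r, hr, -, -, hr2, -⟩ := M.conj_rep s
  obtain ⟨r', hr', -, -, hr2', -⟩ := M.conj_rep t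
  have : r = r' := M.inj ((hr2 hs).trans (hr2' ht).symm)
  subst this
  exact hr.trans hr'.symm

omit M in
theorem isConj_inv_inv {a b : G} (hab : IsConj a b) : IsConj a⁻¹ b⁻¹ := by
  rw [_root_.isConj_iff] at hab ⊢
  obtain ⟨c, rfl⟩ := hab
  exact ⟨c, by group⟩

omit M in
theorem orderOf_eq_of_isConj {a b : G} (hab : IsConj a b) : orderOf a = orderOf b := by
  rw [_root_.isConj_iff] at hab
  obtain ⟨c, rfl⟩ := hab
  exact (orderOf_injective (MulAut.conj c).toMonoidHom (MulAut.conj c).injective a).symm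

/-- the elements of order 7: two classes of 24 elements, exchanged by inversion. -/
theorem order_seven [Finite G] (x : G) (hx : orderOf x = 7) :
    Nat.card {g : G // IsConj x g} = 24 ∧ ¬ IsConj x x⁻¹ := by
  obtain ⟨-, -, -, hcY, -, -, -, -, oY, -, hpw⟩ := rep_spec
  obtain ⟨y, hy⟩ := M.surj cY hcY
  have hyo : orderOf y = 7 := by rw [M.orderOf_eq, hy, oY]
  have hyinv : M.code y⁻¹ = cYi := by
    have : y⁻¹ = y ^ 6 := by
      apply inv_eq_of_mul_eq_one_right
      rw [← pow_succ']
      have h7 : y ^ orderOf y = 1 := pow_orderOf_eq_one y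
      rw [hyo] at h7
      exact h7
    rw [this, M.pow, hy, hpw]
  have hnc : ¬ IsConj y y⁻¹ := by
    rw [M.isConj_iff, hy, hyinv]
    rintro ⟨c, hc, h⟩
    exact nconj7 c hc h
  have hcls : ∀ g : G, orderOf g = 7 → IsConj y g ∨ IsConj y⁻¹ g := by
    intro g hg
    obtain ⟨r, hr, -, -, -, h7⟩ := M.conj_rep g
    rcases h7 hg with h | h
    · have : r = y := M.inj (h.trans hy.symm)
      subst this; exact Or.inl hr.symm
    · have : r = y⁻¹ := M.inj (h.trans hyinv.symm)
      subst this; exact Or.inr hr.symm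
  have hA : Nat.card {g : G // IsConj y g} = 24 ∧ Nat.card {g : G // IsConj y⁻¹ g} = 24 := by
    have h48 : Nat.card {g : G // orderOf g = 7} = 48 := by
      rw [M.card_orderOf]; exact count7
    have hU : {g : G | orderOf g = 7} = {g : G | IsConj y g} ∪ {g : G | IsConj y⁻¹ g} := by
      ext g
      constructor
      · exact hcls g
      · rintro (h | h)
        · exact (orderOf_eq_of_isConj h).symm.trans hyo
        · exact (orderOf_eq_of_isConj h).symm.trans (by rw [orderOf_inv, hyo])
    have hD : Disjoint {g : G | IsConj y g} {g : G | IsConj y⁻¹ g} := by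
      rw [Set.disjoint_left]
      intro g h1 h2
      exact hnc (IsConj.trans h1 (IsConj.symm h2))
    have hB : {g : G | IsConj y⁻¹ g} = (fun g => g⁻¹) '' {g : G | IsConj y g} := by
      ext g
      constructor
      · intro hg
        refine ⟨g⁻¹, ?_, inv_inv g⟩
        have := isConj_inv_inv hg
        rwa [inv_inv] at this
      · rintro ⟨g', hg', rfl⟩
        exact isConj_inv_inv hg'
    have h1 : Set.ncard {g : G | orderOf g = 7} = 48 := by
      rw [← Nat.card_coe_set_eq]; exact h48
    have h2 : Set.ncard {g : G | IsConj y⁻¹ g} = Set.ncard {g : G | IsConj y g} := by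
      rw [hB]; exact Set.ncard_image_of_injective _ inv_injective
    rw [hU, Set.ncard_union_eq hD, h2] at h1
    have h3 : Set.ncard {g : G | IsConj y g} = 24 := by omega
    constructor
    · rw [← h3, ← Nat.card_coe_set_eq]; rfl
    · rw [← h3, ← h2, ← Nat.card_coe_set_eq]; rfl
  rcases hcls x hx with h | h
  · constructor
    · rw [← hA.1]
      exact Nat.card_congr (Equiv.subtypeEquivRight fun g =>
        ⟨fun hg => h.trans hg, fun hg => h.symm.trans hg⟩)
    · intro hc
      exact hnc (h.trans (hc.trans (isConj_inv_inv h.symm)))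
  · constructor
    · rw [← hA.2]
      exact Nat.card_congr (Equiv.subtypeEquivRight fun g =>
        ⟨fun hg => h.trans hg, fun hg => h.symm.trans hg⟩)
    · intro hc
      have h2 := isConj_inv_inv h.symm
      rw [inv_inv] at h2
      exact hnc ((h.trans hc).trans h2).symm

end Model

end Cfsg.Agent.Lib.Helper5.Model168
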