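import Mathlib
import Cfsg.Agent.Lib.Helper5.Model168KleinData
import Cfsg.Agent.S1009

/-!
# Klein four-subgroups of a simple group of order 168

A Sylow 2-subgroup contains exactly two Klein four-groups; they are not conjugate, and the
normaliser of every Klein four-subgroup is isomorphic to `S₄`.
-/

set_option autoImplicit false

namespace Cfsg.Agent.Lib.Helper5.Model168

/-- the conjugate subgroup `g U g⁻¹`. -/
abbrev cj {G : Type*} [Group G] (g : G) (U : Subgroup G) : Subgroup G :=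
  U.map (MulAut.conj g).toMonoidHom

section conj

variable {G : Type*} [Group G]

theorem mem_cj (g x : G) (U : Subgroup G) : x ∈ cj g U ↔ g⁻¹ * x * g ∈ U := by
  constructor
  · rintro ⟨y, hy, rfl⟩
    have h1 : g⁻¹ * (MulAut.conj g).toMonoidHom y * g = y := by
      show g⁻¹ * (g * y * g⁻¹) * g = y
      group
    rw [h1]
    exact hy
  · intro h
    refine ⟨g⁻¹ * x * g, h, ?_⟩
    show g * (g⁻¹ * x * g) * g⁻¹ = x
    group

theorem cj_cj (g k : G) (U : Subgroup G) : cj g (cj k U) = cj (g * k) U := by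
  ext x
  rw [mem_cj, mem_cj, mem_cj]
  have h1 : k⁻¹ * (g⁻¹ * x * g) * k = (g * k)⁻¹ * x * (g * k) := by group
  rw [h1]

theorem cj_one (U : Subgroup G) : cj 1 U = U := by
  ext x
  rw [mem_cj]
  simp

theorem cj_inv_cj (g : G) (U : Subgroup G) : cj g⁻¹ (cj g U) = U := by
  rw [cj_cj, inv_mul_cancel, cj_one]

theorem cj_cj_inv (g : G) (U : Subgroup G) : cj g (cj g⁻¹ U) = U := by
  rw [cj_cj, mul_inv_cancel, cj_one]

theorem cj_mono (g : G) {U W : Subgroup G} (h : U ≤ W) : cj g U ≤ cj g W :=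
  Subgroup.map_mono h

theorem card_cj (g : G) (U : Subgroup G) : Nat.card (cj g U) = Nat.card U :=
  (Nat.card_congr ((MulAut.conj g).subgroupMap U).toEquiv).symm

theorem isKleinFour_iff (U : Subgroup G) :
    IsKleinFour U ↔ Nat.card U = 4 ∧ ∀ u ∈ U, u * u = 1 := by
  constructor
  · intro hK
    refine ⟨hK.card_four, fun u hu => ?_⟩
    have h1 := Monoid.pow_exponent_eq_one (⟨u, hu⟩ : U)
    rw [hK.exponent_two] at h1
    have h2 := congrArg Subtype.val h1
    simpa [pow_two] using h2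
  · rintro ⟨h4, hsq⟩
    refine ⟨h4, ?_⟩
    have hd : Monoid.exponent U ∣ 2 := Monoid.exponent_dvd_of_forall_pow_eq_one (fun u => by
      apply Subtype.ext
      rw [pow_two]
      exact hsq u.1 u.2)
    rcases (Nat.dvd_prime Nat.prime_two).1 hd with h1 | h2
    · exfalso
      have hss : Subsingleton U := Monoid.exp_eq_one_iff.1 h1
      have h5 : Nat.card U = 1 := Nat.card_of_subsingleton (1 : U)
      omega
    · exact h2

theorem isKleinFour_cj (g : G) (U : Subgroup G) (hU : IsKleinFour U) : IsKleinFour (cj g U) := by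
  rw [isKleinFour_iff] at hU ⊢
  refine ⟨by rw [card_cj]; exact hU.1, fun u hu => ?_⟩
  rw [mem_cj] at hu
  have h1 := hU.2 _ hu
  have h3 : u * u = g * (g⁻¹ * u * g * (g⁻¹ * u * g)) * g⁻¹ := by group
  rw [h3, h1]
  group

theorem normalizer_cj (g : G) (U : Subgroup G) :
    Nonempty (Subgroup.normalizer ((cj g U : Subgroup G) : Set G) ≃*
      Subgroup.normalizer (U : Set G)) := by
  have h := Subgroup.map_equiv_normalizer_eq U (MulAut.conj g)
  exact ⟨(MulEquiv.subgroupCongr h.symm).trans ((MulAut.conj g).subgroupMap _).symm⟩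

end conj

namespace Model

variable {G : Type*} [Group G] (M : Model G)

/-- the subgroup with the given closed list of codes. -/
def sub (L : List ℕ) (hL : Closed L) : Subgroup G where
  carrier := {g | M.code g ∈ L}
  mul_mem' := by
    intro a b ha hb
    show M.code (a * b) ∈ L
    rw [M.mul]
    exact hL.2.1 _ ha _ hb
  one_mem' := by
    show M.code 1 ∈ L
    rw [M.one]
    exact hL.2.2.1
  inv_mem' := by
    intro a ha
    obtain ⟨b, hb, hab⟩ := hL.2.2.2 _ ha
    obtain ⟨g, rfl⟩ := M.surj b (hL.1 b hb)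
    have h1 : a * g = 1 := M.inj (by rw [M.mul, hab, M.one])
    have h2 : a⁻¹ = g := inv_eq_of_mul_eq_one_right h1
    show M.code a⁻¹ ∈ L
    rw [h2]
    exact hb

theorem mem_sub (L : List ℕ) (hL : Closed L) (g : G) : g ∈ M.sub L hL ↔ M.code g ∈ L := Iff.rfl

theorem card_sub [Finite G] (L : List ℕ) (hL : Closed L) :
    Nat.card (M.sub L hL) = (codes.filter (fun n => decide (n ∈ L))).length :=
  M.card_subtype (fun g => g ∈ M.sub L hL) (fun n => decide (n ∈ L))
    (fun g => by rw [mem_sub]; simp)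

theorem code_eq_idc (g : G) : M.code g = idc ↔ g = 1 :=
  ⟨fun h => M.inj (by rw [h, M.one]), fun h => by rw [h, M.one]⟩

/-- the normaliser of a model subgroup, from the finite checks. -/
theorem normalizer_sub (LV LN : List ℕ) (hV : Closed LV) (hN : Closed LN)
    (h1 : ∀ c ∈ codes, (∀ v ∈ LV, ∃ w ∈ LV, comp c v = comp w c) → c ∈ LN)
    (h2 : ∀ c ∈ LN, ∀ v ∈ LV, ∃ w ∈ LV, comp c v = comp w c) :
    Subgroup.normalizer ((M.sub LV hV : Subgroup G) : Set G) = M.sub LN hN := by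
  have hconj : ∀ x ∈ M.sub LN hN, ∀ v ∈ M.sub LV hV, x * v * x⁻¹ ∈ M.sub LV hV := by
    intro x hx v hv
    obtain ⟨w, hw, hcw⟩ := h2 _ hx _ hv
    obtain ⟨w', rfl⟩ := M.surj w (hV.1 w hw)
    rw [← M.mul, ← M.mul] at hcw
    have h3 : x * v = w' * x := M.inj hcw
    have h4 : x * v * x⁻¹ = w' := by rw [h3]; group
    rw [h4]
    exact hw
  ext x
  rw [Subgroup.mem_normalizer_iff]
  constructor
  · intro hx
    rw [mem_sub]
    apply h1 _ (M.mem x)
    intro v hv
    obtain ⟨v', rfl⟩ := M.surj v (hV.1 v hv)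
    have h3 : x * v' * x⁻¹ ∈ M.sub LV hV := (hx v').1 hv
    refine ⟨M.code (x * v' * x⁻¹), h3, ?_⟩
    rw [← M.mul, ← M.mul]
    congr 1
    group
  · intro hx v
    constructor
    · exact fun hv => hconj x hx v hv
    · intro hv
      have h3 := hconj x⁻¹ (inv_mem hx) _ hv
      have h4 : x⁻¹ * (x * v * x⁻¹) * x⁻¹⁻¹ = v := by group
      rw [h4] at h3
      exact h3

/-- a model subgroup of order 24 with generators of type `(2, 3, 4)` is `S₄`. -/
theorem sub_equiv_S4 [Finite G] (L : List ℕ) (hL : Closed L)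
    (hcount : (codes.filter (fun n => decide (n ∈ L))).length = 24) (a b : ℕ)
    (hgens : a ∈ L ∧ b ∈ L ∧ pw a 2 = idc ∧ pw b 3 = idc ∧ pw (comp a b) 4 = idc ∧
      pw (comp a b) 2 ≠ idc) :
    Nonempty (M.sub L hL ≃* Equiv.Perm (Fin 4)) := by
  obtain ⟨ha, hb, ha2, hb3, hab4, hab2⟩ := hgens
  obtain ⟨a', rfl⟩ := M.surj a (hL.1 a ha)
  obtain ⟨b', rfl⟩ := M.surj b (hL.1 b hb)
  have hcard : Nat.card (M.sub L hL) = 24 := by rw [M.card_sub, hcount]
  have e1 : a' ^ 2 = 1 := M.inj (by rw [M.pow, ha2, M.one])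
  have e2 : b' ^ 3 = 1 := M.inj (by rw [M.pow, hb3, M.one])
  have e3 : (a' * b') ^ 4 = 1 := M.inj (by rw [M.pow, M.mul, hab4, M.one])
  have e4 : (a' * b') ^ 2 ≠ 1 := by
    intro h
    apply hab2
    rw [← M.mul, ← M.pow, h, M.one]
  obtain ⟨H, ⟨e⟩⟩ := Tri.exists_S4_subgroup (G := M.sub L hL) ⟨a', ha⟩ ⟨b', hb⟩
    (Subtype.ext e1) (Subtype.ext e2) (Subtype.ext e3)
    (fun h => e4 (congrArg Subtype.val h))
  have hH : Nat.card H = 24 := by
    rw [Nat.card_congr e.toEquiv, Nat.card_perm, Nat.card_eq_fintype_card, Fintype.card_fin]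
    rfl
  have htop : H = ⊤ := (Subgroup.card_eq_iff_eq_top H).1 (by rw [hH, hcard])
  exact ⟨Subgroup.topEquiv.symm.trans ((MulEquiv.subgroupCongr htop.symm).trans e)⟩

/-- A Klein four-group inside the model Sylow 2-subgroup is one of the two listed. -/
theorem klein_le_sylow [Finite G] (U : Subgroup G) (hU : U ≤ M.sylow) (hK : IsKleinFour U) :
    U = M.sub kV1 closed_V1 ∨ U = M.sub kV2 closed_V2 := by
  rw [isKleinFour_iff] at hK
  obtain ⟨h4, hsq⟩ := hK
  have hnc : (U : Set G).ncard = 4 := by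
    rw [← h4]
    exact (Nat.card_coe_set_eq _).symm
  obtain ⟨x, hxU, hx1⟩ := Set.exists_mem_notMem_of_ncard_lt_ncard (s := ({1} : Set G))
    (t := (U : Set G)) (by rw [hnc, Set.ncard_singleton]; norm_num) (Set.finite_singleton 1)
  obtain ⟨y, hyU, hy⟩ := Set.exists_mem_notMem_of_ncard_lt_ncard (s := ({1, x} : Set G))
    (t := (U : Set G))
    (by
      rw [hnc]
      refine lt_of_le_of_lt (Set.ncard_insert_le 1 {x}) ?_
      rw [Set.ncard_singleton]; norm_num) (Set.toFinite _)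
  have hx1' : x ≠ 1 := by simpa using hx1
  have hy1 : y ≠ 1 := fun h => hy (by rw [h]; exact Set.mem_insert _ _)
  have hyx : y ≠ x := fun h => hy (by rw [h]; exact Set.mem_insert_of_mem _ rfl)
  have hxU' : x ∈ U := hxU
  have hyU' : y ∈ U := hyU
  have sq : ∀ w ∈ U, comp (M.code w) (M.code w) = idc := fun w hw => by
    rw [← M.mul, hsq w hw, M.one]
  have hcx : M.code x ≠ idc := fun h => hx1' ((M.code_eq_idc x).1 h)
  have hcy : M.code y ≠ idc := fun h => hy1 ((M.code_eq_idc y).1 h)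
  have hcxy : M.code x ≠ M.code y := fun h => hyx (M.inj h).symm
  have key : ∀ u ∈ U, (M.code x ∈ kV1 ∧ M.code y ∈ kV1 ∧ M.code u ∈ kV1) ∨
      (M.code x ∈ kV2 ∧ M.code y ∈ kV2 ∧ M.code u ∈ kV2) := by
    intro u hu
    refine klein_in_syl _ ((M.mem_sylow x).1 (hU hxU')) _ ((M.mem_sylow y).1 (hU hyU')) _
      ((M.mem_sylow u).1 (hU hu))
      ⟨hcx, hcy, hcxy, sq x hxU', sq y hyU', sq u hu, ?_, ?_, ?_⟩
    · rw [← M.mul]; exact sq _ (U.mul_mem hxU' hyU')
    · rw [← M.mul]; exact sq _ (U.mul_mem hxU' hu)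
    · rw [← M.mul]; exact sq _ (U.mul_mem hyU' hu)
  have hdisj := V1_V2_disj _ ((M.mem_sylow x).1 (hU hxU')) _ ((M.mem_sylow y).1 (hU hyU'))
    ⟨hcx, hcy, hcxy⟩
  rcases key x hxU' with ⟨h1, h2, -⟩ | ⟨h1, h2, -⟩
  · left
    apply Subgroup.eq_of_le_of_card_ge
    · intro u hu
      rcases key u hu with ⟨-, -, h3⟩ | ⟨h3, h5, -⟩
      · exact h3
      · exact absurd ⟨h1, h2, h3, h5⟩ hdisj
    · rw [M.card_sub, count_V1, h4]
  · right
    apply Subgroup.eq_of_le_of_card_ge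
    · intro u hu
      rcases key u hu with ⟨h3, h5, -⟩ | ⟨-, -, h3⟩
      · exact absurd ⟨h3, h5, h1, h2⟩ hdisj
      · exact h3
    · rw [M.card_sub, count_V2, h4]

/-- The two model Klein four-groups are not conjugate. -/
theorem not_conj_V (g : G) : cj g (M.sub kV1 closed_V1) ≠ M.sub kV2 closed_V2 := by
  intro h
  obtain ⟨v, hv, hvw⟩ := nonconj_V _ (M.mem g)
  obtain ⟨v', rfl⟩ := M.surj v (closed_V1.1 v hv)
  have h1 : g * v' * g⁻¹ ∈ cj g (M.sub kV1 closed_V1) := by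
    rw [mem_cj]
    have h2 : g⁻¹ * (g * v' * g⁻¹) * g = v' := by group
    rw [h2]
    exact hv
  rw [h] at h1
  apply hvw _ h1
  rw [← M.mul, ← M.mul]
  congr 1
  group

/-- Every Sylow 2-subgroup is a conjugate of the model one. -/
theorem exists_cj_sylow [Finite G] (hG : Nat.card G = 168) (T : Sylow 2 G) :
    ∃ g : G, (T : Subgroup G) = cj g M.sylow := by
  have : Fact (Nat.Prime 2) := ⟨Nat.prime_two⟩
  have hS8 : Nat.card M.sylow = 8 := M.card_sylow
  have hpg : IsPGroup 2 M.sylow := IsPGroup.of_card (n := 3) (by rw [hS8]; norm_num)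
  obtain ⟨Q, hQ⟩ := hpg.exists_le_sylow
  have hQ8 : Nat.card (Q : Subgroup G) = 8 := by
    have := Lib.Helper17.card_sylow_eq_of_card_eq 2 3 21 (by rw [hG]; norm_num) (by decide) Q
    simpa using this
  have hSQ : M.sylow = (Q : Subgroup G) := Subgroup.eq_of_le_of_card_ge hQ (by rw [hS8, hQ8])
  obtain ⟨g, hg⟩ := MulAction.exists_smul_eq G Q T
  refine ⟨g, ?_⟩
  ext x
  rw [mem_cj, hSQ, ← hg, Cfsg.Agent.S1009.mem_smul_sylow]

end Model

/-- The Klein four-subgroups of a simple group of order 168. -/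
theorem klein_four_facts {G : Type*} [Group G] [Finite G] [IsSimpleGroup G]
    (h : Nat.card G = 168) (T : Sylow 2 G) :
    Nat.card {U : Subgroup G // U ≤ (T : Subgroup G) ∧ IsKleinFour ↥U} = 2 ∧
    (∀ U W : Subgroup G, U ≤ (T : Subgroup G) → W ≤ (T : Subgroup G) → IsKleinFour ↥U →
      IsKleinFour ↥W → U ≠ W → ∀ g : G, U.map (MulAut.conj g).toMonoidHom ≠ W) ∧
    ∀ U : Subgroup G, IsKleinFour ↥U →
      Nonempty (↥(Subgroup.normalizer (U : Set G)) ≃* Equiv.Perm (Fin 4)) := by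
  obtain ⟨M⟩ := exists_model h
  have : Fact (Nat.Prime 2) := ⟨Nat.prime_two⟩
  have hK1 : IsKleinFour (M.sub kV1 closed_V1) := by
    rw [isKleinFour_iff]
    refine ⟨by rw [M.card_sub, count_V1], fun u hu => ?_⟩
    exact M.inj (by rw [M.mul, V1_sq _ hu, M.one])
  have hK2 : IsKleinFour (M.sub kV2 closed_V2) := by
    rw [isKleinFour_iff]
    refine ⟨by rw [M.card_sub, count_V2], fun u hu => ?_⟩
    exact M.inj (by rw [M.mul, V2_sq _ hu, M.one])
  have hle1 : M.sub kV1 closed_V1 ≤ M.sylow := fun x hx => V1_sub_syl _ hx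
  have hle2 : M.sub kV2 closed_V2 ≤ M.sylow := fun x hx => V2_sub_syl _ hx
  have hne : M.sub kV1 closed_V1 ≠ M.sub kV2 closed_V2 := by
    obtain ⟨a, ha1, ha2⟩ := V1_ne_V2
    obtain ⟨a', rfl⟩ := M.surj a (closed_V1.1 a ha1)
    intro h12
    have h3 : a' ∈ M.sub kV1 closed_V1 := ha1
    rw [h12] at h3
    exact ha2 h3
  have hnc12 : ∀ g, cj g (M.sub kV1 closed_V1) ≠ M.sub kV2 closed_V2 := M.not_conj_V
  have hnc21 : ∀ g, cj g (M.sub kV2 closed_V2) ≠ M.sub kV1 closed_V1 := by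
    intro g hg
    apply hnc12 g⁻¹
    rw [← hg, cj_inv_cj]
  have hclass : ∀ (g : G) (U : Subgroup G), U ≤ cj g M.sylow → IsKleinFour U →
      U = cj g (M.sub kV1 closed_V1) ∨ U = cj g (M.sub kV2 closed_V2) := by
    intro g U hU hK
    have h1 : cj g⁻¹ U ≤ M.sylow := by
      have h2 : cj g⁻¹ U ≤ cj g⁻¹ (cj g M.sylow) := cj_mono _ hU
      rwa [cj_inv_cj] at h2
    rcases M.klein_le_sylow _ h1 (isKleinFour_cj _ _ hK) with h2 | h2
    · left; rw [← h2, cj_cj_inv]
    · right; rw [← h2, cj_cj_inv]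
  obtain ⟨g, hT⟩ := M.exists_cj_sylow h T
  refine ⟨?_, ?_, ?_⟩
  · rw [Nat.card_eq_two_iff]
    refine ⟨⟨cj g (M.sub kV1 closed_V1), ?_, isKleinFour_cj _ _ hK1⟩,
      ⟨cj g (M.sub kV2 closed_V2), ?_, isKleinFour_cj _ _ hK2⟩, ?_, ?_⟩
    · rw [hT]; exact cj_mono _ hle1
    · rw [hT]; exact cj_mono _ hle2
    · intro h12
      have h3 : cj g (M.sub kV1 closed_V1) = cj g (M.sub kV2 closed_V2) :=
        congrArg Subtype.val h12
      apply hne
      rw [← cj_inv_cj g (M.sub kV1 closed_V1), h3, cj_inv_cj]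
    · ext ⟨U, hU, hK⟩
      simp only [Set.mem_insert_iff, Set.mem_singleton_iff, Set.mem_univ, iff_true]
      rw [hT] at hU
      rcases hclass g U hU hK with h1 | h1
      · left; exact Subtype.ext h1
      · right; exact Subtype.ext h1
  · intro U W hU hW hKU hKW hUW g' hg'
    rw [hT] at hU hW
    have hg'' : cj g' U = W := hg'
    rcases hclass g U hU hKU with h1 | h1 <;> rcases hclass g W hW hKW with h2 | h2
    · exact hUW (by rw [h1, h2])
    · apply hnc12 (g⁻¹ * (g' * g))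
      rw [← cj_cj, ← cj_cj, ← h1, hg'', h2, cj_inv_cj]
    · apply hnc21 (g⁻¹ * (g' * g))
      rw [← cj_cj, ← cj_cj, ← h1, hg'', h2, cj_inv_cj]
    · exact hUW (by rw [h1, h2])
  · intro U hK
    have hpg : IsPGroup 2 U := IsPGroup.of_card (n := 2) (by rw [hK.card_four]; norm_num)
    obtain ⟨Q, hQ⟩ := hpg.exists_le_sylow
    obtain ⟨g₂, hQ₂⟩ := M.exists_cj_sylow h Q
    rw [hQ₂] at hQ
    obtain ⟨e1⟩ := M.sub_equiv_S4 kN1 closed_N1 count_N1 _ _ gens_N1
    obtain ⟨e2⟩ := M.sub_equiv_S4 kN2 closed_N2 count_N2 _ _ gens_N2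
    rcases hclass g₂ U hQ hK with h1 | h1
    · obtain ⟨e⟩ := normalizer_cj g₂ (M.sub kV1 closed_V1)
      rw [h1]
      exact ⟨e.trans ((MulEquiv.subgroupCongr
        (M.normalizer_sub kV1 kN1 closed_V1 closed_N1 norm_V1 norm_V1')).trans e1)⟩
    · obtain ⟨e⟩ := normalizer_cj g₂ (M.sub kV2 closed_V2)
      rw [h1]
      exact ⟨e.trans ((MulEquiv.subgroupCongr
        (M.normalizer_sub kV2 kN2 closed_V2 closed_N2 norm_V2 norm_V2')).trans e2)⟩

end Cfsg.Agent.Lib.Helper5.Model168
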