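import Mathlib
import Cfsg.Agent.Lib.Helper5.Model168KleinData

set_option autoImplicit false

/-!
Finite checks in the concrete model of a simple group of order 168, used to determine its
maximal subgroups.
-/

namespace Cfsg.Agent.Lib.Helper5.Model168

/-- an element of order 3 of `kN1`. -/
def cDd : ℕ := 14857122

/-- an element conjugating `cDd` into `kN2`. -/
def cG0 : ℕ := 15673952

/-- the inverse of `cG0`. -/
def cG0i : ℕ := 16096528

theorem syl_sub_N1 : ∀ a ∈ syl, a ∈ kN1 := by decide +kernel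

theorem max_basic : cDd ∈ kN1 ∧ ordC cDd = 3 ∧ comp cG0 cG0i = idc ∧ comp cY cYi = idc ∧
    cG0 ∈ codes ∧ cG0i ∈ codes ∧ cY ∈ codes := by
  decide +kernel

/-- an element either normalises `⟨cY⟩` or generates, with `cY`, elements of order 4 and 3. -/
theorem factA : ∀ c ∈ codes, (∃ k < 7, comp c cY = comp (pw cY k) c) ∨
    ((∃ i < 7, ordC (comp (pw cY i) c) = 4) ∧ (∃ i < 7, ordC (comp (pw cY i) c) = 3)) := by
  decide +kernel

/-- an element lies in `kN1`, or in a conjugate of `kN2`, or generates with `cDd` an element of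
order 7. -/
theorem factB : ∀ c ∈ codes, c ∈ kN1 ∨ comp (comp cG0 c) cG0i ∈ kN2 ∨
    ∃ i < 3, ∃ j < 3, ∃ k < 3,
      ordC (comp (comp (comp (pw cDd i) c) (comp (pw cDd j) c)) (comp (pw cDd k) c)) = 7 := by
  decide +kernel

/-- `kN1` and `kN2` are not conjugate. -/
theorem nonconj_N : ∀ c ∈ codes, ∃ v ∈ kN1, ∀ w ∈ kN2, comp c v ≠ comp w c := by
  decide +kernel

end Cfsg.Agent.Lib.Helper5.Model168
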