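import Mathlib
import Cfsg.Agent.Lib.Helper5.Model168Klein
import Cfsg.Agent.Lib.Helper5.Model168MaxData

/-!
# Maximal subgroups of a simple group of order 168

Every maximal subgroup is the normaliser of a subgroup of order 7 (non-abelian of order 21, one
conjugacy class) or is isomorphic to `S₄` (two conjugacy classes).
-/

set_option autoImplicit false

namespace Cfsg.Agent.Lib.Helper5.Model168

section gen

variable {G : Type*} [Group G]

theorem isCoatom_cj (g : G) (H : Subgroup G) (hH : IsCoatom H) : IsCoatom (cj g H) :=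
  ((MulAut.conj g).mapSubgroup.isCoatom_iff H).2 hH

theorem le_or_le_of_mem_or (H A B : Subgroup G) (h : ∀ c ∈ H, c ∈ A ∨ c ∈ B) :
    H ≤ A ∨ H ≤ B := by
  by_contra hcon
  rw [not_or] at hcon
  obtain ⟨hA, hB⟩ := hcon
  obtain ⟨a, haH, haA⟩ := SetLike.not_le_iff_exists.1 hA
  obtain ⟨b, hbH, hbB⟩ := SetLike.not_le_iff_exists.1 hB
  have haB : a ∈ B := (h a haH).resolve_left haA
  have hbA : b ∈ A := (h b hbH).resolve_right hbB
  rcases h (a * b) (H.mul_mem haH hbH) with h1 | h1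
  · exact haA ((Subgroup.mul_mem_cancel_right A hbA).1 h1)
  · exact hbB ((Subgroup.mul_mem_cancel_left B haB).1 h1)

/-- a subgroup of a simple group of order 168 with elements of orders 4, 3 and 7 is the whole
group. -/
theorem eq_top_of_orders [Finite G] [IsSimpleGroup G] (hG : Nat.card G = 168) (H : Subgroup G)
    (t x y : G) (ht : t ∈ H) (hx : x ∈ H) (hy : y ∈ H) (ot : orderOf t = 4)
    (ox : orderOf x = 3) (oy : orderOf y = 7) : H = ⊤ := by
  have d4 : 4 ∣ Nat.card H := ot ▸ Subgroup.orderOf_dvd_natCard H ht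
  have d3 : 3 ∣ Nat.card H := ox ▸ Subgroup.orderOf_dvd_natCard H hx
  have d7 : 7 ∣ Nat.card H := oy ▸ Subgroup.orderOf_dvd_natCard H hy
  have d84 : 84 ∣ Nat.card H := by
    have h12 : 12 ∣ Nat.card H :=
      Nat.Coprime.mul_dvd_of_dvd_of_dvd (by norm_num : Nat.Coprime 4 3) d4 d3
    exact Nat.Coprime.mul_dvd_of_dvd_of_dvd (by norm_num : Nat.Coprime 12 7) h12 d7
  have hidx := Subgroup.card_mul_index H
  rw [hG] at hidx
  obtain ⟨m, hm⟩ := d84
  have hmi : m * H.index = 2 := by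
    rw [hm, mul_assoc] at hidx
    omega
  have hdvd : H.index ∣ 2 := Dvd.intro_left m hmi
  rcases (Nat.dvd_prime Nat.prime_two).1 hdvd with h1 | h2
  · exact Subgroup.index_eq_one.1 h1
  · have hn : H.Normal := Subgroup.normal_of_index_eq_two h2
    rcases hn.eq_bot_or_eq_top with hb | ht'
    · exfalso
      rw [hb, Subgroup.card_bot] at hm
      omega
    · exact ht'

end gen

namespace Model

variable {G : Type*} [Group G] (M : Model G)

theorem sub_ne_top [Finite G] (hG : Nat.card G = 168) (L : List ℕ) (hL : Closed L)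
    (hcount : (codes.filter (fun n => decide (n ∈ L))).length = 24) : M.sub L hL ≠ ⊤ := by
  intro h
  have h1 := M.card_sub L hL
  rw [h, Subgroup.card_top, hG, hcount] at h1
  omega

theorem cj_sub_ne_top [Finite G] (hG : Nat.card G = 168) (L : List ℕ) (hL : Closed L)
    (hcount : (codes.filter (fun n => decide (n ∈ L))).length = 24) (g : G) :
    cj g (M.sub L hL) ≠ ⊤ := by
  intro h
  have h1 := card_cj g (M.sub L hL)
  rw [h, Subgroup.card_top, hG, M.card_sub, hcount] at h1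
  omega

/-- a model subgroup of order 24 is maximal. -/
theorem isCoatom_sub [Finite G] (hG : Nat.card G = 168) (L : List ℕ) (hL : Closed L)
    (hcount : (codes.filter (fun n => decide (n ∈ L))).length = 24) : IsCoatom (M.sub L hL) := by
  refine ⟨M.sub_ne_top hG L hL hcount, fun K hK => ?_⟩
  have hc : Nat.card (M.sub L hL) = 24 := by rw [M.card_sub, hcount]
  have h1 : 24 ∣ Nat.card K := hc ▸ Subgroup.card_dvd_of_le hK.le
  have h2 : Nat.card K ∣ 168 := hG ▸ Subgroup.card_subgroup_dvd_card K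
  have h3 : Nat.card K ≠ 24 := by
    intro h24
    exact hK.ne (Subgroup.eq_of_le_of_card_ge hK.le (by rw [hc, h24]))
  obtain ⟨m, hm⟩ := h1
  obtain ⟨n, hn⟩ := h2
  have h4 : m * n = 7 := by
    rw [hm, mul_assoc] at hn
    omega
  have h5 : m ∣ 7 := Dvd.intro n h4
  rcases (Nat.dvd_prime (by norm_num : Nat.Prime 7)).1 h5 with h6 | h6
  · exfalso
    apply h3
    rw [hm, h6]
  · apply (Subgroup.card_eq_iff_eq_top K).1
    rw [hm, h6, hG]

/-- two model subgroups are not conjugate, from the finite check. -/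
theorem not_conj_sub (L1 L2 : List ℕ) (h1 : Closed L1) (h2 : Closed L2)
    (hnc : ∀ c ∈ codes, ∃ v ∈ L1, ∀ w ∈ L2, comp c v ≠ comp w c) (g : G) :
    cj g (M.sub L1 h1) ≠ M.sub L2 h2 := by
  intro h
  obtain ⟨v, hv, hvw⟩ := hnc _ (M.mem g)
  obtain ⟨v', rfl⟩ := M.surj v (h1.1 v hv)
  have h3 : g * v' * g⁻¹ ∈ cj g (M.sub L1 h1) := by
    rw [mem_cj]
    have h4 : g⁻¹ * (g * v' * g⁻¹) * g = v' := by group
    rw [h4]
    exact hv
  rw [h] at h3
  apply hvw _ h3
  rw [← M.mul, ← M.mul]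
  congr 1
  group

/-- a maximal subgroup containing the model element of order 7 is its normaliser. -/
theorem coatom_seven [Finite G] [IsSimpleGroup G] (hG : Nat.card G = 168) (H : Subgroup G)
    (hH : IsCoatom H) (y : G) (hy : y ∈ H) (hcy : M.code y = cY) (oy : orderOf y = 7) :
    H = Subgroup.normalizer ((Subgroup.zpowers y : Subgroup G) : Set G) := by
  have key : ∀ c ∈ H, ∃ k : ℕ, c * y = y ^ k * c := by
    intro c hc
    rcases factA _ (M.mem c) with ⟨k, -, hk⟩ | ⟨⟨i, -, hi⟩, ⟨j, -, hj⟩⟩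
    · refine ⟨k, M.inj ?_⟩
      rw [M.mul, M.mul, M.pow, hcy, hk]
    · exfalso
      apply hH.1
      refine eq_top_of_orders hG H (y ^ i * c) (y ^ j * c) y (H.mul_mem (H.pow_mem hy i) hc)
        (H.mul_mem (H.pow_mem hy j) hc) hy ?_ ?_ oy
      · rw [M.orderOf_eq, M.mul, M.pow, hcy, hi]
      · rw [M.orderOf_eq, M.mul, M.pow, hcy, hj]
  have hconj : ∀ c ∈ H, ∀ z ∈ Subgroup.zpowers y, c * z * c⁻¹ ∈ Subgroup.zpowers y := by
    intro c hc z hz
    obtain ⟨k, hk⟩ := key c hc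
    obtain ⟨n, rfl⟩ := Subgroup.mem_zpowers_iff.1 hz
    have h1 : c * y * c⁻¹ = y ^ k := by rw [hk]; group
    have h2 : c * y ^ n * c⁻¹ = (c * y * c⁻¹) ^ n := by rw [conj_zpow]
    rw [h2, h1]
    exact Subgroup.zpow_mem _ (Subgroup.pow_mem _ (Subgroup.mem_zpowers y) k) n
  have hle : H ≤ Subgroup.normalizer ((Subgroup.zpowers y : Subgroup G) : Set G) := by
    intro c hc
    rw [Subgroup.mem_normalizer_iff]
    intro z
    constructor
    · exact hconj c hc z
    · intro hz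
      have h3 := hconj c⁻¹ (H.inv_mem hc) _ hz
      have h4 : c⁻¹ * (c * z * c⁻¹) * c⁻¹⁻¹ = z := by group
      rw [h4] at h3
      exact h3
  have hne : Subgroup.normalizer ((Subgroup.zpowers y : Subgroup G) : Set G) ≠ ⊤ := by
    intro htop
    have hnorm : (Subgroup.zpowers y).Normal := Subgroup.normalizer_eq_top_iff.1 htop
    have h7 : Nat.card (Subgroup.zpowers y) = 7 := by rw [Nat.card_zpowers, oy]
    rcases hnorm.eq_bot_or_eq_top with hb | ht
    · rw [hb, Subgroup.card_bot] at h7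
      omega
    · rw [ht, Subgroup.card_top, hG] at h7
      omega
  exact ((hH.le_iff_eq hne).1 hle).symm

theorem card_normalizer_seven [Finite G] [IsSimpleGroup G] (hG : Nat.card G = 168) (y : G)
    (oy : orderOf y = 7) :
    Nat.card (Subgroup.normalizer ((Subgroup.zpowers y : Subgroup G) : Set G)) = 21 := by
  have : Fact (Nat.Prime 7) := ⟨by norm_num⟩
  have h7 : Nat.card (Subgroup.zpowers y) = 7 := by rw [Nat.card_zpowers, oy]
  have hpg : IsPGroup 7 (Subgroup.zpowers y) := IsPGroup.of_card (n := 1) (by rw [h7]; norm_num)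
  obtain ⟨Q, hQ⟩ := hpg.exists_le_sylow
  have hQ7 : Nat.card (Q : Subgroup G) = 7 := by
    have := Lib.Helper17.card_sylow_eq_of_card_eq 7 1 24 (by rw [hG]; norm_num) (by decide) Q
    simpa using this
  have hZQ : Subgroup.zpowers y = (Q : Subgroup G) :=
    Subgroup.eq_of_le_of_card_ge hQ (by rw [h7, hQ7])
  obtain ⟨-, -, hs7⟩ := Cfsg.Agent.S1003.result hG
  have h1 := Lib.Helper17.card_sylow_mul_card_normalizer 7 Q
  rw [hs7, hG] at h1
  rw [hZQ]
  omega

/-- a maximal subgroup without elements of order 7 that contains the model element of order 3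
is one of two subgroups of order 24. -/
theorem coatom_three [Finite G] (hG : Nat.card G = 168) (H : Subgroup G) (hH : IsCoatom H)
    (d' γ : G) (hd : d' ∈ H) (hcd : M.code d' = cDd) (hγ : M.code γ = cG0)
    (h7 : ∀ z ∈ H, orderOf z ≠ 7) :
    H = M.sub kN1 closed_N1 ∨ H = cj γ⁻¹ (M.sub kN2 closed_N2) := by
  obtain ⟨-, -, hgg, -, -, hgi, -⟩ := max_basic
  have hγi : M.code γ⁻¹ = cG0i := by
    obtain ⟨δ, hδ⟩ := M.surj cG0i hgi
    have h1 : γ * δ = 1 := M.inj (by rw [M.mul, hγ, hδ, hgg, M.one])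
    rw [inv_eq_of_mul_eq_one_right h1]
    exact hδ
  have hmem : ∀ c ∈ H, c ∈ M.sub kN1 closed_N1 ∨ c ∈ cj γ⁻¹ (M.sub kN2 closed_N2) := by
    intro c hc
    rcases factB _ (M.mem c) with h1 | h1 | ⟨i, -, j, -, k, -, h1⟩
    · left; exact h1
    · right
      rw [mem_cj, inv_inv, M.mem_sub, M.mul, M.mul, hγ, hγi]
      exact h1
    · exfalso
      apply h7 (d' ^ i * c * (d' ^ j * c) * (d' ^ k * c))
        (H.mul_mem (H.mul_mem (H.mul_mem (H.pow_mem hd i) hc) (H.mul_mem (H.pow_mem hd j) hc))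
          (H.mul_mem (H.pow_mem hd k) hc))
      rw [M.orderOf_eq]
      simp only [M.mul, M.pow, hcd]
      exact h1
  rcases le_or_le_of_mem_or H _ _ hmem with h1 | h1
  · left
    exact ((hH.le_iff_eq (M.sub_ne_top hG kN1 closed_N1 count_N1)).1 h1).symm
  · right
    exact ((hH.le_iff_eq (M.cj_sub_ne_top hG kN2 closed_N2 count_N2 _)).1 h1).symm

/-- a maximal subgroup with an element of order 7 is conjugate to the normaliser of the model
subgroup of order 7. -/
theorem coatom_of_seven [Finite G] [IsSimpleGroup G] (hG : Nat.card G = 168) (y0 : G)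
    (hy0 : M.code y0 = cY) (H : Subgroup G) (hH : IsCoatom H) (y : G) (hy : y ∈ H)
    (oy : orderOf y = 7) :
    ∃ g : G, H = cj g (Subgroup.normalizer ((Subgroup.zpowers y0 : Subgroup G) : Set G)) := by
  obtain ⟨r, hconj, -, -, -, hr⟩ := M.conj_rep y
  obtain ⟨g, hg⟩ := _root_.isConj_iff.1 hconj
  have hrH : r ∈ cj g H := by
    rw [mem_cj, ← hg]
    have h1 : g⁻¹ * (g * y * g⁻¹) * g = y := by group
    rw [h1]
    exact hy
  have or' : orderOf r = 7 := by rw [← Model.orderOf_eq_of_isConj hconj, oy]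
  have hy0H : y0 ∈ cj g H ∧ orderOf y0 = 7 := by
    rcases hr oy with h1 | h1
    · have h2 : r = y0 := M.inj (by rw [h1, hy0])
      rw [← h2]
      exact ⟨hrH, or'⟩
    · obtain ⟨-, -, -, hyy, -, -, -⟩ := max_basic
      have h2 : y0 * r = 1 := M.inj (by rw [M.mul, hy0, h1, hyy, M.one])
      have h3 : y0 = r⁻¹ := eq_inv_of_mul_eq_one_left h2
      rw [h3, orderOf_inv]
      exact ⟨inv_mem hrH, or'⟩
  have h4 := M.coatom_seven hG (cj g H) (isCoatom_cj g H hH) y0 hy0H.1 hy0 hy0H.2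
  refine ⟨g⁻¹, ?_⟩
  rw [← h4, cj_inv_cj]

/-- a maximal subgroup without elements of order 7 is conjugate to one of the two model
subgroups of order 24. -/
theorem coatom_of_no_seven [Finite G] [IsSimpleGroup G] (hG : Nat.card G = 168)
    (H : Subgroup G) (hH : IsCoatom H) (h7 : ∀ z ∈ H, orderOf z ≠ 7) :
    (∃ g : G, H = cj g (M.sub kN1 closed_N1)) ∨ (∃ g : G, H = cj g (M.sub kN2 closed_N2)) := by
  obtain ⟨hd1, hd3, -, -, hg0, -, -⟩ := max_basic
  by_cases h3 : ∃ x ∈ H, orderOf x = 3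
  · obtain ⟨x, hx, ox⟩ := h3
    obtain ⟨d', hd'⟩ := M.surj cDd (closed_N1.1 _ hd1)
    obtain ⟨γ, hγ⟩ := M.surj cG0 hg0
    have od : orderOf d' = 3 := by rw [M.orderOf_eq, hd', hd3]
    obtain ⟨g, hg⟩ := _root_.isConj_iff.1 (M.isConj_three ox od)
    have hdH : d' ∈ cj g H := by
      rw [mem_cj, ← hg]
      have h1 : g⁻¹ * (g * x * g⁻¹) * g = x := by group
      rw [h1]
      exact hx
    have h7' : ∀ z ∈ cj g H, orderOf z ≠ 7 := by
      intro z hz
      rw [mem_cj] at hz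
      have h1 : IsConj z (g⁻¹ * z * g) := _root_.isConj_iff.2 ⟨g⁻¹, by group⟩
      rw [Model.orderOf_eq_of_isConj h1]
      exact h7 _ hz
    rcases M.coatom_three hG (cj g H) (isCoatom_cj g H hH) d' γ hdH hd' hγ h7' with h1 | h1
    · left
      refine ⟨g⁻¹, ?_⟩
      rw [← h1, cj_inv_cj]
    · right
      refine ⟨g⁻¹ * γ⁻¹, ?_⟩
      rw [← cj_cj, ← h1, cj_inv_cj]
  · left
    have : Fact (Nat.Prime 2) := ⟨Nat.prime_two⟩
    have hpg : IsPGroup 2 H := by
      intro z
      refine ⟨2, ?_⟩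
      have h4 : (z : G) ^ 4 = 1 := by
        rcases M.orderOf_cases (z : G) with ho | ho | ho | ho | ho
        · rw [orderOf_eq_one_iff.1 ho, one_pow]
        · have := pow_orderOf_eq_one (z : G)
          rw [ho] at this
          rw [show (4 : ℕ) = 2 * 2 from rfl, pow_mul, this, one_pow]
        · exact absurd ⟨(z : G), z.2, ho⟩ h3
        · have := pow_orderOf_eq_one (z : G)
          rwa [ho] at this
        · exact absurd ho (h7 _ z.2)
      apply Subtype.ext
      simpa using h4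
    obtain ⟨Q, hQ⟩ := hpg.exists_le_sylow
    obtain ⟨g, hg⟩ := M.exists_cj_sylow hG Q
    have hle : H ≤ cj g (M.sub kN1 closed_N1) := by
      refine hQ.trans ?_
      rw [hg]
      exact cj_mono g (fun s hs => syl_sub_N1 _ hs)
    exact ⟨g, ((hH.le_iff_eq (M.cj_sub_ne_top hG kN1 closed_N1 count_N1 _)).1 hle).symm⟩

end Model

/-- The maximal subgroups of a simple group of order 168. -/
theorem maximal_facts {G : Type*} [Group G] [Finite G] [IsSimpleGroup G]
    (h : Nat.card G = 168) :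
    (∀ M : Subgroup G, IsCoatom M → Nonempty (↥M ≃* Equiv.Perm (Fin 4)) ∨
      (Nat.card ↥M = 21 ∧ ¬ IsMulCommutative ↥M)) ∧
    (∀ M M' : Subgroup G, IsCoatom M → IsCoatom M' → Nat.card ↥M = 21 → Nat.card ↥M' = 21 →
      ∃ g : G, M' = M.map (MulAut.conj g).toMonoidHom) ∧
    ∃ M₁ M₂ : Subgroup G, IsCoatom M₁ ∧ IsCoatom M₂ ∧ Nonempty (↥M₁ ≃* Equiv.Perm (Fin 4)) ∧
      Nonempty (↥M₂ ≃* Equiv.Perm (Fin 4)) ∧
      (∀ g : G, M₂ ≠ M₁.map (MulAut.conj g).toMonoidHom) ∧
      ∀ M : Subgroup G, IsCoatom M → Nonempty (↥M ≃* Equiv.Perm (Fin 4)) →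
        ∃ g : G, M = M₁.map (MulAut.conj g).toMonoidHom ∨
          M = M₂.map (MulAut.conj g).toMonoidHom := by
  obtain ⟨M⟩ := exists_model h
  obtain ⟨-, -, -, -, -, -, hcY⟩ := max_basic
  obtain ⟨y0, hy0⟩ := M.surj cY hcY
  obtain ⟨e1⟩ := M.sub_equiv_S4 kN1 closed_N1 count_N1 _ _ gens_N1
  obtain ⟨e2⟩ := M.sub_equiv_S4 kN2 closed_N2 count_N2 _ _ gens_N2
  have hseven : ∀ H : Subgroup G, Nat.card H = 21 → ∃ y ∈ H, orderOf y = 7 := by
    intro H hH
    have : Fact (Nat.Prime 7) := ⟨by norm_num⟩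
    obtain ⟨y, hy⟩ := exists_prime_orderOf_dvd_card' (G := H) 7 (by rw [hH]; norm_num)
    exact ⟨y.1, y.2, by rw [← hy, Subgroup.orderOf_coe]⟩
  have hno7 : ∀ H : Subgroup G, Nat.card H = 24 → ∀ z ∈ H, orderOf z ≠ 7 := by
    intro H hH z hz ho
    have h1 := Subgroup.orderOf_dvd_natCard H hz
    rw [ho, hH] at h1
    omega
  refine ⟨?_, ?_, ?_⟩
  · intro H hH
    by_cases h7 : ∃ y ∈ H, orderOf y = 7
    · right
      obtain ⟨y, hy, oy⟩ := h7
      have oy0 : orderOf y0 = 7 := by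
        rw [M.orderOf_eq, hy0]
        decide
      obtain ⟨g, hg⟩ := M.coatom_of_seven h y0 hy0 H hH y hy oy
      have hc21 : Nat.card H = 21 := by
        rw [hg, card_cj, Model.card_normalizer_seven h y0 oy0]
      refine ⟨hc21, fun hcomm => ?_⟩
      have : Fact (Nat.Prime 3) := ⟨by norm_num⟩
      obtain ⟨x, hx⟩ := exists_prime_orderOf_dvd_card' (G := H) 3 (by rw [hc21]; norm_num)
      have hyo : orderOf (⟨y, hy⟩ : H) = 7 := by rw [Subgroup.orderOf_mk, oy]
      have hcm : Commute x (⟨y, hy⟩ : H) := hcomm.is_comm.comm x ⟨y, hy⟩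
      have h21 := hcm.orderOf_mul_eq_mul_orderOf_of_coprime (by rw [hx, hyo]; norm_num)
      rw [hx, hyo, ← Subgroup.orderOf_coe] at h21
      rcases M.orderOf_cases ((x * (⟨y, hy⟩ : H) : H) : G) with ho | ho | ho | ho | ho <;>
        omega
    · left
      have h7' : ∀ z ∈ H, orderOf z ≠ 7 := fun z hz ho => h7 ⟨z, hz, ho⟩
      rcases M.coatom_of_no_seven h H hH h7' with ⟨g, hg⟩ | ⟨g, hg⟩
      · rw [hg]
        exact ⟨((MulAut.conj g).subgroupMap (M.sub kN1 closed_N1)).symm.trans e1⟩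
      · rw [hg]
        exact ⟨((MulAut.conj g).subgroupMap (M.sub kN2 closed_N2)).symm.trans e2⟩
  · intro H H' hH hH' hc hc'
    obtain ⟨y, hy, oy⟩ := hseven H hc
    obtain ⟨y', hy', oy'⟩ := hseven H' hc'
    obtain ⟨a, ha⟩ := M.coatom_of_seven h y0 hy0 H hH y hy oy
    obtain ⟨b, hb⟩ := M.coatom_of_seven h y0 hy0 H' hH' y' hy' oy'
    refine ⟨b * a⁻¹, ?_⟩
    show H' = cj (b * a⁻¹) H
    rw [ha, hb, cj_cj, inv_mul_cancel_right]
  · refine ⟨M.sub kN1 closed_N1, M.sub kN2 closed_N2, M.isCoatom_sub h _ _ count_N1,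
      M.isCoatom_sub h _ _ count_N2, ⟨e1⟩, ⟨e2⟩, ?_, ?_⟩
    · intro g hg
      exact M.not_conj_sub kN1 kN2 closed_N1 closed_N2 nonconj_N g hg.symm
    · intro H hH ⟨e⟩
      have hc24 : Nat.card H = 24 := by
        rw [Nat.card_congr e.toEquiv, Nat.card_perm, Nat.card_eq_fintype_card, Fintype.card_fin]
        rfl
      rcases M.coatom_of_no_seven h H hH (hno7 H hc24) with ⟨g, hg⟩ | ⟨g, hg⟩
      · exact ⟨g, Or.inl hg⟩
      · exact ⟨g, Or.inr hg⟩

end Cfsg.Agent.Lib.Helper5.Model168
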