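import Mathlib
import Cfsg.Agent.Lib.Helper5.Model168
import Cfsg.Agent.Lib.Helper54.Dihedral

/-!
# A simple group of order 168: the Sylow 2-subgroups

They are dihedral of order 8, self-normalising, and are the centralisers of their central
involutions.
-/

set_option autoImplicit false
open scoped Pointwise

namespace Cfsg.Agent.Lib.Helper5.Model168

theorem syl_sub : ∀ a ∈ syl, a ∈ codes := by decide +kernel

theorem syl_mul : ∀ a ∈ syl, ∀ b ∈ syl, comp a b ∈ syl := by decide +kernel

theorem syl_one : idc ∈ syl := by decide +kernel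

theorem syl_inv : ∀ a ∈ syl, ∃ b ∈ syl, comp a b = idc := by decide +kernel

theorem syl_count : (codes.filter (fun n => decide (n ∈ syl))).length = 8 := by decide +kernel

theorem syl_gen : cA ∈ syl ∧ cX ∈ syl ∧ ordC cA = 4 ∧ pw cX 2 = idc ∧
    comp (comp cX cA) cX = pw cA 3 ∧ ∀ k < 4, pw cA k ≠ cX := by
  decide +kernel

theorem cent2 : ∀ n ∈ codes, ordC n = 2 →
    (codes.filter (fun c => decide (comp c n = comp n c))).length = 8 := by
  decide +kernel

theorem cent4 : ∀ n ∈ codes, ordC n = 4 →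
    (codes.filter (fun c => decide (comp c n = comp n c))).length = 4 := by
  decide +kernel

namespace Model

variable {G : Type*} [Group G] (M : Model G)

/-- the model Sylow 2-subgroup. -/
def sylow : Subgroup G where
  carrier := {g | M.code g ∈ syl}
  mul_mem' := by
    intro a b ha hb
    show M.code (a * b) ∈ syl
    rw [M.mul]
    exact syl_mul _ ha _ hb
  one_mem' := by
    show M.code 1 ∈ syl
    rw [M.one]
    exact syl_one
  inv_mem' := by
    intro a ha
    obtain ⟨b, hb, hab⟩ := syl_inv _ ha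
    obtain ⟨g, rfl⟩ := M.surj b (syl_sub b hb)
    have h1 : a * g = 1 := M.inj (by rw [M.mul, hab, M.one])
    have h2 : a⁻¹ = g := inv_eq_of_mul_eq_one_right h1
    show M.code a⁻¹ ∈ syl
    rw [h2]
    exact hb

theorem mem_sylow (g : G) : g ∈ M.sylow ↔ M.code g ∈ syl := Iff.rfl

theorem card_sylow [Finite G] : Nat.card M.sylow = 8 := by
  rw [← syl_count]
  exact M.card_subtype (fun g => g ∈ M.sylow) (fun n => decide (n ∈ syl))
    (fun g => by rw [mem_sylow]; simp)

theorem card_centralizer [Finite G] (z : G) :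
    Nat.card (Subgroup.centralizer ({z} : Set G))
      = (codes.filter (fun c => decide (comp c (M.code z) = comp (M.code z) c))).length := by
  refine M.card_subtype (fun g => g ∈ Subgroup.centralizer ({z} : Set G)) _ (fun g => ?_)
  rw [Subgroup.mem_centralizer_singleton_iff, decide_eq_true_eq, ← M.mul, ← M.mul]
  exact ⟨fun h => by rw [h], fun h => M.inj h⟩

/-- the model Sylow 2-subgroup is dihedral. -/
theorem sylow_dihedral [Finite G] : Nonempty (M.sylow ≃* DihedralGroup 4) := by
  obtain ⟨hA, hX, oA, hX2, hconj, hne⟩ := syl_gen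
  obtain ⟨a, ha⟩ := M.surj cA (syl_sub _ hA)
  obtain ⟨x, hx⟩ := M.surj cX (syl_sub _ hX)
  have haS : a ∈ M.sylow := by rw [mem_sylow, ha]; exact hA
  have hxS : x ∈ M.sylow := by rw [mem_sylow, hx]; exact hX
  have hao : orderOf a = 4 := by rw [M.orderOf_eq, ha, oA]
  have ha4 : a ^ 4 = 1 := by rw [← hao]; exact pow_orderOf_eq_one a
  have hx2 : x ^ 2 = 1 := M.inj (by rw [M.pow, hx, hX2, M.one])
  have hxi : x⁻¹ = x := inv_eq_of_mul_eq_one_right (by rw [← pow_two]; exact hx2)
  have hai : a⁻¹ = a ^ 3 := inv_eq_of_mul_eq_one_right (by rw [← pow_succ']; exact ha4)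
  have hc : x * a * x⁻¹ = a⁻¹ := by
    rw [hxi, hai]
    apply M.inj
    rw [M.mul, M.mul, M.pow, hx, ha, hconj]
  refine Cfsg.Agent.Lib.Helper54.nonempty_mulEquiv_dihedralGroup (S := M.sylow)
    (x := ⟨x, hxS⟩) (a := ⟨a, haS⟩) (n := 4) (Subtype.ext hx2) ?_ ?_ ?_ (Subtype.ext hc)
  · rw [Subgroup.orderOf_mk, hao]
  · rw [M.card_sylow]
  · intro hmem
    obtain ⟨k, hk, hxk⟩ := Simple168.exists_pow_of_mem_zpowers
      (x := (⟨a, haS⟩ : M.sylow)) (by rw [Subgroup.orderOf_mk, hao]) (by norm_num) hmem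
    have h1 : x = a ^ k := by
      have := congrArg Subtype.val hxk
      simpa using this
    apply hne k hk
    rw [← ha, ← M.pow, ← h1, hx]

end Model

/-- The Sylow 2-subgroups of a simple group of order 168. -/
theorem sylow_two_facts {G : Type*} [Group G] [Finite G] [IsSimpleGroup G]
    (h : Nat.card G = 168) (T : Sylow 2 G) :
    Nonempty (↥(T : Subgroup G) ≃* DihedralGroup 4) ∧
      Subgroup.normalizer ((T : Subgroup G) : Set G) = T ∧
      ∀ z : G, z ∈ (T : Subgroup G) → z ≠ 1 → (∀ t ∈ (T : Subgroup G), t * z = z * t) →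
        Subgroup.centralizer ({z} : Set G) = T := by
  obtain ⟨M⟩ := exists_model h
  have : Fact (Nat.Prime 2) := ⟨Nat.prime_two⟩
  have hcard8 : ∀ Q : Sylow 2 G, Nat.card (Q : Subgroup G) = 8 := by
    intro Q
    have := Lib.Helper17.card_sylow_eq_of_card_eq 2 3 21 (by rw [h]; norm_num) (by decide) Q
    simpa using this
  have hT8 := hcard8 T
  refine ⟨?_, ?_, ?_⟩
  · have hS8 : Nat.card M.sylow = 8 := M.card_sylow
    have hpg : IsPGroup 2 M.sylow := IsPGroup.of_card (n := 3) (by rw [hS8]; norm_num)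
    obtain ⟨Q, hQ⟩ := hpg.exists_le_sylow
    have hSQ : M.sylow = (Q : Subgroup G) :=
      Subgroup.eq_of_le_of_card_ge hQ (by rw [hS8, hcard8 Q])
    obtain ⟨g, hg⟩ := MulAction.exists_smul_eq G Q T
    have hTQ : (T : Subgroup G) = MulAut.conj g • (Q : Subgroup G) := by
      rw [← hg, Sylow.coe_subgroup_smul]
    obtain ⟨e⟩ := M.sylow_dihedral
    exact ⟨(MulEquiv.subgroupCongr hTQ).trans
      ((Subgroup.equivSMul (MulAut.conj g) (Q : Subgroup G)).symm.trans
        ((MulEquiv.subgroupCongr hSQ.symm).trans e))⟩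
  · obtain ⟨hs2, -, -⟩ := Cfsg.Agent.S1003.result h
    have h1 := Lib.Helper17.card_sylow_mul_card_normalizer 2 T
    rw [hs2, h] at h1
    have h2 : Nat.card (Subgroup.normalizer ((T : Subgroup G) : Set G)) = 8 := by omega
    exact (Subgroup.eq_of_le_of_card_ge Subgroup.le_normalizer (by rw [h2, hT8])).symm
  · intro z hzT hz1 hcomm
    have hle : (T : Subgroup G) ≤ Subgroup.centralizer ({z} : Set G) := by
      intro t ht
      rw [Subgroup.mem_centralizer_singleton_iff]
      exact hcomm t ht
    have hcz := M.card_centralizer z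
    have hdvd : orderOf z ∣ 8 := hT8 ▸ Subgroup.orderOf_dvd_natCard _ hzT
    have hle8 : 8 ≤ Nat.card (Subgroup.centralizer ({z} : Set G)) := by
      rw [← hT8]; exact Subgroup.card_le_of_le hle
    rcases M.orderOf_cases z with ho | ho | ho | ho | ho
    · exact absurd (orderOf_eq_one_iff.1 ho) hz1
    · have h8 : Nat.card (Subgroup.centralizer ({z} : Set G)) = 8 := by
        rw [hcz]
        exact cent2 _ (M.mem z) (by rw [← M.orderOf_eq]; exact ho)
      exact (Subgroup.eq_of_le_of_card_ge hle (by rw [h8, hT8])).symm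
    · rw [ho] at hdvd
      norm_num at hdvd
    · have h4 : Nat.card (Subgroup.centralizer ({z} : Set G)) = 4 := by
        rw [hcz]
        exact cent4 _ (M.mem z) (by rw [← M.orderOf_eq]; exact ho)
      omega
    · rw [ho] at hdvd
      norm_num at hdvd

end Cfsg.Agent.Lib.Helper5.Model168
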