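import Mathlib
import Cfsg.Agent.Lib.Helper52.SameOrder

/-!
Arithmetic of the numbers of elements of each order in a finite group (helper5):
the constraints (Frobenius, Cauchy, Lagrange, totient divisibility, Sylow counting for primes
dividing the order exactly once) packaged as a structure `Arith`.
-/

set_option autoImplicit false

namespace Cfsg.Agent.Lib.Helper5.Nse

open Cfsg.Agent.Lib.Helper52

/-- Arithmetic data of the order statistics `s d = #{g : o(g) = d}` of a group of order `N`. -/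
structure Arith (s : ℕ → ℕ) (N : ℕ) : Prop where
  pos : 0 < N
  one : s 1 = 1
  tot : ∀ d, d.totient ∣ s d
  frob : ∀ m, m ∣ N → m ∣ ∑ d ∈ m.divisors, s d
  cauchy : ∀ p, p.Prime → p ∣ N → s p ≠ 0
  lagr : ∀ d, s d ≠ 0 → d ∣ N
  clos : ∀ d e, e ∣ d → s d ≠ 0 → s e ≠ 0
  total : ∑ d ∈ N.divisors, s d = N
  sylow : ∀ p, p.Prime → p ∣ N → ¬ p ^ 2 ∣ N → ∃ k, s p = (p - 1) * k ∧ k ∣ N

section group
variable {G : Type*} [Group G] [Finite G]

theorem ordCount_eq_totient_mul (d : ℕ) :
    ordCount G d = d.totient * Nat.card {K : Subgroup G // IsCyclic K ∧ Nat.card K = d} := by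
  classical
  have := Fintype.ofFinite G
  unfold ordCount
  let f : {g : G // orderOf g = d} → {K : Subgroup G // IsCyclic K ∧ Nat.card K = d} :=
    fun g => ⟨Subgroup.zpowers g.1, inferInstance, by rw [Nat.card_zpowers]; exact g.2⟩
  have hfib : ∀ K, Nat.card {g // f g = K} = d.totient := by
    intro K
    obtain ⟨K, hKc, hKd⟩ := K
    have e : {g // f g = ⟨K, hKc, hKd⟩} ≃ {k : K // orderOf k = d} :=
      { toFun := fun g => ⟨⟨g.1.1, by
            have h1 : Subgroup.zpowers g.1.1 = K := congrArg Subtype.val g.2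
            have h2 : g.1.1 ∈ Subgroup.zpowers g.1.1 := Subgroup.mem_zpowers _
            rwa [h1] at h2⟩, by
            rw [← Subgroup.orderOf_coe]; exact g.1.2⟩
        invFun := fun k => ⟨⟨k.1.1, by rw [Subgroup.orderOf_coe]; exact k.2⟩, by
            apply Subtype.ext
            show Subgroup.zpowers (k.1 : G) = K
            apply Subgroup.eq_of_le_of_card_ge
            · rw [Subgroup.zpowers_le]; exact k.1.2
            · rw [Nat.card_zpowers, Subgroup.orderOf_coe, k.2, hKd]⟩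
        left_inv := fun g => rfl
        right_inv := fun k => rfl }
    rw [Nat.card_congr e]
    have := Fintype.ofFinite K
    rw [Nat.card_eq_fintype_card, Fintype.card_subtype]
    apply IsCyclic.card_orderOf_eq_totient
    rw [← Nat.card_eq_fintype_card, hKd]
  rw [Nat.card_congr (Equiv.sigmaFiberEquiv f).symm, Nat.card_sigma]
  simp only [hfib, Finset.sum_const, Finset.card_univ, smul_eq_mul, Nat.card_eq_fintype_card]
  rw [mul_comm]

theorem totient_dvd_ordCount (d : ℕ) : d.totient ∣ ordCount G d :=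
  Dvd.intro _ (ordCount_eq_totient_mul d).symm

theorem card_cyclic_eq_card_sylow {p : ℕ} [hp : Fact p.Prime] (h1 : p ∣ Nat.card G)
    (h2 : ¬ p ^ 2 ∣ Nat.card G) :
    Nat.card {K : Subgroup G // IsCyclic K ∧ Nat.card K = p} = Nat.card (Sylow p G) := by
  have hN : Nat.card G ≠ 0 := Nat.card_pos.ne'
  have hfac : (Nat.card G).factorization p = 1 := by
    have a1 : 1 ≤ (Nat.card G).factorization p :=
      (hp.out.pow_dvd_iff_le_factorization hN).mp (by simpa using h1)
    have a2 : ¬ 2 ≤ (Nat.card G).factorization p := fun h =>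
      h2 ((hp.out.pow_dvd_iff_le_factorization hN).mpr h)
    omega
  refine Nat.card_congr ⟨fun K => Sylow.ofCard K.1 (by rw [hfac, pow_one]; exact K.2.2),
    fun P => ⟨P.1, ?_, ?_⟩, fun K => ?_, fun P => ?_⟩
  · have : Nat.card (P : Subgroup G) = p := by rw [P.card_eq_multiplicity, hfac, pow_one]
    exact isCyclic_of_prime_card this
  · rw [P.card_eq_multiplicity, hfac, pow_one]
  · rfl
  · rfl

theorem ordCount_sylow {p : ℕ} (hp : p.Prime) (h1 : p ∣ Nat.card G)
    (h2 : ¬ p ^ 2 ∣ Nat.card G) :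
    ordCount G p = (p - 1) * Nat.card (Sylow p G) := by
  have : Fact p.Prime := ⟨hp⟩
  rw [ordCount_eq_totient_mul, card_cyclic_eq_card_sylow h1 h2, Nat.totient_prime hp]

theorem ordCount_total : ∑ d ∈ (Nat.card G).divisors, ordCount G d = Nat.card G := by
  rw [← card_pow_eq_one_eq_sum (G := G) (Nat.card G) Nat.card_pos.ne']
  exact Nat.card_congr (Equiv.subtypeUnivEquiv (fun x => pow_card_eq_one'))

theorem arith_of_group : Arith (ordCount G) (Nat.card G) where
  pos := Nat.card_pos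
  one := ordCount_one
  tot := totient_dvd_ordCount
  frob := dvd_sum_ordCount
  cauchy := fun p hp h => ordCount_prime_ne_zero hp h
  lagr := by
    intro d hd
    obtain ⟨g, rfl⟩ := (ordCount_ne_zero_iff d).mp hd
    exact orderOf_dvd_natCard g
  clos := by
    intro d e hed hd
    obtain ⟨g, rfl⟩ := (ordCount_ne_zero_iff d).mp hd
    apply (ordCount_ne_zero_iff e).mpr
    have hpos : 0 < orderOf g := orderOf_pos g
    obtain ⟨c, hc⟩ := hed
    have hc0 : c ≠ 0 := by rintro rfl; omega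
    have he0 : e ≠ 0 := by rintro rfl; omega
    refine ⟨g ^ c, ?_⟩
    rw [orderOf_pow_of_dvd hc0 (Dvd.intro_left e hc.symm), hc]
    exact Nat.mul_div_cancel e (Nat.pos_of_ne_zero hc0)
  total := ordCount_total
  sylow := by
    intro p hp h1 h2
    have : Fact p.Prime := ⟨hp⟩
    refine ⟨Nat.card (Sylow p G), ordCount_sylow hp h1 h2, ?_⟩
    exact (Sylow.card_dvd_index (default : Sylow p G)).trans (Subgroup.index_dvd_card _)

end group

namespace Arith
variable {s : ℕ → ℕ} {N : ℕ}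

theorem zero_ndvd (A : Arith s N) {d : ℕ} (h : ¬ d ∣ N) : s d = 0 := by
  by_contra h0
  exact h (A.lagr d h0)

theorem zero_of_dvd (A : Arith s N) (e d : ℕ) (hed : e ∣ d) (he : s e = 0) : s d = 0 := by
  by_contra h0
  exact A.clos d e hed h0 he

theorem dvd_of_ne (A : Arith s N) {d : ℕ} (h : s d ≠ 0) : d ∣ N := A.lagr d h

theorem frobL (A : Arith s N) (m : ℕ) (L : List ℕ) (hL : m.divisors = L.toFinset)
    (hnd : L.Nodup) (hm : m ∣ N) : m ∣ (L.map s).sum := by
  have := A.frob m hm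
  rwa [hL, List.sum_toFinset _ hnd] at this

theorem sumL_le (A : Arith s N) (m : ℕ) (L : List ℕ) (hL : m.divisors = L.toFinset)
    (hnd : L.Nodup) (hm : m ∣ N) : (L.map s).sum ≤ N := by
  have h1 : ∑ d ∈ m.divisors, s d ≤ ∑ d ∈ N.divisors, s d :=
    Finset.sum_le_sum_of_subset (Nat.divisors_subset_of_dvd A.pos.ne' hm)
  rw [A.total, hL, List.sum_toFinset _ hnd] at h1
  exact h1

theorem totalL (A : Arith s N) (L : List ℕ) (hL : N.divisors = L.toFinset) (hnd : L.Nodup) :
    (L.map s).sum = N := by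
  have := A.total
  rwa [hL, List.sum_toFinset _ hnd] at this

theorem frob_prime (A : Arith s N) {p : ℕ} (hp : p.Prime) (h : p ∣ N) : p ∣ 1 + s p := by
  have := A.frob p h
  rwa [hp.divisors, Finset.sum_pair hp.one_lt.ne, A.one] at this

theorem tot_prime (A : Arith s N) {p : ℕ} (hp : p.Prime) : p - 1 ∣ s p := by
  have := A.tot p
  rwa [Nat.totient_prime hp] at this

theorem sum_le (A : Arith s N) (T : Finset ℕ) (hT : ∀ v ∈ T, v ≠ 0 ∧ ∃ d, s d = v) :
    ∑ v ∈ T, v ≤ N := by
  classical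
  have h1 : T ⊆ N.divisors.image s := by
    intro v hv
    obtain ⟨hv0, d, hd⟩ := hT v hv
    exact Finset.mem_image.mpr
      ⟨d, Nat.mem_divisors.mpr ⟨A.lagr d (by rw [hd]; exact hv0), A.pos.ne'⟩, hd⟩
  calc ∑ v ∈ T, v ≤ ∑ v ∈ N.divisors.image s, v := Finset.sum_le_sum_of_subset h1
    _ ≤ ∑ d ∈ N.divisors, s d := Finset.sum_image_le_of_nonneg (fun _ _ => Nat.zero_le _)
    _ = N := A.total

/-- An odd value other than `1` can only be the number of involutions. -/
theorem eq_two_of_odd (A : Arith s N) {d v : ℕ} (hv : ¬ 2 ∣ v) (hv1 : v ≠ 1) (h : s d = v) :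
    d = 2 := by
  have hv0 : v ≠ 0 := by rintro rfl; exact hv (dvd_zero 2)
  have hdN : d ∣ N := A.lagr d (by rw [h]; exact hv0)
  have hd0 : d ≠ 0 := by
    rintro rfl
    exact A.pos.ne' (Nat.eq_zero_of_zero_dvd hdN)
  have hd1 : d ≠ 1 := by
    rintro rfl
    rw [A.one] at h
    exact hv1 h.symm
  by_contra hd2
  have h3 : 2 < d := by omega
  have h4 : 2 ∣ d.totient := (Nat.totient_even h3).two_dvd
  exact hv (h ▸ h4.trans (A.tot d))

theorem dvd_of_prime_pow (A : Arith s N) (M : ℕ)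
    (h : ∀ p k : ℕ, p.Prime → p ^ k ∣ N → p ^ k ∣ M) : N ∣ M :=
  (Nat.dvd_iff_prime_pow_dvd_dvd M N).mpr h

theorem dvd_of_bounds (A : Arith s N) (M : ℕ)
    (hM : ∀ p, p.Prime → p ∣ N → ∃ e, p ^ e ∣ M ∧ ¬ p ^ (e + 1) ∣ N) : N ∣ M := by
  apply A.dvd_of_prime_pow
  intro p k hp hpk
  rcases Nat.eq_zero_or_pos k with rfl | hk
  · simp
  · obtain ⟨e, he1, he2⟩ := hM p hp ((dvd_pow_self p hk.ne').trans hpk)
    by_cases hke : k ≤ e
    · exact (Nat.pow_dvd_pow p hke).trans he1
    · exact absurd ((Nat.pow_dvd_pow p (by omega : e + 1 ≤ k)).trans hpk) he2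

theorem cl (A : Arith s N) (e d : ℕ) (hed : e ∣ d) : s e ≠ 0 ∨ s d = 0 := by
  by_cases h : s e = 0
  · exact Or.inr (A.zero_of_dvd e d hed h)
  · exact Or.inl h

theorem mem_of_sum_eq (A : Arith s N) (K : Finset ℕ) (hK : ∀ d ∈ K, d ∣ N)
    (hsum : ∑ d ∈ K, s d = N) : ∀ d, s d ≠ 0 → d ∈ K := by
  classical
  intro d hd
  by_contra hdK
  have hsub : K ⊆ N.divisors := fun e he => Nat.mem_divisors.mpr ⟨hK e he, A.pos.ne'⟩
  have hdN : d ∈ N.divisors := Nat.mem_divisors.mpr ⟨A.lagr d hd, A.pos.ne'⟩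
  have h1 : ∑ e ∈ insert d K, s e ≤ ∑ e ∈ N.divisors, s e :=
    Finset.sum_le_sum_of_subset (Finset.insert_subset hdN hsub)
  rw [Finset.sum_insert hdK, hsum, A.total] at h1
  omega

end Arith

end Cfsg.Agent.Lib.Helper5.Nse
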