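import Mathlib
import Cfsg.Agent.Lib.Helper5.Nse

/-!
The order statistics with value set `{1, 3, 8}` force order `12` (helper5).
-/

set_option autoImplicit false

namespace Cfsg.Agent.Lib.Helper5.Nse

theorem arith_A4 {s : ℕ → ℕ} {N : ℕ} (A : Arith s N)
    (val : ∀ d, s d = 0 ∨ s d = 1 ∨ s d = 3 ∨ s d = 8)
    (a3 : ∃ d, s d = 3) (a8 : ∃ d, s d = 8) : N = 12 ∧ s 2 = 3 ∧ s 3 = 8 := by
  have o := A.one
  obtain ⟨d3, hd3⟩ := a3
  have h2 : s 2 = 3 := by
    have h := A.eq_two_of_odd (by norm_num) (by norm_num) hd3
    rw [h] at hd3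
    exact hd3
  have t3 := A.tot 3
  have t4 := A.tot 4
  have t6 := A.tot 6
  have t8 := A.tot 8
  have t9 := A.tot 9
  rw [show Nat.totient 3 = 2 from by decide] at t3
  rw [show Nat.totient 4 = 2 from by decide] at t4
  rw [show Nat.totient 6 = 2 from by decide] at t6
  rw [show Nat.totient 8 = 4 from by decide] at t8
  rw [show Nat.totient 9 = 6 from by decide] at t9
  -- primes
  have hprime : ∀ p, p.Prime → p ∣ N → p = 2 ∨ p = 3 := by
    intro p hp hpN
    have c := A.cauchy p hp hpN
    have t := A.tot_prime hp
    have f := A.frob_prime hp hpN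
    have h2le := hp.two_le
    rcases val p with h | h | h | h
    · exact absurd h c
    · rw [h] at t
      have := Nat.le_of_dvd (by norm_num) t
      left; omega
    · rw [h] at f
      have := Nat.le_of_dvd (by norm_num) f
      interval_cases p <;> first | omega | exact absurd hp (by norm_num)
    · rw [h] at f
      have := Nat.le_of_dvd (by norm_num) f
      interval_cases p <;> first | omega | exact absurd hp (by norm_num)
  have hs3 : 3 ∣ N → s 3 = 8 := by
    intro h
    have c := A.cauchy 3 (by norm_num) h
    rcases val 3 with h | h | h | h <;> omega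
  have hs9 : 9 ∣ N → s 9 = 0 := by
    intro h
    have h3 := hs3 (Dvd.dvd.trans (by norm_num) h)
    have f9 := A.frobL 9 [1, 3, 9] (by decide) (by decide) h
    simp only [List.map, List.sum_cons, List.sum_nil] at f9
    rcases val 9 with h | h | h | h <;> omega
  have h8 : ¬ 8 ∣ N := by
    intro h
    have h4 : 4 ∣ N := Dvd.dvd.trans (by norm_num) h
    have f4 := A.frobL 4 [1, 2, 4] (by decide) (by decide) h4
    have f8 := A.frobL 8 [1, 2, 4, 8] (by decide) (by decide) h
    simp only [List.map, List.sum_cons, List.sum_nil] at f4 f8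
    rcases val 4 with h | h | h | h <;> rcases val 8 with h' | h' | h' | h' <;> omega
  have h27 : ¬ 27 ∣ N := by
    intro h
    have h3 := hs3 (Dvd.dvd.trans (by norm_num) h)
    have h9 := hs9 (Dvd.dvd.trans (by norm_num) h)
    have f27 := A.frobL 27 [1, 3, 9, 27] (by decide) (by decide) h
    simp only [List.map, List.sum_cons, List.sum_nil] at f27
    rcases val 27 with h | h | h | h <;> omega
  have hN36 : N ∣ 36 := by
    apply A.dvd_of_bounds
    intro p hp hpN
    rcases hprime p hp hpN with rfl | rfl
    · exact ⟨2, by norm_num, h8⟩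
    · exact ⟨2, by norm_num, h27⟩
  have hN12 : 12 ≤ N := by
    have := A.sum_le {1, 3, 8} (by
      intro v hv
      simp only [Finset.mem_insert, Finset.mem_singleton] at hv
      rcases hv with rfl | rfl | rfl
      · exact ⟨by norm_num, 1, o⟩
      · exact ⟨by norm_num, 2, h2⟩
      · exact ⟨by norm_num, a8⟩)
    simpa using this
  have hle := Nat.le_of_dvd (by norm_num) hN36
  have hcases : N = 12 ∨ N = 18 ∨ N = 36 := by
    interval_cases N <;> omega
  rcases hcases with rfl | rfl | rfl
  · exact ⟨rfl, h2, hs3 (by norm_num)⟩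
  · exfalso
    have h3 := hs3 (by norm_num)
    have h9 := hs9 (by norm_num)
    have h18 := A.zero_of_dvd 9 18 (by norm_num) h9
    have f6 := A.frobL 6 [1, 2, 3, 6] (by decide) (by decide) (by norm_num)
    have tt := A.totalL [1, 2, 3, 6, 9, 18] (by decide) (by decide)
    simp only [List.map, List.sum_cons, List.sum_nil] at f6 tt
    rcases val 6 with h | h | h | h <;> omega
  · exfalso
    have h3 := hs3 (by norm_num)
    have h9 := hs9 (by norm_num)
    have h18 := A.zero_of_dvd 9 18 (by norm_num) h9
    have f18 := A.frobL 18 [1, 2, 3, 6, 9, 18] (by decide) (by decide) (by norm_num)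
    simp only [List.map, List.sum_cons, List.sum_nil] at f18
    rcases val 6 with h | h | h | h <;> omega

end Cfsg.Agent.Lib.Helper5.Nse
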