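import Mathlib
import Cfsg.Agent.Lib.Helper5.Nse

/-!
The order statistics with value set `{1, 15, 20, 24}` force order `60` (helper5).
-/

set_option autoImplicit false

namespace Cfsg.Agent.Lib.Helper5.Nse

/-- Order statistics with values in `{1, 15, 20, 24}`. -/
structure D5 (s : ℕ → ℕ) (N : ℕ) : Prop where
  A : Arith s N
  val : ∀ d, s d = 0 ∨ s d = 1 ∨ s d = 15 ∨ s d = 20 ∨ s d = 24
  s2 : s 2 = 15

namespace D5
variable {s : ℕ → ℕ} {N : ℕ}

theorem two_dvd (D : D5 s N) : 2 ∣ N := D.A.lagr 2 (by rw [D.s2]; norm_num)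

theorem prime (D : D5 s N) : ∀ p, p.Prime → p ∣ N → p = 2 ∨ p = 3 ∨ p = 5 := by
  have A := D.A
  have val := D.val
  intro p hp hpN
  have c := A.cauchy p hp hpN
  have t := A.tot_prime hp
  have f := A.frob_prime hp hpN
  have h2le := hp.two_le
  rcases val p with h | h | h | h | h
  · exact absurd h c
  · rw [h] at t
    have := Nat.le_of_dvd (by norm_num) t
    left; omega
  · rw [h] at f
    have := Nat.le_of_dvd (by norm_num) f
    interval_cases p <;> first | omega | exact absurd hp (by norm_num)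
  · rw [h] at f
    have := Nat.le_of_dvd (by norm_num) f
    interval_cases p <;> first | omega | exact absurd hp (by norm_num)
  · rw [h] at f
    have := Nat.le_of_dvd (by norm_num) f
    interval_cases p <;> first | omega | exact absurd hp (by norm_num)

theorem s3 (D : D5 s N) (h : 3 ∣ N) : s 3 = 20 := by
  have A := D.A
  have val := D.val
  have c := A.cauchy 3 (by norm_num) h
  have f := A.frob_prime (by norm_num) h
  have t3 := A.tot 3
  rw [show Nat.totient 3 = 2 from by decide] at t3
  rcases val 3 with h | h | h | h | h <;> omega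

theorem s5 (D : D5 s N) (h : 5 ∣ N) : s 5 = 24 := by
  have A := D.A
  have val := D.val
  have c := A.cauchy 5 (by norm_num) h
  have f := A.frob_prime (by norm_num) h
  have t5 := A.tot 5
  rw [show Nat.totient 5 = 4 from by decide] at t5
  rcases val 5 with h | h | h | h | h <;> omega

theorem s9 (D : D5 s N) (h : 9 ∣ N) : s 9 = 24 := by
  have A := D.A
  have val := D.val
  have o := A.one
  have h3 := D.s3 (Dvd.dvd.trans (by norm_num) h)
  have f9 := A.frobL 9 [1, 3, 9] (by decide) (by decide) h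
  simp only [List.map, List.sum_cons, List.sum_nil] at f9
  have t9 := A.tot 9
  rw [show Nat.totient 9 = 6 from by decide] at t9
  rcases val 9 with h | h | h | h | h <;> omega

theorem n27 (D : D5 s N) : ¬ 27 ∣ N := by
  have A := D.A
  have val := D.val
  have o := A.one
  intro h
  have h3 := D.s3 (Dvd.dvd.trans (by norm_num) h)
  have h9 := D.s9 (Dvd.dvd.trans (by norm_num) h)
  have f27 := A.frobL 27 [1, 3, 9, 27] (by decide) (by decide) h
  simp only [List.map, List.sum_cons, List.sum_nil] at f27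
  have t27 := A.tot 27
  rw [show Nat.totient 27 = 18 from by decide] at t27
  rcases val 27 with h | h | h | h | h <;> omega

theorem n25 (D : D5 s N) : ¬ 25 ∣ N := by
  have A := D.A
  have val := D.val
  have o := A.one
  have h2 := D.s2
  intro h
  have h5 := D.s5 (Dvd.dvd.trans (by norm_num) h)
  have h50 : 50 ∣ N := Nat.Coprime.mul_dvd_of_dvd_of_dvd (by norm_num : Nat.Coprime 2 25)
    D.two_dvd h
  have f25 := A.frobL 25 [1, 5, 25] (by decide) (by decide) h
  simp only [List.map, List.sum_cons, List.sum_nil] at f25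
  have t25 := A.tot 25
  rw [show Nat.totient 25 = 20 from by decide] at t25
  have e25 : s 25 = 0 := by
    rcases val 25 with h | h | h | h | h <;> omega
  have z50 : s 50 = 0 := A.zero_of_dvd 25 50 (by norm_num) e25
  have f50 := A.frobL 50 [1, 2, 5, 10, 25, 50] (by decide) (by decide) h50
  simp only [List.map, List.sum_cons, List.sum_nil] at f50
  rcases val 10 with h' | h' | h' | h' | h' <;> omega

theorem syl5 (D : D5 s N) (h : 5 ∣ N) : 3 ∣ N := by
  have h5 := D.s5 h
  obtain ⟨k, hk, hkN⟩ := D.A.sylow 5 (by norm_num) h (by norm_num; exact D.n25)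
  have : k = 6 := by omega
  subst this
  exact Dvd.dvd.trans (by norm_num) hkN

theorem syl3 (D : D5 s N) (h : 3 ∣ N) (h9 : ¬ 9 ∣ N) : 5 ∣ N := by
  have h3 := D.s3 h
  obtain ⟨k, hk, hkN⟩ := D.A.sylow 3 (by norm_num) h (by norm_num; exact h9)
  have : k = 10 := by omega
  subst this
  exact Dvd.dvd.trans (by norm_num) hkN

theorem n9_5 (D : D5 s N) (h9 : 9 ∣ N) (h5 : 5 ∣ N) : False := by
  have A := D.A
  have val := D.val
  have o := A.one
  have e3 := D.s3 (Dvd.dvd.trans (by norm_num) h9)
  have e5 := D.s5 h5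
  have e9 := D.s9 h9
  have h45 : 45 ∣ N := Nat.Coprime.mul_dvd_of_dvd_of_dvd (by norm_num : Nat.Coprime 9 5) h9 h5
  have f45 := A.frobL 45 [1, 3, 5, 9, 15, 45] (by decide) (by decide) h45
  simp only [List.map, List.sum_cons, List.sum_nil] at f45
  have t15 := A.tot 15
  rw [show Nat.totient 15 = 8 from by decide] at t15
  have t45 := A.tot 45
  rw [show Nat.totient 45 = 24 from by decide] at t45
  rcases val 15 with h | h | h | h | h <;> rcases val 45 with h' | h' | h' | h' | h' <;> omega

theorem ch16 (D : D5 s N) (h : 16 ∣ N) :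
    (s 4 = 0 ∧ s 8 = 0 ∧ s 16 = 0) ∨ (s 4 = 20 ∧ s 8 = 20 ∧ s 16 = 24) ∨
      (s 4 = 24 ∧ s 8 = 24 ∧ s 16 = 0) := by
  have A := D.A
  have val := D.val
  have o := A.one
  have h2 := D.s2
  have f4 := A.frobL 4 [1, 2, 4] (by decide) (by decide) (Dvd.dvd.trans (by norm_num) h)
  simp only [List.map, List.sum_cons, List.sum_nil] at f4
  have f8 := A.frobL 8 [1, 2, 4, 8] (by decide) (by decide) (Dvd.dvd.trans (by norm_num) h)
  simp only [List.map, List.sum_cons, List.sum_nil] at f8
  have f16 := A.frobL 16 [1, 2, 4, 8, 16] (by decide) (by decide) h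
  simp only [List.map, List.sum_cons, List.sum_nil] at f16
  have t4 := A.tot 4
  rw [show Nat.totient 4 = 2 from by decide] at t4
  have t8 := A.tot 8
  rw [show Nat.totient 8 = 4 from by decide] at t8
  have t16 := A.tot 16
  rw [show Nat.totient 16 = 8 from by decide] at t16
  have e4 : s 4 = 0 ∨ s 4 = 20 ∨ s 4 = 24 := by
    rcases val 4 with h | h | h | h | h <;> omega
  have e8 : s 8 = 0 ∨ s 8 = 20 ∨ s 8 = 24 := by
    rcases val 8 with h | h | h | h | h <;> omega
  have e16 : s 16 = 0 ∨ s 16 = 24 := by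
    rcases val 16 with h | h | h | h | h <;> omega
  rcases e4 with h | h | h
  · exact Or.inl ⟨h, A.zero_of_dvd 4 8 (by norm_num) h, A.zero_of_dvd 4 16 (by norm_num) h⟩
  · right; left
    rcases e8 with h' | h' | h' <;> rcases e16 with h'' | h'' <;> omega
  · right; right
    rcases e8 with h' | h' | h'
    · have z16 := A.zero_of_dvd 8 16 (by norm_num) h'
      omega
    · rcases e16 with h'' | h'' <;> omega
    · rcases e16 with h'' | h'' <;> omega

theorem ch32 (D : D5 s N) (h : 32 ∣ N) : s 4 = 24 ∧ s 8 = 24 ∧ s 16 = 0 ∧ s 32 = 0 := by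
  have A := D.A
  have val := D.val
  have o := A.one
  have h2 := D.s2
  have h16 := D.ch16 (Dvd.dvd.trans (by norm_num) h)
  have f32 := A.frobL 32 [1, 2, 4, 8, 16, 32] (by decide) (by decide) h
  simp only [List.map, List.sum_cons, List.sum_nil] at f32
  have t32 := A.tot 32
  rw [show Nat.totient 32 = 16 from by decide] at t32
  rcases h16 with ⟨a, b, c⟩ | ⟨a, b, c⟩ | ⟨a, b, c⟩
  · have z32 : s 32 = 0 := A.zero_of_dvd 16 32 (by norm_num) c
    omega
  · rcases val 32 with h | h | h | h | h <;> omega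
  · have z32 : s 32 = 0 := A.zero_of_dvd 16 32 (by norm_num) c
    exact ⟨a, b, c, z32⟩

theorem n128 (D : D5 s N) : ¬ 128 ∣ N := by
  have A := D.A
  have o := A.one
  have h2 := D.s2
  intro h
  obtain ⟨a, b, c, d⟩ := D.ch32 (Dvd.dvd.trans (by norm_num) h)
  have z64 : s 64 = 0 := A.zero_of_dvd 32 64 (by norm_num) d
  have z128 : s 128 = 0 := A.zero_of_dvd 32 128 (by norm_num) d
  have f128 := A.frobL 128 [1, 2, 4, 8, 16, 32, 64, 128] (by decide) (by decide) h
  simp only [List.map, List.sum_cons, List.sum_nil] at f128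
  omega

set_option maxHeartbeats 2000000 in
/-- The main case: `5 ∣ N`. -/
theorem main5 (D : D5 s N) (hN60 : 60 ≤ N) (h5 : 5 ∣ N) : N = 60 := by
  have A := D.A
  have val := D.val
  have o := A.one
  have h2 := D.s2
  have h3 := D.syl5 h5
  have h9 : ¬ 9 ∣ N := fun h => D.n9_5 h h5
  have e3 := D.s3 h3
  have e5 := D.s5 h5
  have h2N : 2 ∣ N := D.two_dvd
  have h6N : 6 ∣ N := Nat.Coprime.mul_dvd_of_dvd_of_dvd (by norm_num : Nat.Coprime 2 3) h2N h3
  have h30N : 30 ∣ N := Nat.Coprime.mul_dvd_of_dvd_of_dvd (by norm_num : Nat.Coprime 6 5) h6N h5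
  have f15 := A.frobL 15 [1, 3, 5, 15] (by decide) (by decide) (Dvd.dvd.trans (by norm_num) h30N)
  simp only [List.map, List.sum_cons, List.sum_nil] at f15
  have f6 := A.frobL 6 [1, 2, 3, 6] (by decide) (by decide) h6N
  simp only [List.map, List.sum_cons, List.sum_nil] at f6
  have f10 := A.frobL 10 [1, 2, 5, 10] (by decide) (by decide) (Dvd.dvd.trans (by norm_num) h30N)
  simp only [List.map, List.sum_cons, List.sum_nil] at f10
  have f30 := A.frobL 30 [1, 2, 3, 5, 6, 10, 15, 30] (by decide) (by decide) h30N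
  simp only [List.map, List.sum_cons, List.sum_nil] at f30
  have t15 := A.tot 15
  rw [show Nat.totient 15 = 8 from by decide] at t15
  have e15 : s 15 = 0 := by
    rcases val 15 with h | h | h | h | h <;> omega
  have z30 : s 30 = 0 := A.zero_of_dvd 15 30 (by norm_num) e15
  have e6 : s 6 = 0 ∨ s 6 = 24 := by
    rcases val 6 with h | h | h | h | h <;> omega
  have e10 : s 10 = 0 ∨ s 10 = 20 := by
    rcases val 10 with h | h | h | h | h <;> omega
  have e6_10 : s 6 = 0 ∧ s 10 = 0 := by
    rcases e6 with h | h <;> rcases e10 with h' | h' <;> omega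
  have h8 : ¬ 8 ∣ N := by
    intro h8
    have h4N : 4 ∣ N := Dvd.dvd.trans (by norm_num) h8
    have h12N : 12 ∣ N := Nat.Coprime.mul_dvd_of_dvd_of_dvd (by norm_num : Nat.Coprime 4 3) h4N h3
    have h20N : 20 ∣ N := Nat.Coprime.mul_dvd_of_dvd_of_dvd (by norm_num : Nat.Coprime 4 5) h4N h5
    have h24N : 24 ∣ N := Nat.Coprime.mul_dvd_of_dvd_of_dvd (by norm_num : Nat.Coprime 8 3) h8 h3
    have h120N : 120 ∣ N :=
      Nat.Coprime.mul_dvd_of_dvd_of_dvd (by norm_num : Nat.Coprime 24 5) h24N h5
    have f4 := A.frobL 4 [1, 2, 4] (by decide) (by decide) h4N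
    simp only [List.map, List.sum_cons, List.sum_nil] at f4
    have f12 := A.frobL 12 [1, 2, 3, 4, 6, 12] (by decide) (by decide) h12N
    simp only [List.map, List.sum_cons, List.sum_nil] at f12
    have f20 := A.frobL 20 [1, 2, 4, 5, 10, 20] (by decide) (by decide) h20N
    simp only [List.map, List.sum_cons, List.sum_nil] at f20
    have z12 : s 12 = 0 := A.zero_of_dvd 6 12 (by norm_num) e6_10.1
    have z20 : s 20 = 0 := A.zero_of_dvd 10 20 (by norm_num) e6_10.2
    have e4 : s 4 = 0 := by
      rcases val 4 with h | h | h | h | h <;> omega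
    have z8 : s 8 = 0 := A.zero_of_dvd 4 8 (by norm_num) e4
    have z24 : s 24 = 0 := A.zero_of_dvd 4 24 (by norm_num) e4
    have z40 : s 40 = 0 := A.zero_of_dvd 4 40 (by norm_num) e4
    have z60 : s 60 = 0 := A.zero_of_dvd 6 60 (by norm_num) e6_10.1
    have z120 : s 120 = 0 := A.zero_of_dvd 4 120 (by norm_num) e4
    clear f4 f12 f20 f6 f10 f15 f30 e6 e10
    have f120 := A.frobL 120 [1, 2, 3, 4, 5, 6, 8, 10, 12, 15, 20, 24, 30, 40, 60, 120] (by decide) (by decide) h120N
    simp only [List.map, List.sum_cons, List.sum_nil] at f120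
    omega
  have hN : N ∣ 60 := by
    apply A.dvd_of_bounds
    intro p hp hpN
    rcases D.prime p hp hpN with rfl | rfl | rfl
    · exact ⟨2, by norm_num, h8⟩
    · exact ⟨1, by norm_num, h9⟩
    · exact ⟨1, by norm_num, D.n25⟩
  have := Nat.le_of_dvd (by norm_num) hN
  omega

set_option maxHeartbeats 2000000 in
/-- The case `N = 2 ^ a * 9`. -/
theorem no9 (D : D5 s N) (h5 : ¬ 5 ∣ N) (h9 : 9 ∣ N) : False := by
  have A := D.A
  have val := D.val
  have o := A.one
  have h2 := D.s2
  have h3 : 3 ∣ N := Dvd.dvd.trans (by norm_num) h9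
  have e3 := D.s3 h3
  have e9 := D.s9 h9
  have h2N : 2 ∣ N := D.two_dvd
  have h18N : 18 ∣ N := Nat.Coprime.mul_dvd_of_dvd_of_dvd (by norm_num : Nat.Coprime 2 9) h2N h9
  have f6 := A.frobL 6 [1, 2, 3, 6] (by decide) (by decide) (Dvd.dvd.trans (by norm_num) h18N)
  simp only [List.map, List.sum_cons, List.sum_nil] at f6
  have f18 := A.frobL 18 [1, 2, 3, 6, 9, 18] (by decide) (by decide) h18N
  simp only [List.map, List.sum_cons, List.sum_nil] at f18
  have g18 := A.sumL_le 18 [1, 2, 3, 6, 9, 18] (by decide) (by decide) h18N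
  simp only [List.map, List.sum_cons, List.sum_nil] at g18
  have t18 := A.tot 18
  rw [show Nat.totient 18 = 6 from by decide] at t18
  have e6 : s 6 = 0 ∨ s 6 = 24 := by
    rcases val 6 with h | h | h | h | h <;> omega
  have e18 : s 18 = 0 ∨ s 18 = 24 := by
    rcases val 18 with h | h | h | h | h <;> omega
  have e6_18 : s 6 = 24 ∧ s 18 = 24 := by
    rcases e6 with h | h <;> rcases e18 with h' | h' <;> omega
  have h16N : 16 ∣ N := by
    by_contra h16
    have hN : N ∣ 72 := by
      apply A.dvd_of_bounds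
      intro p hp hpN
      rcases D.prime p hp hpN with rfl | rfl | rfl
      · exact ⟨3, by norm_num, h16⟩
      · exact ⟨2, by norm_num, D.n27⟩
      · exact absurd hpN h5
    have := Nat.le_of_dvd (by norm_num) hN
    omega
  have h8N : 8 ∣ N := Dvd.dvd.trans (by norm_num) h16N
  have h72N : 72 ∣ N := Nat.Coprime.mul_dvd_of_dvd_of_dvd (by norm_num : Nat.Coprime 8 9) h8N h9
  have f72 := A.frobL 72 [1, 2, 3, 4, 6, 8, 9, 12, 18, 24, 36, 72] (by decide) (by decide) h72N
  simp only [List.map, List.sum_cons, List.sum_nil] at f72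
  rcases D.ch16 h16N with hA | hB | hC
  · clear f6 f18 g18 e6 e18
    have z12 : s 12 = 0 := A.zero_of_dvd 4 12 (by norm_num) hA.1
    have z24 : s 24 = 0 := A.zero_of_dvd 4 24 (by norm_num) hA.1
    have z36 : s 36 = 0 := A.zero_of_dvd 4 36 (by norm_num) hA.1
    have z72 : s 72 = 0 := A.zero_of_dvd 4 72 (by norm_num) hA.1
    omega
  · have h32 : ¬ 32 ∣ N := by
      intro h
      have := D.ch32 h
      omega
    have hN : N ∣ 144 := by
      apply A.dvd_of_bounds
      intro p hp hpN
      rcases D.prime p hp hpN with rfl | rfl | rfl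
      · exact ⟨4, by norm_num, h32⟩
      · exact ⟨2, by norm_num, D.n27⟩
      · exact absurd hpN h5
    have hle := Nat.le_of_dvd (by norm_num) hN
    have h144N : 144 ∣ N :=
      Nat.Coprime.mul_dvd_of_dvd_of_dvd (by norm_num : Nat.Coprime 16 9) h16N h9
    have g144 := A.sumL_le 144 [1, 2, 3, 4, 6, 8, 9, 12, 16, 18, 24, 36, 48, 72, 144] (by decide) (by decide) h144N
    simp only [List.map, List.sum_cons, List.sum_nil] at g144
    omega
  · clear f6 f18 g18 e6 e18
    have f36 := A.frobL 36 [1, 2, 3, 4, 6, 9, 12, 18, 36] (by decide) (by decide) (Dvd.dvd.trans (by norm_num) h72N)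
    simp only [List.map, List.sum_cons, List.sum_nil] at f36
    have t12 := A.tot 12
    rw [show Nat.totient 12 = 4 from by decide] at t12
    have t36 := A.tot 36
    rw [show Nat.totient 36 = 12 from by decide] at t36
    have t24 := A.tot 24
    rw [show Nat.totient 24 = 8 from by decide] at t24
    have t72 := A.tot 72
    rw [show Nat.totient 72 = 24 from by decide] at t72
    have e12 : s 12 = 0 ∨ s 12 = 20 ∨ s 12 = 24 := by
      rcases val 12 with h | h | h | h | h <;> omega
    have e36 : s 36 = 0 ∨ s 36 = 24 := by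
      rcases val 36 with h | h | h | h | h <;> omega
    have e12_36 : s 12 = 24 ∧ s 36 = 24 := by
      rcases e12 with h | h | h <;> rcases e36 with h' | h' <;> omega
    have e24 : s 24 = 0 ∨ s 24 = 24 := by
      rcases val 24 with h | h | h | h | h <;> omega
    have e72 : s 72 = 0 ∨ s 72 = 24 := by
      rcases val 72 with h | h | h | h | h <;> omega
    rcases e24 with h | h <;> rcases e72 with h' | h' <;> omega

/-- The case `N = 2 ^ a`. -/
theorem no2 (D : D5 s N) (hN60 : 60 ≤ N) (h5 : ¬ 5 ∣ N) (h3 : ¬ 3 ∣ N) (a20 : ∃ d, s d = 20) :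
    False := by
  have A := D.A
  have o := A.one
  have h2 := D.s2
  have hN : N ∣ 64 := by
    apply A.dvd_of_bounds
    intro p hp hpN
    rcases D.prime p hp hpN with rfl | rfl | rfl
    · exact ⟨6, by norm_num, D.n128⟩
    · exact absurd hpN h3
    · exact absurd hpN h5
  have hle := Nat.le_of_dvd (by norm_num) hN
  have hN64 : N = 64 := by
    clear A D
    interval_cases N <;> omega
  subst hN64
  obtain ⟨e4, e8, e16, e32⟩ := D.ch32 (by norm_num)
  have z64 : s 64 = 0 := A.zero_of_dvd 32 64 (by norm_num) e32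
  obtain ⟨d, hd⟩ := a20
  have hdN : d ∈ Nat.divisors 64 := Nat.mem_divisors.mpr ⟨A.lagr d (by omega), by norm_num⟩
  rw [show Nat.divisors 64 = {1, 2, 4, 8, 16, 32, 64} from by decide] at hdN
  simp only [Finset.mem_insert, Finset.mem_singleton] at hdN
  rcases hdN with rfl | rfl | rfl | rfl | rfl | rfl | rfl <;> omega

end D5

theorem arith_A5 {s : ℕ → ℕ} {N : ℕ} (A : Arith s N)
    (val : ∀ d, s d = 0 ∨ s d = 1 ∨ s d = 15 ∨ s d = 20 ∨ s d = 24)
    (a15 : ∃ d, s d = 15) (a20 : ∃ d, s d = 20) (a24 : ∃ d, s d = 24) :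
    N = 60 ∧ s 2 = 15 ∧ s 3 = 20 ∧ s 5 = 24 := by
  have o := A.one
  obtain ⟨d15, hd15⟩ := a15
  have h2 : s 2 = 15 := by
    have h := A.eq_two_of_odd (by norm_num) (by norm_num) hd15
    rw [h] at hd15
    exact hd15
  have D : D5 s N := ⟨A, val, h2⟩
  have hN60 : 60 ≤ N := by
    have := A.sum_le {1, 15, 20, 24} (by
      intro v hv
      simp only [Finset.mem_insert, Finset.mem_singleton] at hv
      rcases hv with rfl | rfl | rfl | rfl
      · exact ⟨by norm_num, 1, o⟩
      · exact ⟨by norm_num, 2, h2⟩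
      · exact ⟨by norm_num, a20⟩
      · exact ⟨by norm_num, a24⟩)
    simpa using this
  by_cases h5 : 5 ∣ N
  · have hN := D.main5 hN60 h5
    subst hN
    exact ⟨rfl, h2, D.s3 (by norm_num), D.s5 (by norm_num)⟩
  · exfalso
    by_cases h3 : 3 ∣ N
    · have h9 : 9 ∣ N := by
        by_contra h9
        exact h5 (D.syl3 h3 h9)
      exact D.no9 h5 h9
    · exact D.no2 hN60 h5 h3 a20

end Cfsg.Agent.Lib.Helper5.Nse
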