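import Mathlib
import Cfsg.Agent.Lib.Helper5.Nse

/-!
The order statistics with value set `{1, 45, 80, 90, 144}` force order `360` (helper5).
-/

set_option autoImplicit false

namespace Cfsg.Agent.Lib.Helper5.Nse

/-- Order statistics with values in `{1, 45, 80, 90, 144}`. -/
structure D6 (s : ℕ → ℕ) (N : ℕ) : Prop where
  A : Arith s N
  val : ∀ d, s d = 0 ∨ s d = 1 ∨ s d = 45 ∨ s d = 80 ∨ s d = 90 ∨ s d = 144
  s2 : s 2 = 45

namespace D6
variable {s : ℕ → ℕ} {N : ℕ}

theorem two_dvd (D : D6 s N) : 2 ∣ N := D.A.lagr 2 (by rw [D.s2]; norm_num)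

theorem prime (D : D6 s N) : ∀ p, p.Prime → p ∣ N → p = 2 ∨ p = 3 ∨ p = 5 ∨ p = 7 := by
  have A := D.A
  have val := D.val
  intro p hp hpN
  have c := A.cauchy p hp hpN
  have t := A.tot_prime hp
  have f := A.frob_prime hp hpN
  have h2le := hp.two_le
  rcases val p with h | h | h | h | h | h
  · exact absurd h c
  · rw [h] at t
    have := Nat.le_of_dvd (by norm_num) t
    left; omega
  · rw [h] at f
    have := Nat.le_of_dvd (by norm_num) f
    interval_cases p <;> first | omega | exact absurd hp (by norm_num)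
  · rw [h] at f
    have := Nat.le_of_dvd (by norm_num) f
    interval_cases p <;> first | omega | exact absurd hp (by norm_num)
  · rw [h] at f
    have := Nat.le_of_dvd (by norm_num) f
    interval_cases p <;> first | omega | exact absurd hp (by norm_num)
  · rw [h] at f
    have := Nat.le_of_dvd (by norm_num) f
    interval_cases p <;> first | omega | exact absurd hp (by norm_num)

theorem s3 (D : D6 s N) (h : 3 ∣ N) : s 3 = 80 := by
  have A := D.A
  have val := D.val
  have c := A.cauchy 3 (by norm_num) h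
  have f := A.frob_prime (by norm_num) h
  rcases val 3 with h | h | h | h | h | h <;> omega

theorem s5 (D : D6 s N) (h : 5 ∣ N) : s 5 = 144 := by
  have A := D.A
  have val := D.val
  have c := A.cauchy 5 (by norm_num) h
  have f := A.frob_prime (by norm_num) h
  rcases val 5 with h | h | h | h | h | h <;> omega

theorem s7 (D : D6 s N) (h : 7 ∣ N) : s 7 = 90 := by
  have A := D.A
  have val := D.val
  have c := A.cauchy 7 (by norm_num) h
  have f := A.frob_prime (by norm_num) h
  rcases val 7 with h | h | h | h | h | h <;> omega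

theorem s4 (D : D6 s N) (h : 4 ∣ N) : s 4 = 90 := by
  have A := D.A
  have val := D.val
  have o := A.one
  have h2 := D.s2
  have f4 := A.frobL 4 [1, 2, 4] (by decide) (by decide) h
  simp only [List.map, List.sum_cons, List.sum_nil] at f4
  rcases val 4 with h | h | h | h | h | h <;> omega

theorem e8 (D : D6 s N) (h : 8 ∣ N) : s 8 = 0 ∨ s 8 = 80 ∨ s 8 = 144 := by
  have A := D.A
  have val := D.val
  have o := A.one
  have h2 := D.s2
  have h4 := D.s4 (Dvd.dvd.trans (by norm_num) h)
  have f8 := A.frobL 8 [1, 2, 4, 8] (by decide) (by decide) h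
  simp only [List.map, List.sum_cons, List.sum_nil] at f8
  rcases val 8 with h | h | h | h | h | h <;> omega

theorem n16 (D : D6 s N) : ¬ 16 ∣ N := by
  have A := D.A
  have val := D.val
  have o := A.one
  have h2 := D.s2
  intro h
  have h4 := D.s4 (Dvd.dvd.trans (by norm_num) h)
  have h8 := D.e8 (Dvd.dvd.trans (by norm_num) h)
  have f16 := A.frobL 16 [1, 2, 4, 8, 16] (by decide) (by decide) h
  simp only [List.map, List.sum_cons, List.sum_nil] at f16
  have t16 := A.tot 16
  rw [show Nat.totient 16 = 8 from by decide] at t16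
  have e16 : s 16 = 0 ∨ s 16 = 80 ∨ s 16 = 144 := by
    rcases val 16 with h | h | h | h | h | h <;> omega
  rcases h8 with h | h | h <;> rcases e16 with h' | h' | h' <;> omega

theorem e9 (D : D6 s N) (h : 9 ∣ N) : s 9 = 0 ∨ s 9 = 90 ∨ s 9 = 144 := by
  have A := D.A
  have val := D.val
  have o := A.one
  have h3 := D.s3 (Dvd.dvd.trans (by norm_num) h)
  have f9 := A.frobL 9 [1, 3, 9] (by decide) (by decide) h
  simp only [List.map, List.sum_cons, List.sum_nil] at f9
  have t9 := A.tot 9
  rw [show Nat.totient 9 = 6 from by decide] at t9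
  rcases val 9 with h | h | h | h | h | h <;> omega

theorem z9 (D : D6 s N) (h : 27 ∣ N) : s 9 = 0 := by
  have A := D.A
  have val := D.val
  have o := A.one
  have h3 := D.s3 (Dvd.dvd.trans (by norm_num) h)
  have h9 := D.e9 (Dvd.dvd.trans (by norm_num) h)
  have f27 := A.frobL 27 [1, 3, 9, 27] (by decide) (by decide) h
  simp only [List.map, List.sum_cons, List.sum_nil] at f27
  have t27 := A.tot 27
  rw [show Nat.totient 27 = 18 from by decide] at t27
  have e27 : s 27 = 0 ∨ s 27 = 90 ∨ s 27 = 144 := by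
    rcases val 27 with h | h | h | h | h | h <;> omega
  rcases h9 with h | h | h
  · exact h
  · rcases e27 with h' | h' | h' <;> omega
  · rcases e27 with h' | h' | h' <;> omega

theorem n243 (D : D6 s N) : ¬ 243 ∣ N := by
  have A := D.A
  have o := A.one
  intro h
  have h3 := D.s3 (Dvd.dvd.trans (by norm_num) h)
  have h9 := D.z9 (Dvd.dvd.trans (by norm_num) h)
  have z27 : s 27 = 0 := A.zero_of_dvd 9 27 (by norm_num) h9
  have z81 : s 81 = 0 := A.zero_of_dvd 9 81 (by norm_num) h9
  have z243 : s 243 = 0 := A.zero_of_dvd 9 243 (by norm_num) h9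
  have f243 := A.frobL 243 [1, 3, 9, 27, 81, 243] (by decide) (by decide) h
  simp only [List.map, List.sum_cons, List.sum_nil] at f243
  omega

theorem e25 (D : D6 s N) (h : 25 ∣ N) : s 25 = 80 := by
  have A := D.A
  have val := D.val
  have o := A.one
  have h5 := D.s5 (Dvd.dvd.trans (by norm_num) h)
  have f25 := A.frobL 25 [1, 5, 25] (by decide) (by decide) h
  simp only [List.map, List.sum_cons, List.sum_nil] at f25
  have t25 := A.tot 25
  rw [show Nat.totient 25 = 20 from by decide] at t25
  rcases val 25 with h | h | h | h | h | h <;> omega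

theorem n125 (D : D6 s N) : ¬ 125 ∣ N := by
  have A := D.A
  have val := D.val
  have o := A.one
  intro h
  have h5 := D.s5 (Dvd.dvd.trans (by norm_num) h)
  have h25 := D.e25 (Dvd.dvd.trans (by norm_num) h)
  have f125 := A.frobL 125 [1, 5, 25, 125] (by decide) (by decide) h
  simp only [List.map, List.sum_cons, List.sum_nil] at f125
  have t125 := A.tot 125
  rw [show Nat.totient 125 = 100 from by decide] at t125
  rcases val 125 with h | h | h | h | h | h <;> omega

theorem n49 (D : D6 s N) : ¬ 49 ∣ N := by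
  have A := D.A
  have val := D.val
  have o := A.one
  intro h
  have h7 := D.s7 (Dvd.dvd.trans (by norm_num) h)
  have f49 := A.frobL 49 [1, 7, 49] (by decide) (by decide) h
  simp only [List.map, List.sum_cons, List.sum_nil] at f49
  have t49 := A.tot 49
  rw [show Nat.totient 49 = 42 from by decide] at t49
  rcases val 49 with h | h | h | h | h | h <;> omega

theorem n7 (D : D6 s N) : ¬ 7 ∣ N := by
  have A := D.A
  have val := D.val
  have o := A.one
  intro h
  have h7 := D.s7 h
  obtain ⟨k, hk, hkN⟩ := A.sylow 7 (by norm_num) h (by norm_num; exact D.n49)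
  have : k = 15 := by omega
  subst this
  have h5N : 5 ∣ N := Dvd.dvd.trans (by norm_num) hkN
  have h5 := D.s5 h5N
  have h35N : 35 ∣ N := Nat.Coprime.mul_dvd_of_dvd_of_dvd (by norm_num : Nat.Coprime 5 7) h5N h
  have f35 := A.frobL 35 [1, 5, 7, 35] (by decide) (by decide) h35N
  simp only [List.map, List.sum_cons, List.sum_nil] at f35
  have t35 := A.tot 35
  rw [show Nat.totient 35 = 24 from by decide] at t35
  rcases val 35 with h | h | h | h | h | h <;> omega

theorem e15 (D : D6 s N) (h : 15 ∣ N) : s 15 = 0 := by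
  have A := D.A
  have val := D.val
  have o := A.one
  have h3 := D.s3 (Dvd.dvd.trans (by norm_num) h)
  have h5 := D.s5 (Dvd.dvd.trans (by norm_num) h)
  have f15 := A.frobL 15 [1, 3, 5, 15] (by decide) (by decide) h
  simp only [List.map, List.sum_cons, List.sum_nil] at f15
  have t15 := A.tot 15
  rw [show Nat.totient 15 = 8 from by decide] at t15
  rcases val 15 with h | h | h | h | h | h <;> omega

theorem n25 (D : D6 s N) : ¬ 25 ∣ N := by
  have A := D.A
  have val := D.val
  have o := A.one
  have h2 := D.s2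
  intro h
  have h5N : 5 ∣ N := Dvd.dvd.trans (by norm_num) h
  have h5 := D.s5 h5N
  have h25 := D.e25 h
  have h50N : 50 ∣ N := Nat.Coprime.mul_dvd_of_dvd_of_dvd (by norm_num : Nat.Coprime 2 25)
    D.two_dvd h
  have f50 := A.frobL 50 [1, 2, 5, 10, 25, 50] (by decide) (by decide) h50N
  simp only [List.map, List.sum_cons, List.sum_nil] at f50
  have g50 := A.sumL_le 50 [1, 2, 5, 10, 25, 50] (by decide) (by decide) h50N
  simp only [List.map, List.sum_cons, List.sum_nil] at g50
  have t10 := A.tot 10
  rw [show Nat.totient 10 = 4 from by decide] at t10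
  have t50 := A.tot 50
  rw [show Nat.totient 50 = 20 from by decide] at t50
  have e10 : s 10 = 0 ∨ s 10 = 80 ∨ s 10 = 144 := by
    rcases val 10 with h | h | h | h | h | h <;> omega
  have e50 : s 50 = 0 ∨ s 50 = 80 := by
    rcases val 50 with h | h | h | h | h | h <;> omega
  have e10_50 : s 10 = 80 ∧ s 50 = 0 := by
    rcases e10 with h | h | h
    · have z50 : s 50 = 0 := A.zero_of_dvd 10 50 (by norm_num) h
      omega
    · rcases e50 with h' | h' <;> omega
    · rcases e50 with h' | h' <;> omega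
  by_cases h3N : 3 ∣ N
  · have h3 := D.s3 h3N
    have h15N : 15 ∣ N := Nat.Coprime.mul_dvd_of_dvd_of_dvd (by norm_num : Nat.Coprime 3 5) h3N h5N
    have h15 := D.e15 h15N
    have z75 : s 75 = 0 := A.zero_of_dvd 15 75 (by norm_num) h15
    have h75N : 75 ∣ N := Nat.Coprime.mul_dvd_of_dvd_of_dvd (by norm_num : Nat.Coprime 3 25) h3N h
    have f75 := A.frobL 75 [1, 3, 5, 15, 25, 75] (by decide) (by decide) h75N
    simp only [List.map, List.sum_cons, List.sum_nil] at f75
    omega
  · have hN : N ∣ 200 := by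
      apply A.dvd_of_bounds
      intro p hp hpN
      rcases D.prime p hp hpN with rfl | rfl | rfl | rfl
      · exact ⟨3, by norm_num, D.n16⟩
      · exact absurd hpN h3N
      · exact ⟨2, by norm_num, D.n125⟩
      · exact absurd hpN D.n7
    have := Nat.le_of_dvd (by norm_num) hN
    omega

theorem syl5 (D : D6 s N) (h : 5 ∣ N) : 36 ∣ N := by
  have h5 := D.s5 h
  obtain ⟨k, hk, hkN⟩ := D.A.sylow 5 (by norm_num) h (by norm_num; exact D.n25)
  have : k = 36 := by omega
  subst this
  exact hkN

theorem syl3 (D : D6 s N) (h : 3 ∣ N) : 9 ∣ N := by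
  by_contra h9
  have h3 := D.s3 h
  obtain ⟨k, hk, hkN⟩ := D.A.sylow 3 (by norm_num) h (by norm_num; exact h9)
  have : k = 40 := by omega
  subst this
  exact h9 (Dvd.dvd.trans (by norm_num) (D.syl5 (Dvd.dvd.trans (by norm_num) hkN)))

/-- The case `5 ∤ N`. -/
theorem no5 (D : D6 s N) (hN360 : 360 ≤ N) (h5 : ¬ 5 ∣ N) : False := by
  have A := D.A
  have val := D.val
  have o := A.one
  have h2 := D.s2
  have hN : N ∣ 648 := by
    apply A.dvd_of_bounds
    intro p hp hpN
    rcases D.prime p hp hpN with rfl | rfl | rfl | rfl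
    · exact ⟨3, by norm_num, D.n16⟩
    · exact ⟨4, by norm_num, D.n243⟩
    · exact absurd hpN h5
    · exact absurd hpN D.n7
  have hle := Nat.le_of_dvd (by norm_num) hN
  have hN648 : N = 648 := by
    clear A D val
    interval_cases N <;> omega
  subst hN648
  have h3 := D.s3 (by norm_num)
  have h9 := D.z9 (by norm_num)
  have z18 : s 18 = 0 := A.zero_of_dvd 9 18 (by norm_num) h9
  have z27 : s 27 = 0 := A.zero_of_dvd 9 27 (by norm_num) h9
  have z54 : s 54 = 0 := A.zero_of_dvd 9 54 (by norm_num) h9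
  have z81 : s 81 = 0 := A.zero_of_dvd 9 81 (by norm_num) h9
  have z162 : s 162 = 0 := A.zero_of_dvd 9 162 (by norm_num) h9
  have f162 := A.frobL 162 [1, 2, 3, 6, 9, 18, 27, 54, 81, 162] (by decide) (by decide) (by norm_num)
  simp only [List.map, List.sum_cons, List.sum_nil] at f162
  rcases val 6 with h | h | h | h | h | h <;> omega

set_option maxHeartbeats 2000000 in
/-- The main case: `5 ∣ N`. -/
theorem main5 (D : D6 s N) (hN360 : 360 ≤ N) (h5N : 5 ∣ N) : N = 360 := by
  have A := D.A
  have val := D.val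
  have o := A.one
  have h2 := D.s2
  have h36N := D.syl5 h5N
  have h3N : 3 ∣ N := Dvd.dvd.trans (by norm_num) h36N
  have h4N : 4 ∣ N := Dvd.dvd.trans (by norm_num) h36N
  have h3 := D.s3 h3N
  have h4 := D.s4 h4N
  have h5 := D.s5 h5N
  have h15N : 15 ∣ N := Nat.Coprime.mul_dvd_of_dvd_of_dvd (by norm_num : Nat.Coprime 3 5) h3N h5N
  have h15 := D.e15 h15N
  have h27 : ¬ 27 ∣ N := by
    intro h27N
    have h9 := D.z9 h27N
    have h108N : 108 ∣ N :=
      Nat.Coprime.mul_dvd_of_dvd_of_dvd (by norm_num : Nat.Coprime 27 4) h27N h4N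
    have h540N : 540 ∣ N :=
      Nat.Coprime.mul_dvd_of_dvd_of_dvd (by norm_num : Nat.Coprime 108 5) h108N h5N
    have z18 : s 18 = 0 := A.zero_of_dvd 9 18 (by norm_num) h9
    have z27 : s 27 = 0 := A.zero_of_dvd 9 27 (by norm_num) h9
    have z36 : s 36 = 0 := A.zero_of_dvd 9 36 (by norm_num) h9
    have z54 : s 54 = 0 := A.zero_of_dvd 9 54 (by norm_num) h9
    have z108 : s 108 = 0 := A.zero_of_dvd 9 108 (by norm_num) h9
    have f6 := A.frobL 6 [1, 2, 3, 6] (by decide) (by decide) (Dvd.dvd.trans (by norm_num) h108N)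
    simp only [List.map, List.sum_cons, List.sum_nil] at f6
    have f108 := A.frobL 108 [1, 2, 3, 4, 6, 9, 12, 18, 27, 36, 54, 108] (by decide) (by decide) h108N
    simp only [List.map, List.sum_cons, List.sum_nil] at f108
    have t12 := A.tot 12
    rw [show Nat.totient 12 = 4 from by decide] at t12
    have e6 : s 6 = 0 ∨ s 6 = 90 ∨ s 6 = 144 := by
      rcases val 6 with h | h | h | h | h | h <;> omega
    have e12 : s 12 = 0 ∨ s 12 = 80 ∨ s 12 = 144 := by
      rcases val 12 with h | h | h | h | h | h <;> omega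
    have e6_12 : s 6 = 0 ∧ s 12 = 0 := by
      rcases e6 with h | h | h <;> rcases e12 with h' | h' | h' <;> omega
    obtain ⟨h6, h12⟩ := e6_12
    clear f6 f108 e6 e12 t12
    have f10 := A.frobL 10 [1, 2, 5, 10] (by decide) (by decide) (Dvd.dvd.trans (by norm_num) h540N)
    simp only [List.map, List.sum_cons, List.sum_nil] at f10
    have t10 := A.tot 10
    rw [show Nat.totient 10 = 4 from by decide] at t10
    have t20 := A.tot 20
    rw [show Nat.totient 20 = 8 from by decide] at t20
    have e10 : s 10 = 0 ∨ s 10 = 80 := by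
      rcases val 10 with h | h | h | h | h | h <;> omega
    have e20 : s 20 = 0 ∨ s 20 = 80 ∨ s 20 = 144 := by
      rcases val 20 with h | h | h | h | h | h <;> omega
    clear f10 t10 t20
    have z30 : s 30 = 0 := A.zero_of_dvd 15 30 (by norm_num) h15
    have z45 : s 45 = 0 := A.zero_of_dvd 15 45 (by norm_num) h15
    have z60 : s 60 = 0 := A.zero_of_dvd 15 60 (by norm_num) h15
    have z90 : s 90 = 0 := A.zero_of_dvd 15 90 (by norm_num) h15
    have z135 : s 135 = 0 := A.zero_of_dvd 15 135 (by norm_num) h15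
    have z180 : s 180 = 0 := A.zero_of_dvd 15 180 (by norm_num) h15
    have z270 : s 270 = 0 := A.zero_of_dvd 15 270 (by norm_num) h15
    have z540 : s 540 = 0 := A.zero_of_dvd 15 540 (by norm_num) h15
    have f540 := A.frobL 540 [1, 2, 3, 4, 5, 6, 9, 10, 12, 15, 18, 20, 27, 30, 36, 45, 54, 60, 90, 108, 135, 180, 270, 540] (by decide) (by decide) h540N
    simp only [List.map, List.sum_cons, List.sum_nil] at f540
    rcases e10 with h | h <;> rcases e20 with h' | h' | h' <;> omega
  have hN : N ∣ 360 := by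
    apply A.dvd_of_bounds
    intro p hp hpN
    rcases D.prime p hp hpN with rfl | rfl | rfl | rfl
    · exact ⟨3, by norm_num, D.n16⟩
    · exact ⟨2, by norm_num, h27⟩
    · exact ⟨1, by norm_num, D.n25⟩
    · exact absurd hpN D.n7
  have := Nat.le_of_dvd (by norm_num) hN
  omega

end D6

theorem arith_A6 {s : ℕ → ℕ} {N : ℕ} (A : Arith s N)
    (val : ∀ d, s d = 0 ∨ s d = 1 ∨ s d = 45 ∨ s d = 80 ∨ s d = 90 ∨ s d = 144)
    (a45 : ∃ d, s d = 45) (a80 : ∃ d, s d = 80) (a90 : ∃ d, s d = 90) (a144 : ∃ d, s d = 144) :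
    N = 360 ∧ s 2 = 45 ∧ s 3 = 80 ∧ s 4 = 90 ∧ s 5 = 144 := by
  have o := A.one
  obtain ⟨d45, hd45⟩ := a45
  have h2 : s 2 = 45 := by
    have h := A.eq_two_of_odd (by norm_num) (by norm_num) hd45
    rw [h] at hd45
    exact hd45
  have D : D6 s N := ⟨A, val, h2⟩
  have hN360 : 360 ≤ N := by
    have := A.sum_le {1, 45, 80, 90, 144} (by
      intro v hv
      simp only [Finset.mem_insert, Finset.mem_singleton] at hv
      rcases hv with rfl | rfl | rfl | rfl | rfl
      · exact ⟨by norm_num, 1, o⟩
      · exact ⟨by norm_num, 2, h2⟩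
      · exact ⟨by norm_num, a80⟩
      · exact ⟨by norm_num, a90⟩
      · exact ⟨by norm_num, a144⟩)
    simpa using this
  by_cases h5 : 5 ∣ N
  · have hN := D.main5 hN360 h5
    subst hN
    exact ⟨rfl, h2, D.s3 (by norm_num), D.s4 (by norm_num), D.s5 (by norm_num)⟩
  · exact (D.no5 hN360 h5).elim

end Cfsg.Agent.Lib.Helper5.Nse
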