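import Mathlib
import Cfsg.Agent.Lib.Helper5.Nse
import Cfsg.Agent.S0228
import Cfsg.Agent.S0494
import Cfsg.Agent.S0497

/-!
Groups of orders 12, 60, 360 with the order statistics of `A₄`, `A₅`, `A₆` (helper5).
-/

set_option autoImplicit false

namespace Cfsg.Agent.Lib.Helper5.Nse

open Cfsg.Agent.Lib.Helper52

section
variable {G : Type*} [Group G] [Finite G]

/-- Fixed-point counting for conjugation by an element of prime order on an invariant set. -/
theorem card_modEq_one_of_conj {p : ℕ} [Fact p.Prime] (x : G) (hx : orderOf x = p) (S : Set G)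
    (hS : ∀ g ∈ S, x * g * x⁻¹ ∈ S) (h1 : (1 : G) ∈ S)
    (hfree : ∀ g ∈ S, x * g * x⁻¹ = g → g = 1) : Nat.card S ≡ 1 [MOD p] := by
  classical
  have : Fintype S := Fintype.ofFinite S
  let f : Function.End S := fun t => ⟨x * t.1 * x⁻¹, hS t.1 t.2⟩
  have hf : ∀ (k : ℕ) (t : S), ((f ^ k) t : G) = x ^ k * t.1 * (x ^ k)⁻¹ := by
    intro k
    induction k with
    | zero =>
      intro t
      rw [pow_zero, pow_zero, one_mul, inv_one, mul_one]
      rfl
    | succ k ih =>
      intro t
      rw [pow_succ']
      change ((f ((f ^ k) t) : S) : G) = _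
      change x * ((f ^ k) t : G) * x⁻¹ = _
      rw [ih t, pow_succ']
      group
  have hf1 : f ^ p ^ 1 = 1 := by
    funext t
    apply Subtype.ext
    rw [pow_one, hf, ← hx, pow_orderOf_eq_one, one_mul, inv_one, mul_one]
    rfl
  have hmod := Equiv.Perm.card_fixedPoints_modEq (p := p) (n := 1) hf1
  have hfix : Function.fixedPoints f = {⟨1, h1⟩} := by
    ext t
    rw [Function.mem_fixedPoints, Set.mem_singleton_iff]
    constructor
    · intro ht
      have h1 : x * t.1 * x⁻¹ = t.1 := congrArg Subtype.val ht
      exact Subtype.ext (hfree t.1 t.2 h1)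
    · rintro rfl
      apply Subtype.ext
      change x * (1 : G) * x⁻¹ = 1
      group
  rw [Nat.card_eq_fintype_card]
  have hc : Fintype.card ↑(Function.fixedPoints f) = 1 := by
    rw [← Nat.card_eq_fintype_card, Nat.card_coe_set_eq, hfix, Set.ncard_singleton]
  rw [hc] at hmod
  exact hmod

theorem mem_of_coprime_index (H : Subgroup G) [H.Normal] (g : G)
    (h : (orderOf g).Coprime H.index) : g ∈ H := by
  rw [← QuotientGroup.eq_one_iff, ← orderOf_eq_one_iff]
  have h1 : orderOf (g : G ⧸ H) ∣ orderOf g :=
    orderOf_dvd_of_pow_eq_one (by rw [← QuotientGroup.mk_pow, pow_orderOf_eq_one]; rfl)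
  have h2 : orderOf (g : G ⧸ H) ∣ H.index := by
    rw [Subgroup.index_eq_card]
    exact orderOf_dvd_natCard _
  exact Nat.dvd_one.mp (by rw [← h.gcd_eq_one]; exact Nat.dvd_gcd h1 h2)

theorem sum_ordCount_le (H : Subgroup G) [H.Normal] (S : Finset ℕ)
    (hS : ∀ d ∈ S, d.Coprime H.index) : ∑ d ∈ S, ordCount G d ≤ Nat.card H := by
  classical
  have := Fintype.ofFinite G
  have h2 : ∀ d, ordCount G d = (Finset.univ.filter (fun x : G => orderOf x = d)).card := by
    intro d
    unfold ordCount
    rw [Nat.card_eq_fintype_card, Fintype.card_subtype]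
  have h3 : Nat.card H = (Finset.univ.filter (fun x : G => x ∈ H)).card := by
    rw [Nat.card_eq_fintype_card, Fintype.card_subtype]
  rw [h3]
  have h4 : (Finset.univ.filter (fun x : G => orderOf x ∈ S)).card = ∑ d ∈ S, ordCount G d := by
    rw [Finset.card_eq_sum_card_fiberwise (f := orderOf) (t := S)]
    · apply Finset.sum_congr rfl
      intro d hd
      rw [h2]
      congr 1
      ext x
      simp only [Finset.mem_filter, Finset.mem_univ, true_and]
      constructor
      · exact fun h => h.2
      · intro h
        exact ⟨h ▸ hd, h⟩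
    · intro x hx
      simpa using hx
  rw [← h4]
  apply Finset.card_le_card
  intro x hx
  simp only [Finset.mem_filter, Finset.mem_univ, true_and] at hx ⊢
  exact mem_of_coprime_index H x (hS _ hx)

/-- An element of order `5` acts without fixed points on a normal `5'`-subgroup when no element
has order greater than `5`. -/
theorem card_modEq_one_of_spec (hspec : ∀ g : G, orderOf g ≤ 5) (x : G) (hx : orderOf x = 5)
    (H : Subgroup G) [hH : H.Normal] (hcop : ¬ 5 ∣ Nat.card H) : Nat.card H ≡ 1 [MOD 5] := by
  have hF5 : Fact (Nat.Prime 5) := ⟨by norm_num⟩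
  apply card_modEq_one_of_conj x hx (H : Set G)
  · intro g hg
    exact hH.conj_mem g hg x
  · exact H.one_mem
  · intro g hg hcomm
    by_contra hne
    have hog : orderOf g ∣ Nat.card H := Subgroup.orderOf_dvd_natCard H hg
    have hc : Nat.Coprime (orderOf x) (orderOf g) := by
      rw [hx]
      exact (Nat.Prime.coprime_iff_not_dvd (by norm_num)).mpr (fun h => hcop (h.trans hog))
    have hcm : Commute x g := by
      show x * g = g * x
      have := congrArg (· * x) hcomm
      simpa using this
    have ho := hcm.orderOf_mul_eq_mul_orderOf_of_coprime hc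
    have h2 : 2 ≤ orderOf g := by
      have := orderOf_pos g
      have : orderOf g ≠ 1 := fun h => hne (orderOf_eq_one_iff.mp h)
      omega
    have := hspec (x * g)
    rw [ho, hx] at this
    omega

theorem simple60 (hN : Nat.card G = 60) (h3 : ordCount G 3 = 20) (h5 : ordCount G 5 = 24)
    (hspec : ∀ g : G, orderOf g ≤ 5) : IsSimpleGroup G := by
  have hnt : Nontrivial G := by
    rw [← Finite.one_lt_card_iff_nontrivial, hN]
    norm_num
  refine { exists_pair_ne := hnt.exists_pair_ne, eq_bot_or_eq_top_of_normal := ?_ }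
  intro H hH
  have := hH
  have hidx : Nat.card H * H.index = 60 := by rw [Subgroup.card_mul_index, hN]
  obtain ⟨x, hx⟩ := (ordCount_ne_zero_iff 5).mp (by rw [h5]; norm_num)
  have o1 : ordCount G 1 = 1 := ordCount_one
  by_cases hdiv : 5 ∣ H.index
  · left
    have hcop : ¬ 5 ∣ Nat.card H := by
      intro h
      have := Nat.mul_dvd_mul h hdiv
      rw [hidx] at this
      omega
    have hmod : Nat.card H % 5 = 1 := card_modEq_one_of_spec hspec x hx H hcop
    have hc60 : Nat.card H ≤ 60 := Nat.le_of_dvd (by norm_num) (Dvd.intro _ hidx)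
    obtain ⟨c, hc⟩ : ∃ c, Nat.card H = c := ⟨_, rfl⟩
    obtain ⟨i, hi⟩ : ∃ i, H.index = i := ⟨_, rfl⟩
    rw [hc, hi] at hidx
    rw [hc] at hmod hc60
    rw [hi] at hdiv
    have hcases : c = 1 ∨ (c = 6 ∧ i = 10) := by
      clear hcop hc
      interval_cases c <;> omega
    rcases hcases with rfl | ⟨rfl, rfl⟩
    · exact Subgroup.card_eq_one.mp hc
    · exfalso
      have hle := sum_ordCount_le H {1, 3} (by
        intro d hd
        simp only [Finset.mem_insert, Finset.mem_singleton] at hd
        rw [hi]
        rcases hd with rfl | rfl <;> norm_num)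
      rw [Finset.sum_pair (by norm_num), o1, h3, hc] at hle
      omega
  · right
    have hc5 : Nat.Coprime 5 H.index := (Nat.Prime.coprime_iff_not_dvd (by norm_num)).mpr hdiv
    have hle := sum_ordCount_le H {1, 5} (by
      intro d hd
      simp only [Finset.mem_insert, Finset.mem_singleton] at hd
      rcases hd with rfl | rfl
      · simp
      · exact hc5)
    rw [Finset.sum_pair (by norm_num), o1, h5] at hle
    have hi2 : H.index ≤ 2 := by
      by_contra h
      push Not at h
      have : 25 * 3 ≤ Nat.card H * H.index := Nat.mul_le_mul hle h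
      omega
    obtain ⟨i, hi⟩ : ∃ i, H.index = i := ⟨_, rfl⟩
    rw [hi] at hidx hi2
    interval_cases i
    · omega
    · exact Subgroup.index_eq_one.mp hi
    · exfalso
      have hle := sum_ordCount_le H {1, 3, 5} (by
        intro d hd
        simp only [Finset.mem_insert, Finset.mem_singleton] at hd
        rw [hi]
        rcases hd with rfl | rfl | rfl <;> norm_num)
      rw [Finset.sum_insert (by norm_num), Finset.sum_pair (by norm_num), o1, h3, h5] at hle
      omega

theorem simple360 (hN : Nat.card G = 360) (h3 : ordCount G 3 = 80) (h5 : ordCount G 5 = 144)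
    (hspec : ∀ g : G, orderOf g ≤ 5) : IsSimpleGroup G := by
  have hnt : Nontrivial G := by
    rw [← Finite.one_lt_card_iff_nontrivial, hN]
    norm_num
  refine { exists_pair_ne := hnt.exists_pair_ne, eq_bot_or_eq_top_of_normal := ?_ }
  intro H hH
  have := hH
  have hidx : Nat.card H * H.index = 360 := by rw [Subgroup.card_mul_index, hN]
  obtain ⟨x, hx⟩ := (ordCount_ne_zero_iff 5).mp (by rw [h5]; norm_num)
  have o1 : ordCount G 1 = 1 := ordCount_one
  have hF5 : Fact (Nat.Prime 5) := ⟨by norm_num⟩
  have hF3 : Fact (Nat.Prime 3) := ⟨by norm_num⟩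
  have hF2 : Fact (Nat.Prime 2) := ⟨by norm_num⟩
  by_cases hdiv : 5 ∣ H.index
  · left
    have hcop : ¬ 5 ∣ Nat.card H := by
      intro h
      have := Nat.mul_dvd_mul h hdiv
      rw [hidx] at this
      omega
    have hmod : Nat.card H % 5 = 1 := card_modEq_one_of_spec hspec x hx H hcop
    have hc360 : Nat.card H ≤ 360 := Nat.le_of_dvd (by norm_num) (Dvd.intro _ hidx)
    obtain ⟨c, hc⟩ : ∃ c, Nat.card H = c := ⟨_, rfl⟩
    obtain ⟨i, hi⟩ : ∃ i, H.index = i := ⟨_, rfl⟩
    rw [hc, hi] at hidx
    rw [hc] at hmod hc360
    rw [hi] at hdiv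
    have hcases : c = 1 ∨ (c = 6 ∧ i = 60) ∨ (c = 36 ∧ i = 10) := by
      clear hcop hc
      interval_cases c <;> omega
    rcases hcases with rfl | ⟨rfl, rfl⟩ | ⟨rfl, rfl⟩
    · exact Subgroup.card_eq_one.mp hc
    · exfalso
      -- the elements of `H` with cube `1`
      have hK3 : 3 ∣ Nat.card {h : H // h ^ 3 = 1} :=
        Cfsg.Agent.S3993.result 3 (by rw [hc]; norm_num)
      obtain ⟨y, hy⟩ := exists_prime_orderOf_dvd_card' (G := H) 2 (by rw [hc]; norm_num)
      have hKlt : Nat.card {h : H // h ^ 3 = 1} < 6 := by
        classical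
        have := Fintype.ofFinite H
        rw [Nat.card_eq_fintype_card, ← hc, Nat.card_eq_fintype_card]
        apply Fintype.card_subtype_lt (x := y)
        intro hy3
        have h2 : y ^ 2 = 1 := by rw [← hy, pow_orderOf_eq_one]
        have h1 : y = 1 := by
          have : y ^ 3 = y ^ 2 * y := pow_succ y 2
          rw [hy3, h2, one_mul] at this
          exact this.symm
        rw [h1, orderOf_one] at hy
        omega
      have hKS : Nat.card {h : H // h ^ 3 = 1} = Nat.card ({g : G | g ∈ H ∧ g ^ 3 = 1} : Set G) := by
        refine Nat.card_congr ((Equiv.subtypeEquivRight (fun h => ?_)).trans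
          (Equiv.subtypeSubtypeEquivSubtypeInter (fun g : G => g ∈ H) (fun g => g ^ 3 = 1)))
        rw [Subtype.ext_iff]
        simp
      have hSmod : Nat.card ({g : G | g ∈ H ∧ g ^ 3 = 1} : Set G) % 5 = 1 := by
        apply card_modEq_one_of_conj x hx
        · rintro g ⟨hg, hg3⟩
          refine ⟨hH.conj_mem g hg x, ?_⟩
          rw [conj_pow, hg3]
          group
        · exact ⟨H.one_mem, one_pow 3⟩
        · rintro g ⟨hg, hg3⟩ hcomm
          by_contra hne
          have hog : orderOf g = 3 := orderOf_eq_prime hg3 hne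
          have hc' : Nat.Coprime (orderOf x) (orderOf g) := by
            rw [hx, hog]
            norm_num
          have hcm : Commute x g := by
            show x * g = g * x
            have := congrArg (· * x) hcomm
            simpa using this
          have ho := hcm.orderOf_mul_eq_mul_orderOf_of_coprime hc'
          have := hspec (x * g)
          rw [ho, hx, hog] at this
          omega
      rw [← hKS] at hSmod
      omega
    · exfalso
      have hle := sum_ordCount_le H {1, 3} (by
        intro d hd
        simp only [Finset.mem_insert, Finset.mem_singleton] at hd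
        rw [hi]
        rcases hd with rfl | rfl <;> norm_num)
      rw [Finset.sum_pair (by norm_num), o1, h3, hc] at hle
      omega
  · right
    have hc5 : Nat.Coprime 5 H.index := (Nat.Prime.coprime_iff_not_dvd (by norm_num)).mpr hdiv
    have hle := sum_ordCount_le H {1, 5} (by
      intro d hd
      simp only [Finset.mem_insert, Finset.mem_singleton] at hd
      rcases hd with rfl | rfl
      · simp
      · exact hc5)
    rw [Finset.sum_pair (by norm_num), o1, h5] at hle
    have hi2 : H.index ≤ 2 := by
      by_contra h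
      push Not at h
      have : 145 * 3 ≤ Nat.card H * H.index := Nat.mul_le_mul hle h
      omega
    obtain ⟨i, hi⟩ : ∃ i, H.index = i := ⟨_, rfl⟩
    rw [hi] at hidx hi2
    interval_cases i
    · omega
    · exact Subgroup.index_eq_one.mp hi
    · exfalso
      have hle := sum_ordCount_le H {1, 3, 5} (by
        intro d hd
        simp only [Finset.mem_insert, Finset.mem_singleton] at hd
        rw [hi]
        rcases hd with rfl | rfl | rfl <;> norm_num)
      rw [Finset.sum_insert (by norm_num), Finset.sum_pair (by norm_num), o1, h3, h5] at hle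
      omega

end

end Cfsg.Agent.Lib.Helper5.Nse
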