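import Mathlib
import Cfsg.Agent.Lib.Helper5.NseAlt
import Cfsg.Agent.Lib.Helper5.NseGroup
import Cfsg.Agent.Lib.Helper5.NseA4
import Cfsg.Agent.Lib.Helper5.NseA5
import Cfsg.Agent.Lib.Helper5.NseA6

/-!
Recognition of `A₄`, `A₅`, `A₆` by the set of sizes of their same-order classes (helper5).
-/

set_option autoImplicit false

namespace Cfsg.Agent.Lib.Helper5.Nse

open Cfsg.Agent.Lib.Helper52 Equiv Equiv.Perm

theorem orderOf_cases_prime {G : Type*} [Group G] (g : G) (p : ℕ) (hp : p.Prime)
    (h : g ^ p = 1) : orderOf g = 1 ∨ orderOf g = p :=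
  (Nat.dvd_prime hp).mp (orderOf_dvd_of_pow_eq_one h)

theorem orderOf_cases_four {G : Type*} [Group G] (g : G) (h : g ^ 4 = 1) :
    orderOf g = 1 ∨ orderOf g = 2 ∨ orderOf g = 4 := by
  have h1 := orderOf_dvd_of_pow_eq_one h
  have h2 := Nat.le_of_dvd (by norm_num) h1
  generalize orderOf g = o at h1 h2
  interval_cases o <;> omega

theorem nse_alt4 : ((fun m : ℕ => Nat.card {g : ↥(alternatingGroup (Fin 4)) // orderOf g = m}) ''
    Set.range (orderOf : ↥(alternatingGroup (Fin 4)) → ℕ)) = {1, 3, 8} := by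
  have c1 : ordCount (alternatingGroup (Fin 4)) 1 = 1 := ordCount_one
  have c2 : ordCount (alternatingGroup (Fin 4)) 2 = 3 := by
    rw [ordCount_alt_prime 4 2 Nat.prime_two, cnt4_2]
  have c3 : ordCount (alternatingGroup (Fin 4)) 3 = 8 := by
    rw [ordCount_alt_prime 4 3 Nat.prime_three, cnt4_3]
  apply Set.eq_of_subset_of_subset
  · rintro v ⟨m, ⟨g, rfl⟩, rfl⟩
    show ordCount (alternatingGroup (Fin 4)) (orderOf g) ∈ ({1, 3, 8} : Set ℕ)
    have hs := spec4 g.1 (Equiv.Perm.mem_alternatingGroup.mp g.2)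
    rw [← Subgroup.orderOf_coe]
    rcases hs with h | h | h
    · rw [h, orderOf_one, c1]; simp
    · rcases orderOf_cases_prime _ 2 Nat.prime_two h with h' | h' <;> rw [h'] <;> simp [c1, c2]
    · rcases orderOf_cases_prime _ 3 Nat.prime_three h with h' | h' <;> rw [h'] <;> simp [c1, c3]
  · intro v hv
    simp only [Set.mem_insert_iff, Set.mem_singleton_iff] at hv
    rcases hv with rfl | rfl | rfl
    · exact ⟨1, ⟨1, orderOf_one⟩, c1⟩
    · exact ⟨2, (ordCount_ne_zero_iff 2).mp (by rw [c2]; norm_num), c2⟩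
    · exact ⟨3, (ordCount_ne_zero_iff 3).mp (by rw [c3]; norm_num), c3⟩

theorem nse_alt5 : ((fun m : ℕ => Nat.card {g : ↥(alternatingGroup (Fin 5)) // orderOf g = m}) ''
    Set.range (orderOf : ↥(alternatingGroup (Fin 5)) → ℕ)) = {1, 15, 20, 24} := by
  have c1 : ordCount (alternatingGroup (Fin 5)) 1 = 1 := ordCount_one
  have c2 : ordCount (alternatingGroup (Fin 5)) 2 = 15 := by
    rw [ordCount_alt_prime 5 2 Nat.prime_two, cnt5_2]
  have c3 : ordCount (alternatingGroup (Fin 5)) 3 = 20 := by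
    rw [ordCount_alt_prime 5 3 Nat.prime_three, cnt5_3]
  have c5 : ordCount (alternatingGroup (Fin 5)) 5 = 24 := by
    rw [ordCount_alt_prime 5 5 Nat.prime_five, cnt5_5]
  apply Set.eq_of_subset_of_subset
  · rintro v ⟨m, ⟨g, rfl⟩, rfl⟩
    show ordCount (alternatingGroup (Fin 5)) (orderOf g) ∈ ({1, 15, 20, 24} : Set ℕ)
    have hs := spec5 g.1 (Equiv.Perm.mem_alternatingGroup.mp g.2)
    rw [← Subgroup.orderOf_coe]
    rcases hs with h | h | h
    · rcases orderOf_cases_prime _ 2 Nat.prime_two h with h' | h' <;> rw [h'] <;> simp [c1, c2]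
    · rcases orderOf_cases_prime _ 3 Nat.prime_three h with h' | h' <;> rw [h'] <;> simp [c1, c3]
    · rcases orderOf_cases_prime _ 5 Nat.prime_five h with h' | h' <;> rw [h'] <;> simp [c1, c5]
  · intro v hv
    simp only [Set.mem_insert_iff, Set.mem_singleton_iff] at hv
    rcases hv with rfl | rfl | rfl | rfl
    · exact ⟨1, ⟨1, orderOf_one⟩, c1⟩
    · exact ⟨2, (ordCount_ne_zero_iff 2).mp (by rw [c2]; norm_num), c2⟩
    · exact ⟨3, (ordCount_ne_zero_iff 3).mp (by rw [c3]; norm_num), c3⟩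
    · exact ⟨5, (ordCount_ne_zero_iff 5).mp (by rw [c5]; norm_num), c5⟩

theorem nse_alt6 : ((fun m : ℕ => Nat.card {g : ↥(alternatingGroup (Fin 6)) // orderOf g = m}) ''
    Set.range (orderOf : ↥(alternatingGroup (Fin 6)) → ℕ)) = {1, 45, 80, 90, 144} := by
  have c1 : ordCount (alternatingGroup (Fin 6)) 1 = 1 := ordCount_one
  have c2 : ordCount (alternatingGroup (Fin 6)) 2 = 45 := by
    rw [ordCount_alt_prime 6 2 Nat.prime_two, cnt6_2]
  have c3 : ordCount (alternatingGroup (Fin 6)) 3 = 80 := by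
    rw [ordCount_alt_prime 6 3 Nat.prime_three, cnt6_3]
  have c4 : ordCount (alternatingGroup (Fin 6)) 4 = 90 := by
    rw [ordCount_alt_four 6, cnt6_4]
  have c5 : ordCount (alternatingGroup (Fin 6)) 5 = 144 := by
    rw [ordCount_alt_prime 6 5 Nat.prime_five, cnt6_5]
  apply Set.eq_of_subset_of_subset
  · rintro v ⟨m, ⟨g, rfl⟩, rfl⟩
    show ordCount (alternatingGroup (Fin 6)) (orderOf g) ∈ ({1, 45, 80, 90, 144} : Set ℕ)
    have hs := spec6 g.1 (Equiv.Perm.mem_alternatingGroup.mp g.2)
    rw [← Subgroup.orderOf_coe]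
    rcases hs with h | h | h | h
    · rcases orderOf_cases_prime _ 2 Nat.prime_two h with h' | h' <;> rw [h'] <;> simp [c1, c2]
    · rcases orderOf_cases_prime _ 3 Nat.prime_three h with h' | h' <;> rw [h'] <;> simp [c1, c3]
    · rcases orderOf_cases_four _ h with h' | h' | h' <;> rw [h'] <;> simp [c1, c2, c4]
    · rcases orderOf_cases_prime _ 5 Nat.prime_five h with h' | h' <;> rw [h'] <;> simp [c1, c5]
  · intro v hv
    simp only [Set.mem_insert_iff, Set.mem_singleton_iff] at hv
    rcases hv with rfl | rfl | rfl | rfl | rfl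
    · exact ⟨1, ⟨1, orderOf_one⟩, c1⟩
    · exact ⟨2, (ordCount_ne_zero_iff 2).mp (by rw [c2]; norm_num), c2⟩
    · exact ⟨3, (ordCount_ne_zero_iff 3).mp (by rw [c3]; norm_num), c3⟩
    · exact ⟨4, (ordCount_ne_zero_iff 4).mp (by rw [c4]; norm_num), c4⟩
    · exact ⟨5, (ordCount_ne_zero_iff 5).mp (by rw [c5]; norm_num), c5⟩

section
variable {G : Type*} [Group G] [Finite G]

theorem val_of_image (T : Set ℕ)
    (h : ((fun m : ℕ => Nat.card {g : G // orderOf g = m}) '' Set.range (orderOf : G → ℕ)) = T) :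
    (∀ d, ordCount G d = 0 ∨ ordCount G d ∈ T) ∧ (∀ v ∈ T, ∃ d, ordCount G d = v) := by
  constructor
  · intro d
    by_cases hd : ∃ g : G, orderOf g = d
    · right
      obtain ⟨g, hg⟩ := hd
      rw [← h]
      exact ⟨d, ⟨g, hg⟩, rfl⟩
    · left
      by_contra h0
      exact hd ((ordCount_ne_zero_iff d).mp h0)
  · intro v hv
    rw [← h] at hv
    obtain ⟨d, -, hd⟩ := hv
    exact ⟨d, hd⟩

theorem spec_of_arith (K : Finset ℕ) (hK : ∀ d ∈ K, d ∣ Nat.card G)
    (hsum : ∑ d ∈ K, ordCount G d = Nat.card G) (g : G) : orderOf g ∈ K :=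
  (arith_of_group (G := G)).mem_of_sum_eq K hK hsum _ ((ordCount_ne_zero_iff _).mpr ⟨g, rfl⟩)

theorem iso_A4 (hN : Nat.card G = 12) (h2 : ordCount G 2 = 3) (h3 : ordCount G 3 = 8) :
    Nonempty (G ≃* alternatingGroup (Fin 4)) := by
  have o1 : ordCount G 1 = 1 := ordCount_one
  have hspec : ∀ g : G, orderOf g ∈ ({1, 2, 3} : Finset ℕ) := by
    intro g
    apply spec_of_arith
    · intro d hd
      simp only [Finset.mem_insert, Finset.mem_singleton] at hd
      rw [hN]
      rcases hd with rfl | rfl | rfl <;> norm_num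
    · rw [Finset.sum_insert (by norm_num), Finset.sum_pair (by norm_num), o1, h2, h3, hN]
      norm_num
  apply Cfsg.Agent.S0228.result hN
  intro z hz hzc
  obtain ⟨g, hg⟩ := (ordCount_ne_zero_iff 3).mp (by rw [h3]; norm_num)
  have hcm : Commute z g := (Subgroup.mem_center_iff.mp hzc g).symm
  have ho := hcm.orderOf_mul_eq_mul_orderOf_of_coprime (by rw [hz, hg]; norm_num)
  have := hspec (z * g)
  rw [ho, hz, hg] at this
  simp at this

theorem iso_A5 (hN : Nat.card G = 60) (h2 : ordCount G 2 = 15) (h3 : ordCount G 3 = 20)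
    (h5 : ordCount G 5 = 24) : Nonempty (G ≃* alternatingGroup (Fin 5)) := by
  have o1 : ordCount G 1 = 1 := ordCount_one
  have hspec : ∀ g : G, orderOf g ∈ ({1, 2, 3, 5} : Finset ℕ) := by
    intro g
    apply spec_of_arith
    · intro d hd
      simp only [Finset.mem_insert, Finset.mem_singleton] at hd
      rw [hN]
      rcases hd with rfl | rfl | rfl | rfl <;> norm_num
    · rw [Finset.sum_insert (by norm_num), Finset.sum_insert (by norm_num),
        Finset.sum_pair (by norm_num), o1, h2, h3, h5, hN]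
      norm_num
  have hspec' : ∀ g : G, orderOf g ≤ 5 := by
    intro g
    have := hspec g
    simp only [Finset.mem_insert, Finset.mem_singleton] at this
    omega
  have := simple60 hN h3 h5 hspec'
  exact Cfsg.Agent.S0494.result hN

theorem iso_A6 (hN : Nat.card G = 360) (h2 : ordCount G 2 = 45) (h3 : ordCount G 3 = 80)
    (h4 : ordCount G 4 = 90) (h5 : ordCount G 5 = 144) :
    Nonempty (G ≃* alternatingGroup (Fin 6)) := by
  have o1 : ordCount G 1 = 1 := ordCount_one
  have hspec : ∀ g : G, orderOf g ∈ ({1, 2, 3, 4, 5} : Finset ℕ) := by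
    intro g
    apply spec_of_arith
    · intro d hd
      simp only [Finset.mem_insert, Finset.mem_singleton] at hd
      rw [hN]
      rcases hd with rfl | rfl | rfl | rfl | rfl <;> norm_num
    · rw [Finset.sum_insert (by norm_num), Finset.sum_insert (by norm_num),
        Finset.sum_insert (by norm_num), Finset.sum_pair (by norm_num), o1, h2, h3, h4, h5, hN]
      norm_num
  have hspec' : ∀ g : G, orderOf g ≤ 5 := by
    intro g
    have := hspec g
    simp only [Finset.mem_insert, Finset.mem_singleton] at this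
    omega
  have := simple360 hN h3 h5 hspec'
  exact Cfsg.Agent.S0497.result hN

/-- The recognition theorem. -/
theorem recog_alt (n : ℕ) (hn : n = 4 ∨ n = 5 ∨ n = 6)
    (h : ((fun m : ℕ => Nat.card {g : G // orderOf g = m}) '' Set.range (orderOf : G → ℕ)) =
      ((fun m : ℕ => Nat.card {g : ↥(alternatingGroup (Fin n)) // orderOf g = m}) ''
        Set.range (orderOf : ↥(alternatingGroup (Fin n)) → ℕ))) :
    Nonempty (G ≃* ↥(alternatingGroup (Fin n))) := by
  have A := arith_of_group (G := G)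
  rcases hn with rfl | rfl | rfl
  · obtain ⟨val, att⟩ := val_of_image _ (h.trans nse_alt4)
    have hv : ∀ d, ordCount G d = 0 ∨ ordCount G d = 1 ∨ ordCount G d = 3 ∨ ordCount G d = 8 := by
      intro d
      rcases val d with h | h
      · exact Or.inl h
      · right
        simpa using h
    obtain ⟨hN, h2, h3⟩ := arith_A4 A hv (att 3 (by simp)) (att 8 (by simp))
    exact iso_A4 hN h2 h3
  · obtain ⟨val, att⟩ := val_of_image _ (h.trans nse_alt5)
    have hv : ∀ d, ordCount G d = 0 ∨ ordCount G d = 1 ∨ ordCount G d = 15 ∨ ordCount G d = 20 ∨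
        ordCount G d = 24 := by
      intro d
      rcases val d with h | h
      · exact Or.inl h
      · right
        simpa using h
    obtain ⟨hN, h2, h3, h5⟩ := arith_A5 A hv (att 15 (by simp)) (att 20 (by simp))
      (att 24 (by simp))
    exact iso_A5 hN h2 h3 h5
  · obtain ⟨val, att⟩ := val_of_image _ (h.trans nse_alt6)
    have hv : ∀ d, ordCount G d = 0 ∨ ordCount G d = 1 ∨ ordCount G d = 45 ∨ ordCount G d = 80 ∨
        ordCount G d = 90 ∨ ordCount G d = 144 := by
      intro d
      rcases val d with h | h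
      · exact Or.inl h
      · right
        simpa using h
    obtain ⟨hN, h2, h3, h4, h5⟩ := arith_A6 A hv (att 45 (by simp)) (att 80 (by simp))
      (att 90 (by simp)) (att 144 (by simp))
    exact iso_A6 hN h2 h3 h4 h5

end

end Cfsg.Agent.Lib.Helper5.Nse
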