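import Mathlib

set_option autoImplicit false

namespace Cfsg.Agent.Lib.Helper5.ProjLine

open Matrix
open scoped LinearAlgebra.Projectivization MatrixGroups

variable {F : Type*} [Field F]

/-- Two points of the projective line agree iff the cross product of representatives vanishes. -/
theorem mk_eq_mk_iff_cross (u v : Fin 2 → F) (hu : u ≠ 0) (hv : v ≠ 0) :
    Projectivization.mk F u hu = Projectivization.mk F v hv ↔ u 0 * v 1 = u 1 * v 0 := by
  rw [Projectivization.mk_eq_mk_iff']
  constructor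
  · rintro ⟨a, rfl⟩
    simp only [Pi.smul_apply, smul_eq_mul]
    ring
  · intro h
    by_cases h0 : v 0 = 0
    · have h1 : v 1 ≠ 0 := fun h1 => hv (by ext i; fin_cases i <;> simp [h0, h1])
      have hu0 : u 0 = 0 := by
        have : u 0 * v 1 = 0 := by rw [h, h0, mul_zero]
        exact (mul_eq_zero.1 this).resolve_right h1
      refine ⟨u 1 / v 1, ?_⟩
      ext i
      fin_cases i
      · simp [h0, hu0]
      · simp only [Fin.mk_one, Pi.smul_apply, smul_eq_mul]
        field_simp
    · refine ⟨u 0 / v 0, ?_⟩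
      ext i
      fin_cases i
      · simp only [Fin.zero_eta, Pi.smul_apply, smul_eq_mul]
        field_simp
      · simp only [Fin.mk_one, Pi.smul_apply, smul_eq_mul]
        field_simp
        linear_combination h

theorem e0_ne : (![1, 0] : Fin 2 → F) ≠ 0 := fun h => by
  have := congrFun h 0
  simp at this

theorem e1_ne : (![0, 1] : Fin 2 → F) ≠ 0 := fun h => by
  have := congrFun h 1
  simp at this

theorem e01_ne : (![1, 1] : Fin 2 → F) ≠ 0 := fun h => by
  have := congrFun h 0
  simp at this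

/-- The point `[1 : 0]`. -/
def p0 : ℙ F (Fin 2 → F) := Projectivization.mk F ![1, 0] e0_ne
/-- The point `[0 : 1]`. -/
def p1 : ℙ F (Fin 2 → F) := Projectivization.mk F ![0, 1] e1_ne
/-- The point `[1 : 1]`. -/
def p01 : ℙ F (Fin 2 → F) := Projectivization.mk F ![1, 1] e01_ne

/-- Any three distinct points are the image of the standard triple under some `M ∈ GL_2`. -/
theorem exists_GL_std (a b c : ℙ F (Fin 2 → F)) (hab : a ≠ b) (hac : a ≠ c) (hbc : b ≠ c) :
    ∃ M : GL (Fin 2) F, (Matrix.ProjGenLinGroup.mk M) • (p0 : ℙ F (Fin 2 → F)) = a ∧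
      (Matrix.ProjGenLinGroup.mk M) • (p1 : ℙ F (Fin 2 → F)) = b ∧
      (Matrix.ProjGenLinGroup.mk M) • (p01 : ℙ F (Fin 2 → F)) = c := by
  induction a with | h u hu => ?_
  induction b with | h v hv => ?_
  induction c with | h w hw => ?_
  rw [Ne, mk_eq_mk_iff_cross] at hab hac hbc
  have hD : u 0 * v 1 - u 1 * v 0 ≠ 0 := sub_ne_zero_of_ne hab
  have hA : w 0 * v 1 - w 1 * v 0 ≠ 0 := fun h => hbc (by linear_combination -h)
  have hB : u 0 * w 1 - u 1 * w 0 ≠ 0 := sub_ne_zero_of_ne hac
  set D := u 0 * v 1 - u 1 * v 0 with hDdef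
  set α := (w 0 * v 1 - w 1 * v 0) / D with hα
  set β := (u 0 * w 1 - u 1 * w 0) / D with hβ
  have hα0 : α ≠ 0 := div_ne_zero hA hD
  have hβ0 : β ≠ 0 := div_ne_zero hB hD
  have hdet : (!![α * u 0, β * v 0; α * u 1, β * v 1] : Matrix (Fin 2) (Fin 2) F).det ≠ 0 := by
    rw [Matrix.det_fin_two]
    simp only [Matrix.of_apply, Matrix.cons_val', Matrix.cons_val_zero, Matrix.cons_val_one]
    have : α * u 0 * (β * v 1) - β * v 0 * (α * u 1) = α * β * D := by rw [hDdef]; ring
    rw [this]
    exact mul_ne_zero (mul_ne_zero hα0 hβ0) hD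
  refine ⟨Matrix.GeneralLinearGroup.mkOfDetNeZero _ hdet, ?_, ?_, ?_⟩
  · rw [p0, Projectivization.PGL.mk_smul_mk, mk_eq_mk_iff_cross]
    simp [Matrix.GeneralLinearGroup.fin_two_smul]
    ring
  · rw [p1, Projectivization.PGL.mk_smul_mk, mk_eq_mk_iff_cross]
    simp [Matrix.GeneralLinearGroup.fin_two_smul]
    ring
  · rw [p01, Projectivization.PGL.mk_smul_mk, mk_eq_mk_iff_cross]
    simp [Matrix.GeneralLinearGroup.fin_two_smul]
    rw [hα, hβ]
    field_simp
    ring

/-- `PGL_2(F)` is 3-transitive on the projective line. -/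
theorem pgl_three_transitive :
    MulAction.IsMultiplyPretransitive (Matrix.ProjGenLinGroup (Fin 2) F) (ℙ F (Fin 2 → F)) 3 := by
  rw [MulAction.isMultiplyPretransitive_iff]
  intro x y
  obtain ⟨M, h0, h1, h2⟩ := exists_GL_std (x 0) (x 1) (x 2) (x.injective.ne (by decide))
    (x.injective.ne (by decide)) (x.injective.ne (by decide))
  obtain ⟨N, k0, k1, k2⟩ := exists_GL_std (y 0) (y 1) (y 2) (y.injective.ne (by decide))
    (y.injective.ne (by decide)) (y.injective.ne (by decide))
  refine ⟨Matrix.ProjGenLinGroup.mk N * (Matrix.ProjGenLinGroup.mk M)⁻¹, ?_⟩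
  ext i
  rw [Function.Embedding.smul_apply]
  fin_cases i
  · change _ • x 0 = y 0
    rw [← h0, mul_smul, inv_smul_smul, k0]
  · change _ • x 1 = y 1
    rw [← h1, mul_smul, inv_smul_smul, k1]
  · change _ • x 2 = y 2
    rw [← h2, mul_smul, inv_smul_smul, k2]

/-- An element of `PGL_2(F)` fixing three distinct points is trivial. -/
theorem pgl_fix_three (g : Matrix.ProjGenLinGroup (Fin 2) F) (a b c : ℙ F (Fin 2 → F))
    (hab : a ≠ b) (hac : a ≠ c) (hbc : b ≠ c) (ha : g • a = a) (hb : g • b = b)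
    (hc : g • c = c) : g = 1 := by
  obtain ⟨M, h0, h1, h2⟩ := exists_GL_std a b c hab hac hbc
  induction g using Matrix.ProjGenLinGroup.induction_on with | mk N => ?_
  set N' : GL (Fin 2) F := M⁻¹ * N * M with hN'
  have f0 : Matrix.ProjGenLinGroup.mk N' • (p0 : ℙ F (Fin 2 → F)) = p0 := by
    rw [hN', map_mul, map_mul, mul_smul, mul_smul, h0, ha, ← h0, map_inv, inv_smul_smul]
  have f1 : Matrix.ProjGenLinGroup.mk N' • (p1 : ℙ F (Fin 2 → F)) = p1 := by
    rw [hN', map_mul, map_mul, mul_smul, mul_smul, h1, hb, ← h1, map_inv, inv_smul_smul]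
  have f2 : Matrix.ProjGenLinGroup.mk N' • (p01 : ℙ F (Fin 2 → F)) = p01 := by
    rw [hN', map_mul, map_mul, mul_smul, mul_smul, h2, hc, ← h2, map_inv, inv_smul_smul]
  rw [p0, Projectivization.PGL.mk_smul_mk, mk_eq_mk_iff_cross] at f0
  rw [p1, Projectivization.PGL.mk_smul_mk, mk_eq_mk_iff_cross] at f1
  rw [p01, Projectivization.PGL.mk_smul_mk, mk_eq_mk_iff_cross] at f2
  simp [Matrix.GeneralLinearGroup.fin_two_smul] at f0 f1 f2
  have hone : Matrix.ProjGenLinGroup.mk N' = 1 := by
    rw [Matrix.ProjGenLinGroup.mk_eq_one,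
      Matrix.GeneralLinearGroup.mem_center_iff_val_mem_range_scalar]
    refine ⟨N' 0 0, ?_⟩
    ext i j
    fin_cases i <;> fin_cases j
    · simp
    · simpa using f1.symm
    · simpa using f0
    · simp only [Fin.mk_one, Matrix.scalar_apply, Matrix.diagonal_apply_eq]
      rw [← f0, f1] at f2
      simpa using f2
  have hN : Matrix.ProjGenLinGroup.mk N
      = Matrix.ProjGenLinGroup.mk M * Matrix.ProjGenLinGroup.mk N' *
        (Matrix.ProjGenLinGroup.mk M)⁻¹ := by
    rw [hN', map_mul, map_mul, map_inv]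
    group
  rw [hN, hone]
  group

end Cfsg.Agent.Lib.Helper5.ProjLine
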