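import Mathlib
import Cfsg.Prelude.Def_SolvableStructure
import Cfsg.Agent.Lib.Helper5.OrdType

set_option autoImplicit false

/-! Supersolvable groups have a normal Sylow subgroup for the largest prime, and a group with the
same order type as a supersolvable group is solvable. -/

namespace Cfsg.Agent.Lib.Helper5.SuperSolv

open Cfsg Cfsg.Agent.Lib.Helper5.OrdType

universe u v

/-- quotients of supersolvable groups are supersolvable -/
theorem supersolvable_quotient {G : Type u} [Group G] (hG : IsSupersolvable G) (N : Subgroup G)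
    [N.Normal] : IsSupersolvable (G ⧸ N) := by
  obtain ⟨n, H, h0, hn, hnorm, hstep⟩ := hG
  refine ⟨n, fun i => (H i).map (QuotientGroup.mk' N), ?_, ?_, ?_, ?_⟩
  · dsimp only
    rw [h0, Subgroup.map_bot]
  · dsimp only
    rw [hn]
    exact Subgroup.map_top_of_surjective _ (QuotientGroup.mk'_surjective N)
  · intro i
    exact Subgroup.Normal.map (hnorm i) _ (QuotientGroup.mk'_surjective N)
  · intro i
    obtain ⟨g, hg⟩ := hstep i
    refine ⟨QuotientGroup.mk' N g, ?_⟩
    dsimp only
    rw [hg, Subgroup.map_sup, MonoidHom.map_zpowers]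

theorem exists_normal_zpowers {G : Type u} [Group G] [Nontrivial G] (hG : IsSupersolvable G) :
    ∃ g : G, g ≠ 1 ∧ (Subgroup.zpowers g).Normal := by
  obtain ⟨n, H, h0, hn, hnorm, hstep⟩ := hG
  by_contra hcon
  push Not at hcon
  have hall : ∀ i : Fin (n + 1), H i = ⊥ := by
    intro i
    induction i using Fin.induction with
    | zero => exact h0
    | succ i ih =>
      obtain ⟨g, hg⟩ := hstep i
      rw [ih, bot_sup_eq] at hg
      by_cases hg1 : g = 1
      · rw [hg, hg1, Subgroup.zpowers_one_eq_bot]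
      · exact absurd (hg ▸ hnorm i.succ) (hcon g hg1)
  have h1 : (⊤ : Subgroup G) = ⊥ := by rw [← hn, hall]
  exact top_ne_bot h1

theorem exists_normal_prime {G : Type u} [Group G] [Finite G] [Nontrivial G]
    (hG : IsSupersolvable G) : ∃ N : Subgroup G, N.Normal ∧ (Nat.card N).Prime := by
  obtain ⟨g, hg1, hgn⟩ := exists_normal_zpowers hG
  have hm : orderOf g ≠ 1 := fun h => hg1 (orderOf_eq_one_iff.mp h)
  have hqp : (orderOf g).minFac.Prime := Nat.minFac_prime hm
  have hqd : (orderOf g).minFac ∣ orderOf g := Nat.minFac_dvd _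
  have hpos : orderOf g ≠ 0 := (orderOf_pos g).ne'
  refine ⟨Subgroup.zpowers (g ^ (orderOf g / (orderOf g).minFac)), ⟨?_⟩, ?_⟩
  · intro x hx h
    obtain ⟨k, rfl⟩ := Subgroup.mem_zpowers_iff.mp hx
    have h1 : h * g * h⁻¹ ∈ Subgroup.zpowers g := hgn.conj_mem g (Subgroup.mem_zpowers g) h
    obtain ⟨j, hj⟩ := Subgroup.mem_zpowers_iff.mp h1
    rw [Subgroup.mem_zpowers_iff]
    refine ⟨j * k, ?_⟩
    rw [← conj_zpow, ← conj_pow, ← hj]
    simp only [← zpow_natCast, ← zpow_mul]
    congr 1
    ring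
  · rw [Nat.card_zpowers, orderOf_pow_orderOf_div hpos hqd]
    exact hqp

/-- elements of a `p`-subgroup centralize a normal subgroup of order less than `p` -/
theorem conj_eq_of_card_lt {G : Type u} [Group G] [Finite G] (p : ℕ) [Fact p.Prime]
    (N : Subgroup G) [N.Normal] (hN : Nat.card N < p) (P : Subgroup G) (hP : IsPGroup p P)
    (x : G) (hx : x ∈ P) (c : G) (hc : c ∈ N) : x * c * x⁻¹ = c := by
  let _ : MulAction P N := MulAction.compHom N ((MulAut.conjNormal (H := N)).comp P.subtype)
  obtain ⟨k, hk⟩ := hP.card_orbit (⟨c, hc⟩ : N)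
  have hle : Nat.card (MulAction.orbit P (⟨c, hc⟩ : N)) ≤ Nat.card N :=
    Nat.card_le_card_of_injective _ Subtype.val_injective
  have hk0 : k = 0 := by
    by_contra h
    have h1 : p ≤ p ^ k := Nat.le_self_pow h p
    omega
  rw [hk0, pow_zero] at hk
  have hmem : (⟨x, hx⟩ : P) • (⟨c, hc⟩ : N) ∈ MulAction.orbit P (⟨c, hc⟩ : N) :=
    MulAction.mem_orbit _ _
  have hself : (⟨c, hc⟩ : N) ∈ MulAction.orbit P (⟨c, hc⟩ : N) := MulAction.mem_orbit_self _
  have hsub := (Nat.card_eq_one_iff_unique.mp hk).1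
  have heq : (⟨x, hx⟩ : P) • (⟨c, hc⟩ : N) = ⟨c, hc⟩ := by
    have h2 := Subsingleton.elim (⟨_, hmem⟩ : MulAction.orbit P (⟨c, hc⟩ : N)) ⟨_, hself⟩
    exact congrArg Subtype.val h2
  exact congrArg Subtype.val heq

/-- In a supersolvable group the Sylow subgroups for a prime at least as large as every prime
divisor of the order are normal. -/
theorem normal_sylow : ∀ (n : ℕ) (G : Type u) [Group G] [Finite G], Nat.card G = n →
    IsSupersolvable G → ∀ (p : ℕ) [Fact p.Prime], (∀ q : ℕ, q.Prime → q ∣ n → q ≤ p) →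
    ∀ P : Sylow p G, (P : Subgroup G).Normal := by
  intro n
  induction n using Nat.strong_induction_on with
  | _ n ih =>
    intro G _ _ hcard hG p _ hp P
    by_cases htriv : Subsingleton G
    · exact ⟨fun x hx g => by rw [Subsingleton.elim (g * x * g⁻¹) x]; exact hx⟩
    · have : Nontrivial G := not_subsingleton_iff_nontrivial.mp htriv
      obtain ⟨N, hNn, hNp⟩ := exists_normal_prime hG
      have := hNn
      have hqn : Nat.card N ∣ n := hcard ▸ Subgroup.card_subgroup_dvd_card N
      have hqp : Nat.card N ≤ p := hp _ hNp hqn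
      have hmul := Subgroup.card_eq_card_quotient_mul_card_subgroup N
      rw [hcard] at hmul
      have hcardQ : Nat.card (G ⧸ N) < n := by
        have h2 : 2 ≤ Nat.card N := hNp.two_le
        have hpos : 0 < Nat.card (G ⧸ N) := Nat.card_pos
        nlinarith
      have hdvdQ : Nat.card (G ⧸ N) ∣ n := by
        rw [hmul]
        exact dvd_mul_right _ _
      have hQ : ∀ Q : Sylow p (G ⧸ N), (Q : Subgroup (G ⧸ N)).Normal :=
        ih _ hcardQ (G ⧸ N) rfl (supersolvable_quotient hG N) p
          (fun r hr hrd => hp r hr (hrd.trans hdvdQ))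
      have hQn := hQ (P.mapSurjective (QuotientGroup.mk'_surjective N))
      refine ⟨fun x hx g => ?_⟩
      have h1 : QuotientGroup.mk' N (g * x * g⁻¹) ∈
          ((P.mapSurjective (QuotientGroup.mk'_surjective N) : Sylow p (G ⧸ N)) :
            Subgroup (G ⧸ N)) := by
        rw [map_mul, map_mul, map_inv]
        exact hQn.conj_mem _ (Subgroup.mem_map_of_mem _ hx) _
      obtain ⟨x₂, hx₂, hx₂e⟩ := Subgroup.mem_map.mp h1
      have hc : x₂⁻¹ * (g * x * g⁻¹) ∈ N := by
        rw [← QuotientGroup.eq]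
        exact hx₂e
      have hy : g * x * g⁻¹ = x₂ * (x₂⁻¹ * (g * x * g⁻¹)) := by group
      rcases hqp.lt_or_eq with hlt | heq
      · have hcomm : x₂ * (x₂⁻¹ * (g * x * g⁻¹)) * x₂⁻¹ = x₂⁻¹ * (g * x * g⁻¹) :=
          conj_eq_of_card_lt p N hlt P P.isPGroup' x₂ hx₂ _ hc
        have hcm : Commute x₂ (x₂⁻¹ * (g * x * g⁻¹)) := mul_inv_eq_iff_eq_mul.mp hcomm
        obtain ⟨k₁, hk₁⟩ := P.isPGroup' ⟨x, hx⟩
        obtain ⟨k₂, hk₂⟩ := P.isPGroup' ⟨x₂, hx₂⟩
        have hk₁' : x ^ p ^ k₁ = 1 := congrArg Subtype.val hk₁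
        have hk₂' : x₂ ^ p ^ k₂ = 1 := congrArg Subtype.val hk₂
        have e1 : (g * x * g⁻¹) ^ p ^ (k₁ + k₂) = 1 := by
          rw [conj_pow, pow_add, pow_mul, hk₁', one_pow, mul_one, mul_inv_cancel]
        have e2 : x₂ ^ p ^ (k₁ + k₂) = 1 := by
          rw [pow_add, mul_comm, pow_mul, hk₂', one_pow]
        have e3 : (x₂⁻¹ * (g * x * g⁻¹)) ^ p ^ (k₁ + k₂) = 1 := by
          have h3 := hcm.mul_pow (p ^ (k₁ + k₂))
          rw [← hy, e1, e2, one_mul] at h3
          exact h3.symm
        have e4 : (x₂⁻¹ * (g * x * g⁻¹)) ^ Nat.card N = 1 := by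
          have h4 := pow_card_eq_one' (G := N) (x := ⟨_, hc⟩)
          exact congrArg Subtype.val h4
        have hcop : Nat.Coprime (p ^ (k₁ + k₂)) (Nat.card N) :=
          Nat.Coprime.pow_left _ ((Nat.coprime_primes (Fact.out : p.Prime) hNp).mpr hlt.ne')
        have e5 : orderOf (x₂⁻¹ * (g * x * g⁻¹)) ∣ 1 := by
          rw [← hcop]
          exact Nat.dvd_gcd (orderOf_dvd_of_pow_eq_one e3) (orderOf_dvd_of_pow_eq_one e4)
        have e6 : x₂⁻¹ * (g * x * g⁻¹) = 1 := orderOf_eq_one_iff.mp (Nat.dvd_one.mp e5)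
        rw [hy, e6, mul_one]
        exact hx₂
      · have hNpg : IsPGroup p N := IsPGroup.of_card (n := 1) (by rw [pow_one]; exact heq)
        have hNP : N ≤ (P : Subgroup G) := hNpg.le_sylow_of_normal P
        rw [hy]
        exact Subgroup.mul_mem _ hx₂ (hNP hc)

/-! ### counting -/

theorem fcount_zero (X : Type*) [Group X] : fcount X 0 = Nat.card X := by
  unfold fcount
  exact Nat.card_congr (Equiv.subtypeUnivEquiv (fun g => pow_zero g))

theorem fcount_eq_of_orderType {G : Type u} {H : Type v} [Group G] [Group H] [Finite G]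
    [Finite H]
    (hT : ∀ m : ℕ, Nat.card {g : G // orderOf g = m} = Nat.card {h : H // orderOf h = m})
    (n : ℕ) (hn : n ≠ 0) : fcount G n = fcount H n := by
  rw [fcount_eq_sum hn, fcount_eq_sum hn]
  exact Finset.sum_congr rfl (fun d _ => hT d)

theorem card_eq_of_orderType {G : Type u} {H : Type v} [Group G] [Group H] [Finite G]
    [Finite H]
    (hT : ∀ m : ℕ, Nat.card {g : G // orderOf g = m} = Nat.card {h : H // orderOf h = m}) :
    Nat.card G = Nat.card H := by
  have hG : Nat.card G ≠ 0 := Nat.card_pos.ne'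
  have hH : Nat.card H ≠ 0 := Nat.card_pos.ne'
  have h := fcount_eq_of_orderType hT (Nat.card G * Nat.card H) (mul_ne_zero hG hH)
  have h1 : fcount G (Nat.card G * Nat.card H) = Nat.card G := by
    unfold fcount
    exact Nat.card_congr (Equiv.subtypeUnivEquiv
      (fun g => by rw [pow_mul, pow_card_eq_one', one_pow]))
  have h2 : fcount H (Nat.card G * Nat.card H) = Nat.card H := by
    unfold fcount
    exact Nat.card_congr (Equiv.subtypeUnivEquiv
      (fun g => by rw [mul_comm, pow_mul, pow_card_eq_one', one_pow]))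
  rw [h1, h2] at h
  exact h

theorem fcount_eq_of_orderType' {G : Type u} {H : Type v} [Group G] [Group H] [Finite G]
    [Finite H]
    (hT : ∀ m : ℕ, Nat.card {g : G // orderOf g = m} = Nat.card {h : H // orderOf h = m})
    (n : ℕ) : fcount G n = fcount H n := by
  rcases Nat.eq_zero_or_pos n with rfl | hn
  · rw [fcount_zero, fcount_zero]
    exact card_eq_of_orderType hT
  · exact fcount_eq_of_orderType hT n hn.ne'

theorem fcount_quotient {X : Type*} [Group X] (P : Subgroup X) [P.Normal] (e : ℕ)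
    (hP : ∀ x : X, x ∈ P ↔ x ^ e = 1) (m : ℕ) :
    fcount X (m * e) = Nat.card P * fcount (X ⧸ P) m := by
  have h1 := QuotientGroup.card_preimage_mk P {y : X ⧸ P | y ^ m = 1}
  have h2 : Nat.card {x : X // x ^ (m * e) = 1} =
      Nat.card ((QuotientGroup.mk : X → X ⧸ P) ⁻¹' {y : X ⧸ P | y ^ m = 1}) := by
    apply Nat.card_congr
    apply Equiv.subtypeEquivRight
    intro x
    show x ^ (m * e) = 1 ↔ (QuotientGroup.mk x : X ⧸ P) ^ m = 1
    rw [← QuotientGroup.mk_pow, QuotientGroup.eq_one_iff, hP, pow_mul]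
  unfold fcount
  rw [h2, h1]
  rfl

theorem mem_normal_sylow_iff {G : Type*} [Group G] [Finite G] (p : ℕ) [Fact p.Prime]
    (P : Sylow p G) [(P : Subgroup G).Normal] (x : G) :
    x ∈ (P : Subgroup G) ↔ x ^ Nat.card (P : Subgroup G) = 1 := by
  constructor
  · intro hx
    have h1 := pow_card_eq_one' (G := (P : Subgroup G)) (x := ⟨x, hx⟩)
    exact congrArg Subtype.val h1
  · intro hx
    have h1 : (QuotientGroup.mk x : G ⧸ (P : Subgroup G)) ^ Nat.card (P : Subgroup G) = 1 := by
      rw [← QuotientGroup.mk_pow, hx]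
      rfl
    have h2 : orderOf (QuotientGroup.mk x : G ⧸ (P : Subgroup G)) ∣ Nat.card (P : Subgroup G) :=
      orderOf_dvd_of_pow_eq_one h1
    have h3 : orderOf (QuotientGroup.mk x : G ⧸ (P : Subgroup G)) ∣ (P : Subgroup G).index := by
      rw [Subgroup.index]
      exact orderOf_dvd_natCard _
    have h4 : orderOf (QuotientGroup.mk x : G ⧸ (P : Subgroup G)) ∣ 1 := by
      have h5 : Nat.gcd (Nat.card (P : Subgroup G)) (P : Subgroup G).index = 1 :=
        P.card_coprime_index
      rw [← h5]
      exact Nat.dvd_gcd h2 h3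
    have h6 := orderOf_eq_one_iff.mp (Nat.dvd_one.mp h4)
    exact (QuotientGroup.eq_one_iff x).mp h6

theorem mem_sylow_iff_of_fcount {H : Type*} [Group H] [Finite H] (p : ℕ) [Fact p.Prime]
    (Q : Sylow p H)
    (hf : fcount H (Nat.card (Q : Subgroup H)) = Nat.card (Q : Subgroup H)) (x : H) :
    x ∈ (Q : Subgroup H) ↔ x ^ Nat.card (Q : Subgroup H) = 1 := by
  have hsub : ((Q : Subgroup H) : Set H) ⊆ {x : H | x ^ Nat.card (Q : Subgroup H) = 1} := by
    intro y hy
    have h1 := pow_card_eq_one' (G := (Q : Subgroup H)) (x := ⟨y, hy⟩)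
    exact congrArg Subtype.val h1
  have heq : ((Q : Subgroup H) : Set H) = {x : H | x ^ Nat.card (Q : Subgroup H) = 1} := by
    apply Set.eq_of_subset_of_ncard_le hsub _ (Set.toFinite _)
    rw [← Nat.card_coe_set_eq, ← Nat.card_coe_set_eq]
    exact hf.le
  exact Set.ext_iff.mp heq x

theorem normal_of_mem_iff {H : Type*} [Group H] (Q : Subgroup H) (e : ℕ)
    (h : ∀ x, x ∈ Q ↔ x ^ e = 1) : Q.Normal :=
  ⟨fun x hx g => by
    rw [h] at hx ⊢
    rw [conj_pow, hx, mul_one, mul_inv_cancel]⟩

/-- A group with the same order type as a supersolvable group is solvable. -/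
theorem solvable_of_orderType : ∀ (n : ℕ) (G : Type u) (H : Type v) [Group G] [Finite G]
    [Group H] [Finite H], Nat.card G = n →
    (∀ m : ℕ, Nat.card {g : G // orderOf g = m} = Nat.card {h : H // orderOf h = m}) →
    IsSupersolvable G → Group.IsSolvable H := by
  intro n
  induction n using Nat.strong_induction_on with
  | _ n ih =>
    intro G H _ _ _ _ hcard hT hG
    have hGH : Nat.card G = Nat.card H := card_eq_of_orderType hT
    by_cases h1 : n = 1
    · have h2 : Nat.card H = 1 := by rw [← hGH, hcard, h1]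
      have hsub : Subsingleton H := (Nat.card_eq_one_iff_unique.mp h2).1
      exact Group.isSolvable_of_comm (fun a b => Subsingleton.elim _ _)
    · have hn0 : n ≠ 0 := hcard ▸ Nat.card_pos.ne'
      have hne : n.primeFactors.Nonempty := Nat.nonempty_primeFactors.mpr (by omega)
      have hpm : n.primeFactors.max' hne ∈ n.primeFactors := Finset.max'_mem _ _
      obtain ⟨p, hpdef⟩ : ∃ p, p = n.primeFactors.max' hne := ⟨_, rfl⟩
      rw [← hpdef] at hpm
      have hpp : p.Prime := Nat.prime_of_mem_primeFactors hpm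
      have hpd : p ∣ n := Nat.dvd_of_mem_primeFactors hpm
      have : Fact p.Prime := ⟨hpp⟩
      have hmax : ∀ q : ℕ, q.Prime → q ∣ n → q ≤ p := fun q hq hqd => by
        rw [hpdef]
        exact Finset.le_max' _ q (Nat.mem_primeFactors.mpr ⟨hq, hqd, hn0⟩)
      obtain ⟨P⟩ : Nonempty (Sylow p G) := inferInstance
      have hPn : (P : Subgroup G).Normal := normal_sylow n G hcard hG p hmax P
      have hPmem := mem_normal_sylow_iff p P
      have hfG : fcount G (Nat.card (P : Subgroup G)) = Nat.card (P : Subgroup G) := by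
        unfold fcount
        exact Nat.card_congr (Equiv.subtypeEquivRight (fun x => (hPmem x).symm))
      have he0 : Nat.card (P : Subgroup G) ≠ 0 := Nat.card_pos.ne'
      obtain ⟨Q⟩ : Nonempty (Sylow p H) := inferInstance
      have hQe : Nat.card (Q : Subgroup H) = Nat.card (P : Subgroup G) := by
        rw [Sylow.card_eq_multiplicity, Sylow.card_eq_multiplicity, hGH]
      have hfH : fcount H (Nat.card (Q : Subgroup H)) = Nat.card (Q : Subgroup H) := by
        rw [hQe, ← fcount_eq_of_orderType hT _ he0, hfG]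
      have hQmem := mem_sylow_iff_of_fcount p Q hfH
      have hQn : (Q : Subgroup H).Normal := normal_of_mem_iff _ _ hQmem
      have hlt : Nat.card (G ⧸ (P : Subgroup G)) < n := by
        have h2 := Subgroup.card_eq_card_quotient_mul_card_subgroup (P : Subgroup G)
        have h3 : 1 < Nat.card (P : Subgroup G) :=
          (P : Subgroup G).one_lt_card_iff_ne_bot.mpr (P.ne_bot_of_dvd_card (hcard ▸ hpd))
        have h4 : 0 < Nat.card (G ⧸ (P : Subgroup G)) := Nat.card_pos
        rw [hcard] at h2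
        nlinarith
      have hTq : ∀ m : ℕ, Nat.card {g : G ⧸ (P : Subgroup G) // orderOf g = m} =
          Nat.card {h : H ⧸ (Q : Subgroup H) // orderOf h = m} := by
        apply card_orderOf_eq_of_fcount
        intro m
        have a1 := fcount_quotient (P : Subgroup G) _ hPmem m
        have a2 := fcount_quotient (Q : Subgroup H) _ hQmem m
        rw [hQe] at a2
        have a3 := fcount_eq_of_orderType' hT (m * Nat.card (P : Subgroup G))
        rw [a1, a2] at a3
        exact Nat.eq_of_mul_eq_mul_left (Nat.pos_of_ne_zero he0) a3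
      have hsol : Group.IsSolvable (H ⧸ (Q : Subgroup H)) :=
        ih _ hlt (G ⧸ (P : Subgroup G)) (H ⧸ (Q : Subgroup H)) rfl hTq
          (supersolvable_quotient hG _)
      have hQs : Group.IsSolvable (Q : Subgroup H) :=
        @IsNilpotent.to_isSolvable _ _ (Q.isPGroup'.isNilpotent)
      exact Group.isSolvable_of_ker_le_range (Q : Subgroup H).subtype
        (QuotientGroup.mk' (Q : Subgroup H))
        (by rw [QuotientGroup.ker_mk', Subgroup.range_subtype])

end Cfsg.Agent.Lib.Helper5.SuperSolv
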