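import Mathlib
import Cfsg.Agent.Lib.Helper17.PrimeSylow
import Cfsg.Agent.Lib.Helper17.Small

set_option autoImplicit false

/-!
# Sylow-number machine for simple groups, part 3: counting elements of order divisible by `p`
-/

namespace Cfsg.Agent.Lib.Helper5.Syl

open Cfsg.Agent.Lib.Helper17

variable {G : Type*} [Group G] [Finite G]

/-- All Sylow `p`-subgroups have centralizers of the same order. -/
theorem card_centralizer_sylow_eq (p : ℕ) [Fact p.Prime] (P Q : Sylow p G) :
    Nat.card (Subgroup.centralizer ((Q : Subgroup G) : Set G)) =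
      Nat.card (Subgroup.centralizer ((P : Subgroup G) : Set G)) := by
  obtain ⟨g, rfl⟩ := MulAction.exists_smul_eq G P Q
  have hmem : ∀ x : G, x ∈ ((g • P : Sylow p G) : Subgroup G) ↔ ∃ s ∈ (P : Subgroup G), g * s * g⁻¹ = x := by
    intro x
    rw [Sylow.coe_subgroup_smul, Subgroup.mem_smul_pointwise_iff_exists]
    simp [MulAut.smul_def]
  symm
  refine Nat.card_congr
    { toFun := fun h => ⟨g * (h : G) * g⁻¹, ?_⟩
      invFun := fun h => ⟨g⁻¹ * (h : G) * g, ?_⟩
      left_inv := fun h => by apply Subtype.ext; simp [mul_assoc]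
      right_inv := fun h => by apply Subtype.ext; simp [mul_assoc] }
  · rw [Subgroup.mem_centralizer_iff]
    intro x hx
    obtain ⟨s, hs, rfl⟩ := (hmem x).mp hx
    have hc := (Subgroup.mem_centralizer_iff.mp h.2) s hs
    have e1 : g * s * g⁻¹ * (g * (h : G) * g⁻¹) = g * (s * (h : G)) * g⁻¹ := by group
    have e2 : g * (h : G) * g⁻¹ * (g * s * g⁻¹) = g * ((h : G) * s) * g⁻¹ := by group
    rw [e1, e2, hc]
  · rw [Subgroup.mem_centralizer_iff]
    intro s hs
    have hx : g * s * g⁻¹ ∈ ((g • P : Sylow p G) : Subgroup G) := (hmem _).mpr ⟨s, hs, rfl⟩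
    have hc := (Subgroup.mem_centralizer_iff.mp h.2) _ hx
    have e1 : s * (g⁻¹ * (h : G) * g) = g⁻¹ * ((g * s * g⁻¹) * (h : G)) * g := by group
    have e2 : g⁻¹ * (h : G) * g * s = g⁻¹ * ((h : G) * (g * s * g⁻¹)) * g := by group
    rw [e1, e2, hc]

/-- **Counting rule.** If the Sylow `p`-subgroups have order `p` and `|C(P)| = p * c'` with
`p ∤ c'`, then at least `n_p * (p - 1) * c'` elements have order divisible by `p` and dividing
any multiple `D` of `|C(P)|`. -/
theorem card_dvd_orderOf_ge (p : ℕ) [Fact p.Prime] (P : Sylow p G)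
    (hP : Nat.card (P : Subgroup G) = p) (c' D : ℕ)
    (hC : Nat.card (Subgroup.centralizer ((P : Subgroup G) : Set G)) = p * c')
    (hpc : ¬ p ∣ c') (hD : p * c' ∣ D) :
    Nat.card (Sylow p G) * ((p - 1) * c') ≤ Nat.card {g : G // p ∣ orderOf g ∧ orderOf g ∣ D} := by
  classical
  have hpp : p.Prime := Fact.out
  have hcardS : ∀ Q : Sylow p G, Nat.card (Q : Subgroup G) = p := by
    intro Q
    rw [Sylow.card_eq_multiplicity, ← Sylow.card_eq_multiplicity P, hP]
  have hcardC : ∀ Q : Sylow p G,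
      Nat.card (Subgroup.centralizer ((Q : Subgroup G) : Set G)) = p * c' := by
    intro Q
    rw [card_centralizer_sylow_eq p P Q, hC]
  have hcop : Nat.Coprime c' p := by
    rw [Nat.coprime_comm]
    exact (Nat.Prime.coprime_iff_not_dvd hpp).mpr hpc
  -- the elements attached to `Q`
  let S : Sylow p G → Type _ := fun Q =>
    {g : G // g ∈ Subgroup.centralizer ((Q : Subgroup G) : Set G) ∧ g ^ c' ≠ 1}
  -- Step A: lower bound for each `Q`
  have hA : ∀ Q : Sylow p G, (p - 1) * c' ≤ Nat.card (S Q) := by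
    intro Q
    set CQ := Subgroup.centralizer ((Q : Subgroup G) : Set G) with hCQ
    have hQC : (Q : Subgroup G) ≤ CQ := by
      have hcyc : IsCyclic (Q : Subgroup G) := isCyclic_of_prime_card (hcardS Q)
      have : IsMulCommutative (Q : Subgroup G) :=
        ⟨⟨fun a b => (IsCyclic.commGroup (α := (Q : Subgroup G))).mul_comm a b⟩⟩
      exact Subgroup.le_centralizer (Q : Subgroup G)
    have : Fintype CQ := Fintype.ofFinite _
    have : Fintype (Q : Subgroup G) := Fintype.ofFinite _
    -- the elements of `CQ` with trivial `c'`-th power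
    have hT : Fintype.card {g : CQ // (g : G) ^ c' = 1} * p ≤ p * c' := by
      rw [← hcardC Q, ← hCQ, Nat.card_eq_fintype_card]
      have hQcard : Fintype.card (Q : Subgroup G) = p := by
        rw [← Nat.card_eq_fintype_card]; exact hcardS Q
      rw [← hQcard, ← Fintype.card_prod]
      apply Fintype.card_le_of_injective
        (fun tx : {g : CQ // (g : G) ^ c' = 1} × (Q : Subgroup G) =>
          (tx.1.1 * ⟨(tx.2 : G), hQC tx.2.2⟩ : CQ))
      rintro ⟨⟨t, ht⟩, x⟩ ⟨⟨t', ht'⟩, x'⟩ heq
      have heq' : (t : G) * (x : G) = (t' : G) * (x' : G) := congrArg Subtype.val heq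
      have hcomm : Commute (t : G) (x : G) := by
        show (t : G) * (x : G) = (x : G) * (t : G)
        exact ((Subgroup.mem_centralizer_iff.mp t.2) x x.2).symm
      have hcomm' : Commute (t' : G) (x' : G) := by
        show (t' : G) * (x' : G) = (x' : G) * (t' : G)
        exact ((Subgroup.mem_centralizer_iff.mp t'.2) x' x'.2).symm
      have hpow : (x : G) ^ c' = (x' : G) ^ c' := by
        have h1 := congrArg (fun z : G => z ^ c') heq'
        simp only [hcomm.mul_pow, hcomm'.mul_pow, ht, ht', one_mul] at h1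
        exact h1
      have hxx : x = x' := by
        have hcx : Commute (x : (Q : Subgroup G)) x' := by
          have hcyc : IsCyclic (Q : Subgroup G) := isCyclic_of_prime_card (hcardS Q)
          exact (IsCyclic.commGroup (α := (Q : Subgroup G))).mul_comm x x'
        have h1 : (x * x'⁻¹) ^ c' = 1 := by
          rw [(hcx.inv_right).mul_pow, inv_pow]
          apply Subtype.ext
          simp [hpow]
        have h2 : orderOf (x * x'⁻¹) ∣ c' := orderOf_dvd_of_pow_eq_one h1
        have h3 : orderOf (x * x'⁻¹) ∣ p := by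
          have := orderOf_dvd_natCard (x * x'⁻¹)
          rwa [hcardS Q] at this
        have h4 : orderOf (x * x'⁻¹) = 1 := Nat.eq_one_of_dvd_coprimes hcop h2 h3
        have h5 := orderOf_eq_one_iff.mp h4
        exact mul_inv_eq_one.mp h5
      subst hxx
      have htt : (t : G) = (t' : G) := mul_right_cancel heq'
      have : t = t' := Subtype.ext htt
      subst this
      rfl
    have hT' : Fintype.card {g : CQ // (g : G) ^ c' = 1} ≤ c' :=
      Nat.le_of_mul_le_mul_right (by rw [mul_comm c' p]; exact hT) hpp.pos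
    have hsplit : Fintype.card {g : CQ // ¬ (g : G) ^ c' = 1} =
        Fintype.card CQ - Fintype.card {g : CQ // (g : G) ^ c' = 1} :=
      Fintype.card_subtype_compl _
    have hCQcard : Fintype.card CQ = p * c' := by
      rw [← Nat.card_eq_fintype_card]; exact hcardC Q
    have hS : Nat.card (S Q) = Fintype.card {g : CQ // ¬ (g : G) ^ c' = 1} := by
      rw [← Nat.card_eq_fintype_card]
      exact Nat.card_congr
        (Equiv.subtypeSubtypeEquivSubtypeInter (fun g : G => g ∈ CQ) (fun g : G => ¬ g ^ c' = 1)).symm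
    rw [hS, hsplit, hCQcard]
    have h1 : (p - 1) * c' = p * c' - c' := by
      rw [Nat.sub_mul, one_mul]
    omega
  -- Step B: the map into the target
  have hB : ∀ (Q : Sylow p G) (g : G), g ∈ Subgroup.centralizer ((Q : Subgroup G) : Set G) →
      g ^ c' ≠ 1 → (p ∣ orderOf g ∧ orderOf g ∣ D) ∧ g ^ c' ∈ (Q : Subgroup G) := by
    intro Q g hg hw
    have ho : orderOf g ∣ p * c' := by
      have := Subgroup.orderOf_dvd_natCard _ hg
      rwa [hcardC Q] at this
    have hwp : (g ^ c') ^ p = 1 := by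
      rw [← pow_mul, mul_comm]
      exact orderOf_dvd_iff_pow_eq_one.mp ho
    have hwo : orderOf (g ^ c') = p := by
      have h1 : orderOf (g ^ c') ∣ p := orderOf_dvd_of_pow_eq_one hwp
      rcases (Nat.dvd_prime hpp).mp h1 with h | h
      · exact absurd (orderOf_eq_one_iff.mp h) hw
      · exact h
    refine ⟨⟨?_, dvd_trans ho hD⟩, ?_⟩
    · rw [← hwo]; exact orderOf_pow_dvd c'
    · apply mem_sylow_of_mem_normalizer_of_orderOf p Q (g ^ c')
        (Subgroup.centralizer_le_normalizer _ (Subgroup.pow_mem _ hg c')) 1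
      rw [pow_one, hwo]
  let Φ : (Σ Q : Sylow p G, S Q) → {g : G // p ∣ orderOf g ∧ orderOf g ∣ D} :=
    fun x => ⟨x.2.1, (hB x.1 x.2.1 x.2.2.1 x.2.2.2).1⟩
  have hΦ : Function.Injective Φ := by
    rintro ⟨Q, g, hg, hw⟩ ⟨Q', g', hg', hw'⟩ heq
    have hgg : g = g' := congrArg Subtype.val heq
    subst hgg
    have hQQ : Q = Q' := by
      by_contra hne
      have h1 := (hB Q g hg hw).2
      have h2 := (hB Q' g hg' hw').2
      have h3 : g ^ c' ∈ (Q : Subgroup G) ⊓ (Q' : Subgroup G) := ⟨h1, h2⟩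
      rw [inf_eq_bot_of_sylow_prime p Q Q' (hcardS Q) hne, Subgroup.mem_bot] at h3
      exact hw h3
    subst hQQ
    rfl
  have : Fintype (Sylow p G) := Fintype.ofFinite _
  calc Nat.card (Sylow p G) * ((p - 1) * c')
      = ∑ _Q : Sylow p G, (p - 1) * c' := by
        rw [Finset.sum_const, Finset.card_univ, smul_eq_mul, Nat.card_eq_fintype_card]
    _ ≤ ∑ Q : Sylow p G, Nat.card (S Q) := Finset.sum_le_sum (fun Q _ => hA Q)
    _ = Nat.card (Σ Q : Sylow p G, S Q) := (Nat.card_sigma).symm
    _ ≤ Nat.card {g : G // p ∣ orderOf g ∧ orderOf g ∣ D} := Nat.card_le_card_of_injective Φ hΦ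

/-- Disjoint families of elements, described by conditions on their orders. -/
theorem sum_card_le {k : ℕ} (φ : Fin k → ℕ → Prop)
    (hdisj : ∀ i j, i ≠ j → ∀ m, φ i m → φ j m → False) :
    ∑ i, Nat.card {g : G // φ i (orderOf g)} ≤ Nat.card G := by
  classical
  rw [← Nat.card_sigma]
  apply Nat.card_le_card_of_injective (fun x : (Σ i, {g : G // φ i (orderOf g)}) => (x.2 : G))
  rintro ⟨i, g, hi⟩ ⟨j, g', hj⟩ heq
  have hgg : g = g' := heq
  subst hgg
  have hij : i = j := by
    by_contra hne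
    exact hdisj i j hne _ hi hj
  subst hij
  rfl

/-- Three disjoint families. -/
theorem sum_card_le3 (φ₁ φ₂ φ₃ : ℕ → Prop) (h₁₂ : ∀ m, φ₁ m → φ₂ m → False)
    (h₁₃ : ∀ m, φ₁ m → φ₃ m → False) (h₂₃ : ∀ m, φ₂ m → φ₃ m → False) :
    Nat.card {g : G // φ₁ (orderOf g)} + Nat.card {g : G // φ₂ (orderOf g)} +
      Nat.card {g : G // φ₃ (orderOf g)} ≤ Nat.card G := by
  have key := sum_card_le (G := G) (k := 3) ![φ₁, φ₂, φ₃] (by
    intro i j hij m hi hj
    fin_cases i <;> fin_cases j
    · exact hij rfl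
    · exact h₁₂ m hi hj
    · exact h₁₃ m hi hj
    · exact h₁₂ m hj hi
    · exact hij rfl
    · exact h₂₃ m hi hj
    · exact h₁₃ m hj hi
    · exact h₂₃ m hj hi
    · exact hij rfl)
  rw [Fin.sum_univ_three] at key
  exact key

/-- Four disjoint families. -/
theorem sum_card_le4 (φ₁ φ₂ φ₃ φ₄ : ℕ → Prop) (h₁₂ : ∀ m, φ₁ m → φ₂ m → False)
    (h₁₃ : ∀ m, φ₁ m → φ₃ m → False) (h₁₄ : ∀ m, φ₁ m → φ₄ m → False)
    (h₂₃ : ∀ m, φ₂ m → φ₃ m → False) (h₂₄ : ∀ m, φ₂ m → φ₄ m → False)
    (h₃₄ : ∀ m, φ₃ m → φ₄ m → False) :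
    Nat.card {g : G // φ₁ (orderOf g)} + Nat.card {g : G // φ₂ (orderOf g)} +
      Nat.card {g : G // φ₃ (orderOf g)} + Nat.card {g : G // φ₄ (orderOf g)} ≤ Nat.card G := by
  have key := sum_card_le (G := G) (k := 4) ![φ₁, φ₂, φ₃, φ₄] (by
    intro i j hij m hi hj
    fin_cases i <;> fin_cases j
    · exact hij rfl
    · exact h₁₂ m hi hj
    · exact h₁₃ m hi hj
    · exact h₁₄ m hi hj
    · exact h₁₂ m hj hi
    · exact hij rfl
    · exact h₂₃ m hi hj
    · exact h₂₄ m hi hj
    · exact h₁₃ m hj hi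
    · exact h₂₃ m hj hi
    · exact hij rfl
    · exact h₃₄ m hi hj
    · exact h₁₄ m hj hi
    · exact h₂₄ m hj hi
    · exact h₃₄ m hj hi
    · exact hij rfl)
  rw [Fin.sum_univ_four] at key
  exact key

/-- `q` divides `n = q * m` exactly once when `q ∤ m`. -/
theorem fact_one (n q m : ℕ) (hq : q.Prime) (h : n = q * m) (hm : ¬ q ∣ m) :
    n.factorization q = 1 := by
  have hm0 : m ≠ 0 := fun h0 => hm (h0 ▸ dvd_zero q)
  rw [h, Nat.factorization_mul hq.ne_zero hm0, Finsupp.add_apply, hq.factorization_self,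
    Nat.factorization_eq_zero_of_not_dvd hm]

end Cfsg.Agent.Lib.Helper5.Syl
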