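import Mathlib
import Cfsg.Agent.Lib.Helper17.PrimeSylow
import Cfsg.Agent.Lib.Helper17.Involution

set_option autoImplicit false

/-!
# Sylow-number machine for simple groups, part 2: cross-prime rule and sign rule
-/

namespace Cfsg.Agent.Lib.Helper5.Syl

open Cfsg.Agent.Lib.Helper17

variable {G : Type*} [Group G] [Finite G]

/-- **Cross-prime rule.** If `q` divides `|G|` exactly once, `|C(P)| = q * c` and no divisor
`j ≠ 1` of `c` is `≡ 1 (mod q)`, then `C(P)` has a unique Sylow `q`-subgroup `Q` (of order `q`),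
hence `N(P) ≤ N(Q)` and `n_q * |N(P)|` divides `|G|`. -/
theorem cross_rule (p q : ℕ) [Fact p.Prime] [Fact q.Prime] (P : Sylow p G)
    (hq1 : (Nat.card G).factorization q = 1) (c : ℕ)
    (hc : Nat.card (Subgroup.centralizer ((P : Subgroup G) : Set G)) = q * c)
    (hnum : ∀ j, j ∣ c → j % q = 1 → j = 1) :
    ∃ k, Nat.card (Sylow q G) *
      (Nat.card (Subgroup.normalizer ((P : Subgroup G) : Set G)) * k) = Nat.card G := by
  classical
  have hqq : q.Prime := Fact.out
  set C := Subgroup.centralizer ((P : Subgroup G) : Set G) with hC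
  have hc0 : c ≠ 0 := by
    rintro rfl
    rw [mul_zero] at hc
    exact Nat.card_pos.ne' hc
  -- `q ∤ c`
  have hqc : ¬ q ∣ c := by
    intro hd
    have h1 : q ^ 2 ∣ Nat.card G := by
      have : q ^ 2 ∣ Nat.card C := by
        rw [hc, pow_two]; exact Nat.mul_dvd_mul_left q hd
      exact dvd_trans this (Subgroup.card_subgroup_dvd_card C)
    have h2 := (hqq.pow_dvd_iff_le_factorization Nat.card_pos.ne').mp h1
    omega
  have hfac : (Nat.card C).factorization q = 1 := by
    rw [hc, Nat.factorization_mul hqq.ne_zero hc0, Finsupp.add_apply, hqq.factorization_self,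
      Nat.factorization_eq_zero_of_not_dvd hqc]
  -- the Sylow `q`-subgroup of `C` is unique
  obtain ⟨QC⟩ := (Sylow.nonempty : Nonempty (Sylow q C))
  have hQC : Nat.card (QC : Subgroup C) = q := by
    rw [Sylow.card_eq_multiplicity, hfac, pow_one]
  have hidx : (QC : Subgroup C).index = c := by
    have h1 := (QC : Subgroup C).card_mul_index
    rw [hQC, hc] at h1
    exact Nat.eq_of_mul_eq_mul_left hqq.pos h1
  have hcard1 : Nat.card (Sylow q C) = 1 := by
    apply hnum
    · rw [← hidx]; exact Sylow.card_dvd_index QC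
    · have h1 := card_sylow_modEq_one q C
      rw [Nat.ModEq, Nat.mod_eq_of_lt hqq.one_lt] at h1
      exact h1
  have hsub : Subsingleton (Sylow q C) := (Nat.card_eq_one_iff_unique.mp hcard1).1
  -- the subgroup `Q` of `G`
  set Q : Subgroup G := (QC : Subgroup C).map C.subtype with hQ
  have hQle : Q ≤ C := Subgroup.map_subtype_le _
  have hQcard : Nat.card Q = q := by
    rw [hQ, Subgroup.card_map_of_injective C.subtype_injective, hQC]
  have hQcard' : Nat.card Q = q ^ (Nat.card G).factorization q := by rw [hq1, pow_one, hQcard]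
  let QG : Sylow q G := Sylow.ofCard Q hQcard'
  -- `N(P) ≤ N(Q)`
  have hle : Subgroup.normalizer ((P : Subgroup G) : Set G) ≤ Subgroup.normalizer (Q : Set G) := by
    intro g hg
    -- the conjugate of `Q`
    set Q' : Subgroup G := Q.map (MulAut.conj g).toMonoidHom with hQ'
    have hQ'le : Q' ≤ C := by
      rintro _ ⟨z, hz, rfl⟩
      have hzC : z ∈ C := hQle hz
      rw [hC, Subgroup.mem_centralizer_iff]
      intro x hx
      have hx' : g⁻¹ * x * g⁻¹⁻¹ ∈ (P : Subgroup G) :=
        (Subgroup.mem_normalizer_iff.mp (Subgroup.inv_mem _ hg) x).mp hx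
      have hcomm := (Subgroup.mem_centralizer_iff.mp hzC) _ hx'
      simp only [MulEquiv.coe_toMonoidHom, MulAut.conj_apply]
      have e1 : x * (g * z * g⁻¹) = g * ((g⁻¹ * x * g⁻¹⁻¹) * z) * g⁻¹ := by group
      have e2 : g * z * g⁻¹ * x = g * (z * (g⁻¹ * x * g⁻¹⁻¹)) * g⁻¹ := by group
      rw [e1, e2, hcomm]
    have hQ'card : Nat.card Q' = q := by
      rw [hQ', Subgroup.card_map_of_injective (MulAut.conj g).injective, hQcard]
    have h1 : Nat.card (Q.subgroupOf C) = q ^ (Nat.card C).factorization q := by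
      rw [hfac, pow_one, Nat.card_congr (Subgroup.subgroupOfEquivOfLe hQle).toEquiv, hQcard]
    have h2 : Nat.card (Q'.subgroupOf C) = q ^ (Nat.card C).factorization q := by
      rw [hfac, pow_one, Nat.card_congr (Subgroup.subgroupOfEquivOfLe hQ'le).toEquiv, hQ'card]
    have heq : Sylow.ofCard (Q.subgroupOf C) h1 = Sylow.ofCard (Q'.subgroupOf C) h2 :=
      Subsingleton.elim _ _
    have heq' : Q.subgroupOf C = Q'.subgroupOf C := congrArg (fun S : Sylow q C => (S : Subgroup C)) heq
    have hQQ' : Q = Q' := by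
      have := Subgroup.subgroupOf_inj.mp heq'
      rwa [inf_of_le_left hQle, inf_of_le_left hQ'le] at this
    rw [Subgroup.mem_normalizer_iff]
    intro h
    constructor
    · intro hh
      rw [hQQ']
      exact ⟨h, hh, rfl⟩
    · intro hh
      rw [hQQ'] at hh
      obtain ⟨h', hh', he⟩ := hh
      have : h' = h := (MulAut.conj g).injective he
      rw [← this]; exact hh'
  obtain ⟨k, hk⟩ := Subgroup.card_dvd_of_le hle
  refine ⟨k, ?_⟩
  have := card_sylow_mul_card_normalizer q QG
  rw [← this]
  congr 1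
  exact hk.symm

/-- The cross-prime rule with a decidable numerical hypothesis. -/
theorem cross_rule' (p q : ℕ) [Fact p.Prime] [Fact q.Prime] (P : Sylow p G)
    (hq1 : (Nat.card G).factorization q = 1) (c : ℕ)
    (hc : Nat.card (Subgroup.centralizer ((P : Subgroup G) : Set G)) = q * c)
    (hnum : ∀ j ∈ Nat.divisors c, j % q = 1 → j = 1) :
    ∃ k, Nat.card (Sylow q G) *
      (Nat.card (Subgroup.normalizer ((P : Subgroup G) : Set G)) * k) = Nat.card G := by
  apply cross_rule p q P hq1 c hc
  intro j hj hm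
  have hc0 : c ≠ 0 := by
    rintro rfl
    rw [mul_zero] at hc
    exact Nat.card_pos.ne' hc
  exact hnum j (Nat.mem_divisors.mpr ⟨hj, hc0⟩) hm

/-- **Sign rule.** In a simple group with `n_p = p + 1`, `4 ∣ p + 1`, `|C(P)| = p`, the
normalizer `N(P)` has odd order. -/
theorem sign_kill [IsSimpleGroup G] (hnp : ¬ (Nat.card G).Prime) (p : ℕ) [Fact p.Prime]
    (P : Sylow p G) (hP : Nat.card (P : Subgroup G) = p)
    (hn : Nat.card (Sylow p G) = p + 1) (h4 : 4 ∣ p + 1)
    (hN : 2 ∣ Nat.card (Subgroup.normalizer ((P : Subgroup G) : Set G)))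
    (hC : Nat.card (Subgroup.centralizer ((P : Subgroup G) : Set G)) = p) : False := by
  have hpp : p.Prime := Fact.out
  have hp2 : ¬ 2 ∣ p := by
    intro h
    have : p = 2 := ((Nat.prime_dvd_prime_iff_eq Nat.prime_two hpp).mp h).symm
    rw [this] at h4
    omega
  have : Fact (Nat.Prime 2) := ⟨Nat.prime_two⟩
  obtain ⟨t, ht⟩ := exists_prime_orderOf_dvd_card'
    (G := ↥(Subgroup.normalizer ((P : Subgroup G) : Set G))) 2 hN
  have ht' : orderOf (t : G) = 2 := by rw [Subgroup.orderOf_coe, ht]
  have ht2 : (t : G) * (t : G) = 1 := by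
    rw [← pow_two, ← ht']; exact pow_orderOf_eq_one _
  have htC : (t : G) ∉ Subgroup.centralizer ((P : Subgroup G) : Set G) := by
    intro hmem
    have := Subgroup.orderOf_dvd_natCard _ hmem
    rw [ht', hC] at this
    exact hp2 this
  have hle := ncard_fixed_sylow_le_two p P hP hn (t : G) t.2 htC
  obtain ⟨c, hc4⟩ := involution_fixed_mod_four hnp (X := Sylow p G) (t : G) ht2
  rw [hn] at hc4
  have hpos : 0 < Set.ncard {Q : Sylow p G | (t : G) • Q = Q} := by
    rw [Set.ncard_pos]
    exact ⟨P, Sylow.smul_eq_iff_mem_normalizer.mpr t.2⟩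
  omega

end Cfsg.Agent.Lib.Helper5.Syl
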