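import Mathlib
import Cfsg.Agent.Lib.Helper5.SylF
import Cfsg.Agent.Lib.Helper5.SylX
import Cfsg.Agent.Lib.Helper5.SylA
import Cfsg.Agent.Lib.Helper17.Count

set_option autoImplicit false
set_option maxRecDepth 100000

/-!
# No simple group of order `19 m` for `m` a proper divisor `≠ 1` of `9240` (generated)
-/

namespace Cfsg.Agent.Lib.Helper5.Syl

open Cfsg.Agent.Lib.Helper17

/-- the primes dividing `175560` -/
def qs : List ℕ := [2, 3, 5, 7, 11, 19]

theorem qs_prime : ∀ q ∈ qs, q.Prime := by
  intro q hq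
  simp only [qs, List.mem_cons, List.not_mem_nil, or_false] at hq
  rcases hq with rfl | rfl | rfl | rfl | rfl | rfl <;> norm_num

theorem no_simple_38 {G : Type*} [Group G] [Finite G] [IsSimpleGroup G]
    (h : Nat.card G = 38) : False := by
  have hnp : ¬ (Nat.card G).Prime := by rw [h]; norm_num
  have : Fact (Nat.Prime 19) := ⟨by norm_num⟩
  obtain ⟨P19, hP19, t19, ht19, hv19, hN19, hC19⟩ := triple_mem (G := G) hnp 19 2 (by rw [h])
    (by norm_num) 19 (by norm_num) (by norm_num) ⟨2, by norm_num, by norm_num, by norm_num⟩ qs qs_prime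
  have hl19 : tripleList 19 2 19 qs = [] := by decide +kernel
  rw [hl19] at ht19
  exact absurd ht19 List.not_mem_nil

theorem no_simple_57 {G : Type*} [Group G] [Finite G] [IsSimpleGroup G]
    (h : Nat.card G = 57) : False := by
  have hnp : ¬ (Nat.card G).Prime := by rw [h]; norm_num
  have : Fact (Nat.Prime 19) := ⟨by norm_num⟩
  obtain ⟨P19, hP19, t19, ht19, hv19, hN19, hC19⟩ := triple_mem (G := G) hnp 19 3 (by rw [h])
    (by norm_num) 19 (by norm_num) (by norm_num) ⟨3, by norm_num, by norm_num, by norm_num⟩ qs qs_prime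
  have hl19 : tripleList 19 3 19 qs = [] := by decide +kernel
  rw [hl19] at ht19
  exact absurd ht19 List.not_mem_nil

theorem no_simple_76 {G : Type*} [Group G] [Finite G] [IsSimpleGroup G]
    (h : Nat.card G = 76) : False := by
  have hnp : ¬ (Nat.card G).Prime := by rw [h]; norm_num
  have : Fact (Nat.Prime 19) := ⟨by norm_num⟩
  obtain ⟨P19, hP19, t19, ht19, hv19, hN19, hC19⟩ := triple_mem (G := G) hnp 19 4 (by rw [h])
    (by norm_num) 19 (by norm_num) (by norm_num) ⟨2, by norm_num, by norm_num, by norm_num⟩ qs qs_prime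
  have hl19 : tripleList 19 4 19 qs = [] := by decide +kernel
  rw [hl19] at ht19
  exact absurd ht19 List.not_mem_nil

theorem no_simple_95 {G : Type*} [Group G] [Finite G] [IsSimpleGroup G]
    (h : Nat.card G = 95) : False := by
  have hnp : ¬ (Nat.card G).Prime := by rw [h]; norm_num
  have : Fact (Nat.Prime 19) := ⟨by norm_num⟩
  obtain ⟨P19, hP19, t19, ht19, hv19, hN19, hC19⟩ := triple_mem (G := G) hnp 19 5 (by rw [h])
    (by norm_num) 19 (by norm_num) (by norm_num) ⟨5, by norm_num, by norm_num, by norm_num⟩ qs qs_prime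
  have hl19 : tripleList 19 5 19 qs = [] := by decide +kernel
  rw [hl19] at ht19
  exact absurd ht19 List.not_mem_nil

theorem no_simple_114 {G : Type*} [Group G] [Finite G] [IsSimpleGroup G]
    (h : Nat.card G = 114) : False := by
  have hnp : ¬ (Nat.card G).Prime := by rw [h]; norm_num
  have : Fact (Nat.Prime 19) := ⟨by norm_num⟩
  obtain ⟨P19, hP19, t19, ht19, hv19, hN19, hC19⟩ := triple_mem (G := G) hnp 19 6 (by rw [h])
    (by norm_num) 19 (by norm_num) (by norm_num) ⟨2, by norm_num, by norm_num, by norm_num⟩ qs qs_prime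
  have hl19 : tripleList 19 6 19 qs = [] := by decide +kernel
  rw [hl19] at ht19
  exact absurd ht19 List.not_mem_nil

theorem no_simple_133 {G : Type*} [Group G] [Finite G] [IsSimpleGroup G]
    (h : Nat.card G = 133) : False := by
  have hnp : ¬ (Nat.card G).Prime := by rw [h]; norm_num
  have : Fact (Nat.Prime 19) := ⟨by norm_num⟩
  obtain ⟨P19, hP19, t19, ht19, hv19, hN19, hC19⟩ := triple_mem (G := G) hnp 19 7 (by rw [h])
    (by norm_num) 19 (by norm_num) (by norm_num) ⟨7, by norm_num, by norm_num, by norm_num⟩ qs qs_prime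
  have hl19 : tripleList 19 7 19 qs = [] := by decide +kernel
  rw [hl19] at ht19
  exact absurd ht19 List.not_mem_nil

theorem no_simple_152 {G : Type*} [Group G] [Finite G] [IsSimpleGroup G]
    (h : Nat.card G = 152) : False := by
  have hnp : ¬ (Nat.card G).Prime := by rw [h]; norm_num
  have : Fact (Nat.Prime 19) := ⟨by norm_num⟩
  obtain ⟨P19, hP19, t19, ht19, hv19, hN19, hC19⟩ := triple_mem (G := G) hnp 19 8 (by rw [h])
    (by norm_num) 19 (by norm_num) (by norm_num) ⟨2, by norm_num, by norm_num, by norm_num⟩ qs qs_prime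
  have hl19 : tripleList 19 8 19 qs = [] := by decide +kernel
  rw [hl19] at ht19
  exact absurd ht19 List.not_mem_nil

theorem no_simple_190 {G : Type*} [Group G] [Finite G] [IsSimpleGroup G]
    (h : Nat.card G = 190) : False := by
  have hnp : ¬ (Nat.card G).Prime := by rw [h]; norm_num
  have : Fact (Nat.Prime 19) := ⟨by norm_num⟩
  obtain ⟨P19, hP19, t19, ht19, hv19, hN19, hC19⟩ := triple_mem (G := G) hnp 19 10 (by rw [h])
    (by norm_num) 19 (by norm_num) (by norm_num) ⟨2, by norm_num, by norm_num, by norm_num⟩ qs qs_prime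
  have hl19 : tripleList 19 10 19 qs = [] := by decide +kernel
  rw [hl19] at ht19
  exact absurd ht19 List.not_mem_nil

theorem no_simple_209 {G : Type*} [Group G] [Finite G] [IsSimpleGroup G]
    (h : Nat.card G = 209) : False := by
  have hnp : ¬ (Nat.card G).Prime := by rw [h]; norm_num
  have : Fact (Nat.Prime 19) := ⟨by norm_num⟩
  obtain ⟨P19, hP19, t19, ht19, hv19, hN19, hC19⟩ := triple_mem (G := G) hnp 19 11 (by rw [h])
    (by norm_num) 19 (by norm_num) (by norm_num) ⟨11, by norm_num, by norm_num, by norm_num⟩ qs qs_prime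
  have hl19 : tripleList 19 11 19 qs = [] := by decide +kernel
  rw [hl19] at ht19
  exact absurd ht19 List.not_mem_nil

theorem no_simple_228 {G : Type*} [Group G] [Finite G] [IsSimpleGroup G]
    (h : Nat.card G = 228) : False := by
  have hnp : ¬ (Nat.card G).Prime := by rw [h]; norm_num
  have : Fact (Nat.Prime 19) := ⟨by norm_num⟩
  obtain ⟨P19, hP19, t19, ht19, hv19, hN19, hC19⟩ := triple_mem (G := G) hnp 19 12 (by rw [h])
    (by norm_num) 19 (by norm_num) (by norm_num) ⟨2, by norm_num, by norm_num, by norm_num⟩ qs qs_prime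
  have hl19 : tripleList 19 12 19 qs = [] := by decide +kernel
  rw [hl19] at ht19
  exact absurd ht19 List.not_mem_nil

theorem no_simple_266 {G : Type*} [Group G] [Finite G] [IsSimpleGroup G]
    (h : Nat.card G = 266) : False := by
  have hnp : ¬ (Nat.card G).Prime := by rw [h]; norm_num
  have : Fact (Nat.Prime 19) := ⟨by norm_num⟩
  obtain ⟨P19, hP19, t19, ht19, hv19, hN19, hC19⟩ := triple_mem (G := G) hnp 19 14 (by rw [h])
    (by norm_num) 19 (by norm_num) (by norm_num) ⟨2, by norm_num, by norm_num, by norm_num⟩ qs qs_prime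
  have hl19 : tripleList 19 14 19 qs = [] := by decide +kernel
  rw [hl19] at ht19
  exact absurd ht19 List.not_mem_nil

theorem no_simple_285 {G : Type*} [Group G] [Finite G] [IsSimpleGroup G]
    (h : Nat.card G = 285) : False := by
  have hnp : ¬ (Nat.card G).Prime := by rw [h]; norm_num
  have : Fact (Nat.Prime 19) := ⟨by norm_num⟩
  obtain ⟨P19, hP19, t19, ht19, hv19, hN19, hC19⟩ := triple_mem (G := G) hnp 19 15 (by rw [h])
    (by norm_num) 19 (by norm_num) (by norm_num) ⟨3, by norm_num, by norm_num, by norm_num⟩ qs qs_prime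
  have hl19 : tripleList 19 15 19 qs = [] := by decide +kernel
  rw [hl19] at ht19
  exact absurd ht19 List.not_mem_nil

theorem no_simple_380 {G : Type*} [Group G] [Finite G] [IsSimpleGroup G]
    (h : Nat.card G = 380) : False := by
  have hnp : ¬ (Nat.card G).Prime := by rw [h]; norm_num
  have : Fact (Nat.Prime 19) := ⟨by norm_num⟩
  obtain ⟨P19, hP19, t19, ht19, hv19, hN19, hC19⟩ := triple_mem (G := G) hnp 19 20 (by rw [h])
    (by norm_num) 19 (by norm_num) (by norm_num) ⟨2, by norm_num, by norm_num, by norm_num⟩ qs qs_prime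
  have hl19 : tripleList 19 20 19 qs = [] := by decide +kernel
  rw [hl19] at ht19
  exact absurd ht19 List.not_mem_nil

theorem no_simple_399 {G : Type*} [Group G] [Finite G] [IsSimpleGroup G]
    (h : Nat.card G = 399) : False := by
  have hnp : ¬ (Nat.card G).Prime := by rw [h]; norm_num
  have : Fact (Nat.Prime 19) := ⟨by norm_num⟩
  obtain ⟨P19, hP19, t19, ht19, hv19, hN19, hC19⟩ := triple_mem (G := G) hnp 19 21 (by rw [h])
    (by norm_num) 19 (by norm_num) (by norm_num) ⟨3, by norm_num, by norm_num, by norm_num⟩ qs qs_prime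
  have hl19 : tripleList 19 21 19 qs = [] := by decide +kernel
  rw [hl19] at ht19
  exact absurd ht19 List.not_mem_nil

theorem no_simple_418 {G : Type*} [Group G] [Finite G] [IsSimpleGroup G]
    (h : Nat.card G = 418) : False := by
  have hnp : ¬ (Nat.card G).Prime := by rw [h]; norm_num
  have : Fact (Nat.Prime 19) := ⟨by norm_num⟩
  obtain ⟨P19, hP19, t19, ht19, hv19, hN19, hC19⟩ := triple_mem (G := G) hnp 19 22 (by rw [h])
    (by norm_num) 19 (by norm_num) (by norm_num) ⟨2, by norm_num, by norm_num, by norm_num⟩ qs qs_prime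
  have hl19 : tripleList 19 22 19 qs = [] := by decide +kernel
  rw [hl19] at ht19
  exact absurd ht19 List.not_mem_nil

theorem no_simple_456 {G : Type*} [Group G] [Finite G] [IsSimpleGroup G]
    (h : Nat.card G = 456) : False := by
  have hnp : ¬ (Nat.card G).Prime := by rw [h]; norm_num
  have : Fact (Nat.Prime 19) := ⟨by norm_num⟩
  obtain ⟨P19, hP19, t19, ht19, hv19, hN19, hC19⟩ := triple_mem (G := G) hnp 19 24 (by rw [h])
    (by norm_num) 19 (by norm_num) (by norm_num) ⟨2, by norm_num, by norm_num, by norm_num⟩ qs qs_prime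
  have hl19 : tripleList 19 24 19 qs = [] := by decide +kernel
  rw [hl19] at ht19
  exact absurd ht19 List.not_mem_nil

theorem no_simple_532 {G : Type*} [Group G] [Finite G] [IsSimpleGroup G]
    (h : Nat.card G = 532) : False := by
  have hnp : ¬ (Nat.card G).Prime := by rw [h]; norm_num
  have : Fact (Nat.Prime 19) := ⟨by norm_num⟩
  obtain ⟨P19, hP19, t19, ht19, hv19, hN19, hC19⟩ := triple_mem (G := G) hnp 19 28 (by rw [h])
    (by norm_num) 19 (by norm_num) (by norm_num) ⟨2, by norm_num, by norm_num, by norm_num⟩ qs qs_prime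
  have hl19 : tripleList 19 28 19 qs = [] := by decide +kernel
  rw [hl19] at ht19
  exact absurd ht19 List.not_mem_nil

theorem no_simple_570 {G : Type*} [Group G] [Finite G] [IsSimpleGroup G]
    (h : Nat.card G = 570) : False := by
  have hnp : ¬ (Nat.card G).Prime := by rw [h]; norm_num
  have : Fact (Nat.Prime 19) := ⟨by norm_num⟩
  obtain ⟨P19, hP19, t19, ht19, hv19, hN19, hC19⟩ := triple_mem (G := G) hnp 19 30 (by rw [h])
    (by norm_num) 19 (by norm_num) (by norm_num) ⟨2, by norm_num, by norm_num, by norm_num⟩ qs qs_prime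
  have hl19 : tripleList 19 30 19 qs = [] := by decide +kernel
  rw [hl19] at ht19
  exact absurd ht19 List.not_mem_nil

theorem no_simple_627 {G : Type*} [Group G] [Finite G] [IsSimpleGroup G]
    (h : Nat.card G = 627) : False := by
  have hnp : ¬ (Nat.card G).Prime := by rw [h]; norm_num
  have : Fact (Nat.Prime 19) := ⟨by norm_num⟩
  obtain ⟨P19, hP19, t19, ht19, hv19, hN19, hC19⟩ := triple_mem (G := G) hnp 19 33 (by rw [h])
    (by norm_num) 19 (by norm_num) (by norm_num) ⟨3, by norm_num, by norm_num, by norm_num⟩ qs qs_prime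
  have hl19 : tripleList 19 33 19 qs = [] := by decide +kernel
  rw [hl19] at ht19
  exact absurd ht19 List.not_mem_nil

theorem no_simple_665 {G : Type*} [Group G] [Finite G] [IsSimpleGroup G]
    (h : Nat.card G = 665) : False := by
  have hnp : ¬ (Nat.card G).Prime := by rw [h]; norm_num
  have : Fact (Nat.Prime 19) := ⟨by norm_num⟩
  obtain ⟨P19, hP19, t19, ht19, hv19, hN19, hC19⟩ := triple_mem (G := G) hnp 19 35 (by rw [h])
    (by norm_num) 19 (by norm_num) (by norm_num) ⟨5, by norm_num, by norm_num, by norm_num⟩ qs qs_prime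
  have hl19 : tripleList 19 35 19 qs = [] := by decide +kernel
  rw [hl19] at ht19
  exact absurd ht19 List.not_mem_nil

theorem no_simple_760 {G : Type*} [Group G] [Finite G] [IsSimpleGroup G]
    (h : Nat.card G = 760) : False := by
  have hnp : ¬ (Nat.card G).Prime := by rw [h]; norm_num
  have : Fact (Nat.Prime 19) := ⟨by norm_num⟩
  obtain ⟨P19, hP19, t19, ht19, hv19, hN19, hC19⟩ := triple_mem (G := G) hnp 19 40 (by rw [h])
    (by norm_num) 19 (by norm_num) (by norm_num) ⟨2, by norm_num, by norm_num, by norm_num⟩ qs qs_prime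
  have hl19 : tripleList 19 40 19 qs = [(20, 2, 1)] := by decide +kernel
  rw [hl19] at ht19
  simp only [List.mem_cons, List.not_mem_nil, or_false] at ht19
  obtain rfl := ht19
  exact sign_kill hnp 19 P19 hP19 hv19 (by norm_num) (by rw [hN19]; norm_num) hC19

theorem no_simple_798 {G : Type*} [Group G] [Finite G] [IsSimpleGroup G]
    (h : Nat.card G = 798) : False := by
  have hnp : ¬ (Nat.card G).Prime := by rw [h]; norm_num
  have : Fact (Nat.Prime 19) := ⟨by norm_num⟩
  obtain ⟨P19, hP19, t19, ht19, hv19, hN19, hC19⟩ := triple_mem (G := G) hnp 19 42 (by rw [h])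
    (by norm_num) 19 (by norm_num) (by norm_num) ⟨2, by norm_num, by norm_num, by norm_num⟩ qs qs_prime
  have hl19 : tripleList 19 42 19 qs = [] := by decide +kernel
  rw [hl19] at ht19
  exact absurd ht19 List.not_mem_nil

theorem no_simple_836 {G : Type*} [Group G] [Finite G] [IsSimpleGroup G]
    (h : Nat.card G = 836) : False := by
  have hnp : ¬ (Nat.card G).Prime := by rw [h]; norm_num
  have : Fact (Nat.Prime 19) := ⟨by norm_num⟩
  obtain ⟨P19, hP19, t19, ht19, hv19, hN19, hC19⟩ := triple_mem (G := G) hnp 19 44 (by rw [h])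
    (by norm_num) 19 (by norm_num) (by norm_num) ⟨2, by norm_num, by norm_num, by norm_num⟩ qs qs_prime
  have hl19 : tripleList 19 44 19 qs = [] := by decide +kernel
  rw [hl19] at ht19
  exact absurd ht19 List.not_mem_nil

theorem no_simple_1045 {G : Type*} [Group G] [Finite G] [IsSimpleGroup G]
    (h : Nat.card G = 1045) : False := by
  have hnp : ¬ (Nat.card G).Prime := by rw [h]; norm_num
  have : Fact (Nat.Prime 19) := ⟨by norm_num⟩
  obtain ⟨P19, hP19, t19, ht19, hv19, hN19, hC19⟩ := triple_mem (G := G) hnp 19 55 (by rw [h])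
    (by norm_num) 19 (by norm_num) (by norm_num) ⟨5, by norm_num, by norm_num, by norm_num⟩ qs qs_prime
  have hl19 : tripleList 19 55 19 qs = [] := by decide +kernel
  rw [hl19] at ht19
  exact absurd ht19 List.not_mem_nil

theorem no_simple_1064 {G : Type*} [Group G] [Finite G] [IsSimpleGroup G]
    (h : Nat.card G = 1064) : False := by
  have hnp : ¬ (Nat.card G).Prime := by rw [h]; norm_num
  have : Fact (Nat.Prime 19) := ⟨by norm_num⟩
  obtain ⟨P19, hP19, t19, ht19, hv19, hN19, hC19⟩ := triple_mem (G := G) hnp 19 56 (by rw [h])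
    (by norm_num) 19 (by norm_num) (by norm_num) ⟨2, by norm_num, by norm_num, by norm_num⟩ qs qs_prime
  have hl19 : tripleList 19 56 19 qs = [] := by decide +kernel
  rw [hl19] at ht19
  exact absurd ht19 List.not_mem_nil

theorem no_simple_1140 {G : Type*} [Group G] [Finite G] [IsSimpleGroup G]
    (h : Nat.card G = 1140) : False := by
  have hnp : ¬ (Nat.card G).Prime := by rw [h]; norm_num
  have : Fact (Nat.Prime 5) := ⟨by norm_num⟩
  obtain ⟨P5, hP5, t5, ht5, hv5, hN5, hC5⟩ := triple_mem (G := G) hnp 5 228 (by rw [h])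
    (by norm_num) 19 (by norm_num) (by norm_num) ⟨2, by norm_num, by norm_num, by norm_num⟩ qs qs_prime
  have hl5 : tripleList 5 228 19 qs = [] := by decide +kernel
  rw [hl5] at ht5
  exact absurd ht5 List.not_mem_nil

theorem no_simple_1254 {G : Type*} [Group G] [Finite G] [IsSimpleGroup G]
    (h : Nat.card G = 1254) : False := by
  have hnp : ¬ (Nat.card G).Prime := by rw [h]; norm_num
  have : Fact (Nat.Prime 19) := ⟨by norm_num⟩
  obtain ⟨P19, hP19, t19, ht19, hv19, hN19, hC19⟩ := triple_mem (G := G) hnp 19 66 (by rw [h])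
    (by norm_num) 19 (by norm_num) (by norm_num) ⟨2, by norm_num, by norm_num, by norm_num⟩ qs qs_prime
  have hl19 : tripleList 19 66 19 qs = [] := by decide +kernel
  rw [hl19] at ht19
  exact absurd ht19 List.not_mem_nil

theorem no_simple_1330 {G : Type*} [Group G] [Finite G] [IsSimpleGroup G]
    (h : Nat.card G = 1330) : False := by
  have hnp : ¬ (Nat.card G).Prime := by rw [h]; norm_num
  have : Fact (Nat.Prime 19) := ⟨by norm_num⟩
  obtain ⟨P19, hP19, t19, ht19, hv19, hN19, hC19⟩ := triple_mem (G := G) hnp 19 70 (by rw [h])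
    (by norm_num) 19 (by norm_num) (by norm_num) ⟨2, by norm_num, by norm_num, by norm_num⟩ qs qs_prime
  have hl19 : tripleList 19 70 19 qs = [] := by decide +kernel
  rw [hl19] at ht19
  exact absurd ht19 List.not_mem_nil

theorem no_simple_1463 {G : Type*} [Group G] [Finite G] [IsSimpleGroup G]
    (h : Nat.card G = 1463) : False := by
  have hnp : ¬ (Nat.card G).Prime := by rw [h]; norm_num
  have : Fact (Nat.Prime 19) := ⟨by norm_num⟩
  obtain ⟨P19, hP19, t19, ht19, hv19, hN19, hC19⟩ := triple_mem (G := G) hnp 19 77 (by rw [h])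
    (by norm_num) 19 (by norm_num) (by norm_num) ⟨7, by norm_num, by norm_num, by norm_num⟩ qs qs_prime
  have hl19 : tripleList 19 77 19 qs = [] := by decide +kernel
  rw [hl19] at ht19
  exact absurd ht19 List.not_mem_nil

theorem no_simple_1596 {G : Type*} [Group G] [Finite G] [IsSimpleGroup G]
    (h : Nat.card G = 1596) : False := by
  have hnp : ¬ (Nat.card G).Prime := by rw [h]; norm_num
  have : Fact (Nat.Prime 19) := ⟨by norm_num⟩
  obtain ⟨P19, hP19, t19, ht19, hv19, hN19, hC19⟩ := triple_mem (G := G) hnp 19 84 (by rw [h])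
    (by norm_num) 19 (by norm_num) (by norm_num) ⟨2, by norm_num, by norm_num, by norm_num⟩ qs qs_prime
  have hl19 : tripleList 19 84 19 qs = [] := by decide +kernel
  rw [hl19] at ht19
  exact absurd ht19 List.not_mem_nil

theorem no_simple_1672 {G : Type*} [Group G] [Finite G] [IsSimpleGroup G]
    (h : Nat.card G = 1672) : False := by
  have hnp : ¬ (Nat.card G).Prime := by rw [h]; norm_num
  have : Fact (Nat.Prime 19) := ⟨by norm_num⟩
  obtain ⟨P19, hP19, t19, ht19, hv19, hN19, hC19⟩ := triple_mem (G := G) hnp 19 88 (by rw [h])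
    (by norm_num) 19 (by norm_num) (by norm_num) ⟨2, by norm_num, by norm_num, by norm_num⟩ qs qs_prime
  have hl19 : tripleList 19 88 19 qs = [] := by decide +kernel
  rw [hl19] at ht19
  exact absurd ht19 List.not_mem_nil

theorem no_simple_1995 {G : Type*} [Group G] [Finite G] [IsSimpleGroup G]
    (h : Nat.card G = 1995) : False := by
  have hnp : ¬ (Nat.card G).Prime := by rw [h]; norm_num
  have : Fact (Nat.Prime 19) := ⟨by norm_num⟩
  obtain ⟨P19, hP19, t19, ht19, hv19, hN19, hC19⟩ := triple_mem (G := G) hnp 19 105 (by rw [h])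
    (by norm_num) 19 (by norm_num) (by norm_num) ⟨3, by norm_num, by norm_num, by norm_num⟩ qs qs_prime
  have hl19 : tripleList 19 105 19 qs = [] := by decide +kernel
  rw [hl19] at ht19
  exact absurd ht19 List.not_mem_nil

theorem no_simple_2090 {G : Type*} [Group G] [Finite G] [IsSimpleGroup G]
    (h : Nat.card G = 2090) : False := by
  have hnp : ¬ (Nat.card G).Prime := by rw [h]; norm_num
  have : Fact (Nat.Prime 19) := ⟨by norm_num⟩
  obtain ⟨P19, hP19, t19, ht19, hv19, hN19, hC19⟩ := triple_mem (G := G) hnp 19 110 (by rw [h])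
    (by norm_num) 19 (by norm_num) (by norm_num) ⟨2, by norm_num, by norm_num, by norm_num⟩ qs qs_prime
  have hl19 : tripleList 19 110 19 qs = [] := by decide +kernel
  rw [hl19] at ht19
  exact absurd ht19 List.not_mem_nil

theorem no_simple_2280 {G : Type*} [Group G] [Finite G] [IsSimpleGroup G]
    (h : Nat.card G = 2280) : False := by
  have hnp : ¬ (Nat.card G).Prime := by rw [h]; norm_num
  have : Fact (Nat.Prime 19) := ⟨by norm_num⟩
  obtain ⟨P19, hP19, t19, ht19, hv19, hN19, hC19⟩ := triple_mem (G := G) hnp 19 120 (by rw [h])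
    (by norm_num) 19 (by norm_num) (by norm_num) ⟨2, by norm_num, by norm_num, by norm_num⟩ qs qs_prime
  have hl19 : tripleList 19 120 19 qs = [(20, 6, 1)] := by decide +kernel
  rw [hl19] at ht19
  simp only [List.mem_cons, List.not_mem_nil, or_false] at ht19
  obtain rfl := ht19
  exact sign_kill hnp 19 P19 hP19 hv19 (by norm_num) (by rw [hN19]; norm_num) hC19

theorem no_simple_2508 {G : Type*} [Group G] [Finite G] [IsSimpleGroup G]
    (h : Nat.card G = 2508) : False := by
  have hnp : ¬ (Nat.card G).Prime := by rw [h]; norm_num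
  have : Fact (Nat.Prime 19) := ⟨by norm_num⟩
  obtain ⟨P19, hP19, t19, ht19, hv19, hN19, hC19⟩ := triple_mem (G := G) hnp 19 132 (by rw [h])
    (by norm_num) 19 (by norm_num) (by norm_num) ⟨2, by norm_num, by norm_num, by norm_num⟩ qs qs_prime
  have hl19 : tripleList 19 132 19 qs = [] := by decide +kernel
  rw [hl19] at ht19
  exact absurd ht19 List.not_mem_nil

theorem no_simple_2660 {G : Type*} [Group G] [Finite G] [IsSimpleGroup G]
    (h : Nat.card G = 2660) : False := by
  have hnp : ¬ (Nat.card G).Prime := by rw [h]; norm_num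
  have : Fact (Nat.Prime 19) := ⟨by norm_num⟩
  obtain ⟨P19, hP19, t19, ht19, hv19, hN19, hC19⟩ := triple_mem (G := G) hnp 19 140 (by rw [h])
    (by norm_num) 19 (by norm_num) (by norm_num) ⟨2, by norm_num, by norm_num, by norm_num⟩ qs qs_prime
  have hl19 : tripleList 19 140 19 qs = [] := by decide +kernel
  rw [hl19] at ht19
  exact absurd ht19 List.not_mem_nil

theorem no_simple_2926 {G : Type*} [Group G] [Finite G] [IsSimpleGroup G]
    (h : Nat.card G = 2926) : False := by
  have hnp : ¬ (Nat.card G).Prime := by rw [h]; norm_num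
  have : Fact (Nat.Prime 7) := ⟨by norm_num⟩
  obtain ⟨P7, hP7, t7, ht7, hv7, hN7, hC7⟩ := triple_mem (G := G) hnp 7 418 (by rw [h])
    (by norm_num) 19 (by norm_num) (by norm_num) ⟨2, by norm_num, by norm_num, by norm_num⟩ qs qs_prime
  have hl7 : tripleList 7 418 19 qs = [] := by decide +kernel
  rw [hl7] at ht7
  exact absurd ht7 List.not_mem_nil

theorem no_simple_3135 {G : Type*} [Group G] [Finite G] [IsSimpleGroup G]
    (h : Nat.card G = 3135) : False := by
  have hnp : ¬ (Nat.card G).Prime := by rw [h]; norm_num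
  have : Fact (Nat.Prime 19) := ⟨by norm_num⟩
  obtain ⟨P19, hP19, t19, ht19, hv19, hN19, hC19⟩ := triple_mem (G := G) hnp 19 165 (by rw [h])
    (by norm_num) 19 (by norm_num) (by norm_num) ⟨3, by norm_num, by norm_num, by norm_num⟩ qs qs_prime
  have hl19 : tripleList 19 165 19 qs = [] := by decide +kernel
  rw [hl19] at ht19
  exact absurd ht19 List.not_mem_nil

theorem no_simple_3192 {G : Type*} [Group G] [Finite G] [IsSimpleGroup G]
    (h : Nat.card G = 3192) : False := by
  have hnp : ¬ (Nat.card G).Prime := by rw [h]; norm_num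
  have : Fact (Nat.Prime 19) := ⟨by norm_num⟩
  obtain ⟨P19, hP19, t19, ht19, hv19, hN19, hC19⟩ := triple_mem (G := G) hnp 19 168 (by rw [h])
    (by norm_num) 19 (by norm_num) (by norm_num) ⟨2, by norm_num, by norm_num, by norm_num⟩ qs qs_prime
  have hl19 : tripleList 19 168 19 qs = [] := by decide +kernel
  rw [hl19] at ht19
  exact absurd ht19 List.not_mem_nil

theorem no_simple_3990 {G : Type*} [Group G] [Finite G] [IsSimpleGroup G]
    (h : Nat.card G = 3990) : False := by
  have hnp : ¬ (Nat.card G).Prime := by rw [h]; norm_num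
  have : Fact (Nat.Prime 19) := ⟨by norm_num⟩
  obtain ⟨P19, hP19, t19, ht19, hv19, hN19, hC19⟩ := triple_mem (G := G) hnp 19 210 (by rw [h])
    (by norm_num) 19 (by norm_num) (by norm_num) ⟨2, by norm_num, by norm_num, by norm_num⟩ qs qs_prime
  have hl19 : tripleList 19 210 19 qs = [] := by decide +kernel
  rw [hl19] at ht19
  exact absurd ht19 List.not_mem_nil

theorem no_simple_4180 {G : Type*} [Group G] [Finite G] [IsSimpleGroup G]
    (h : Nat.card G = 4180) : False := by
  have hnp : ¬ (Nat.card G).Prime := by rw [h]; norm_num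
  have : Fact (Nat.Prime 19) := ⟨by norm_num⟩
  obtain ⟨P19, hP19, t19, ht19, hv19, hN19, hC19⟩ := triple_mem (G := G) hnp 19 220 (by rw [h])
    (by norm_num) 19 (by norm_num) (by norm_num) ⟨2, by norm_num, by norm_num, by norm_num⟩ qs qs_prime
  have hl19 : tripleList 19 220 19 qs = [] := by decide +kernel
  rw [hl19] at ht19
  exact absurd ht19 List.not_mem_nil

theorem no_simple_4389 {G : Type*} [Group G] [Finite G] [IsSimpleGroup G]
    (h : Nat.card G = 4389) : False := by
  have hnp : ¬ (Nat.card G).Prime := by rw [h]; norm_num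
  have : Fact (Nat.Prime 11) := ⟨by norm_num⟩
  obtain ⟨P11, hP11, t11, ht11, hv11, hN11, hC11⟩ := triple_mem (G := G) hnp 11 399 (by rw [h])
    (by norm_num) 19 (by norm_num) (by norm_num) ⟨3, by norm_num, by norm_num, by norm_num⟩ qs qs_prime
  have hl11 : tripleList 11 399 19 qs = [] := by decide +kernel
  rw [hl11] at ht11
  exact absurd ht11 List.not_mem_nil

theorem no_simple_5016 {G : Type*} [Group G] [Finite G] [IsSimpleGroup G]
    (h : Nat.card G = 5016) : False := by
  have hnp : ¬ (Nat.card G).Prime := by rw [h]; norm_num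
  have : Fact (Nat.Prime 19) := ⟨by norm_num⟩
  obtain ⟨P19, hP19, t19, ht19, hv19, hN19, hC19⟩ := triple_mem (G := G) hnp 19 264 (by rw [h])
    (by norm_num) 19 (by norm_num) (by norm_num) ⟨2, by norm_num, by norm_num, by norm_num⟩ qs qs_prime
  have hl19 : tripleList 19 264 19 qs = [] := by decide +kernel
  rw [hl19] at ht19
  exact absurd ht19 List.not_mem_nil

theorem no_simple_5320 {G : Type*} [Group G] [Finite G] [IsSimpleGroup G]
    (h : Nat.card G = 5320) : False := by
  have hnp : ¬ (Nat.card G).Prime := by rw [h]; norm_num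
  have : Fact (Nat.Prime 19) := ⟨by norm_num⟩
  obtain ⟨P19, hP19, t19, ht19, hv19, hN19, hC19⟩ := triple_mem (G := G) hnp 19 280 (by rw [h])
    (by norm_num) 19 (by norm_num) (by norm_num) ⟨2, by norm_num, by norm_num, by norm_num⟩ qs qs_prime
  have hl19 : tripleList 19 280 19 qs = [] := by decide +kernel
  rw [hl19] at ht19
  exact absurd ht19 List.not_mem_nil

theorem no_simple_5852 {G : Type*} [Group G] [Finite G] [IsSimpleGroup G]
    (h : Nat.card G = 5852) : False := by
  have hnp : ¬ (Nat.card G).Prime := by rw [h]; norm_num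
  have : Fact (Nat.Prime 7) := ⟨by norm_num⟩
  obtain ⟨P7, hP7, t7, ht7, hv7, hN7, hC7⟩ := triple_mem (G := G) hnp 7 836 (by rw [h])
    (by norm_num) 19 (by norm_num) (by norm_num) ⟨2, by norm_num, by norm_num, by norm_num⟩ qs qs_prime
  have hl7 : tripleList 7 836 19 qs = [] := by decide +kernel
  rw [hl7] at ht7
  exact absurd ht7 List.not_mem_nil

theorem no_simple_6270 {G : Type*} [Group G] [Finite G] [IsSimpleGroup G]
    (h : Nat.card G = 6270) : False := by
  have hnp : ¬ (Nat.card G).Prime := by rw [h]; norm_num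
  have : Fact (Nat.Prime 19) := ⟨by norm_num⟩
  obtain ⟨P19, hP19, t19, ht19, hv19, hN19, hC19⟩ := triple_mem (G := G) hnp 19 330 (by rw [h])
    (by norm_num) 19 (by norm_num) (by norm_num) ⟨2, by norm_num, by norm_num, by norm_num⟩ qs qs_prime
  have hl19 : tripleList 19 330 19 qs = [] := by decide +kernel
  rw [hl19] at ht19
  exact absurd ht19 List.not_mem_nil

theorem no_simple_7315 {G : Type*} [Group G] [Finite G] [IsSimpleGroup G]
    (h : Nat.card G = 7315) : False := by
  have hnp : ¬ (Nat.card G).Prime := by rw [h]; norm_num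
  have : Fact (Nat.Prime 19) := ⟨by norm_num⟩
  obtain ⟨P19, hP19, t19, ht19, hv19, hN19, hC19⟩ := triple_mem (G := G) hnp 19 385 (by rw [h])
    (by norm_num) 19 (by norm_num) (by norm_num) ⟨5, by norm_num, by norm_num, by norm_num⟩ qs qs_prime
  have hl19 : tripleList 19 385 19 qs = [] := by decide +kernel
  rw [hl19] at ht19
  exact absurd ht19 List.not_mem_nil

theorem no_simple_7980 {G : Type*} [Group G] [Finite G] [IsSimpleGroup G]
    (h : Nat.card G = 7980) : False := by
  have hnp : ¬ (Nat.card G).Prime := by rw [h]; norm_num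
  have : Fact (Nat.Prime 19) := ⟨by norm_num⟩
  obtain ⟨P19, hP19, t19, ht19, hv19, hN19, hC19⟩ := triple_mem (G := G) hnp 19 420 (by rw [h])
    (by norm_num) 19 (by norm_num) (by norm_num) ⟨2, by norm_num, by norm_num, by norm_num⟩ qs qs_prime
  have hl19 : tripleList 19 420 19 qs = [(210, 2, 1)] := by decide +kernel
  rw [hl19] at ht19
  simp only [List.mem_cons, List.not_mem_nil, or_false] at ht19
  have : Fact (Nat.Prime 5) := ⟨by norm_num⟩
  obtain ⟨P5, hP5, t5, ht5, hv5, hN5, hC5⟩ := triple_mem (G := G) hnp 5 1596 (by rw [h])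
    (by norm_num) 19 (by norm_num) (by norm_num) ⟨2, by norm_num, by norm_num, by norm_num⟩ qs qs_prime
  have hl5 : tripleList 5 1596 19 qs = [(266, 2, 3)] := by decide +kernel
  rw [hl5] at ht5
  simp only [List.mem_cons, List.not_mem_nil, or_false] at ht5
  have : Fact (Nat.Prime 7) := ⟨by norm_num⟩
  obtain ⟨P7, hP7, t7, ht7, hv7, hN7, hC7⟩ := triple_mem (G := G) hnp 7 1140 (by rw [h])
    (by norm_num) 19 (by norm_num) (by norm_num) ⟨2, by norm_num, by norm_num, by norm_num⟩ qs qs_prime
  have hl7 : tripleList 7 1140 19 qs = [(57, 2, 10), (190, 2, 3), (190, 3, 2), (190, 6, 1)] := by decide +kernel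
  rw [hl7] at ht7
  simp only [List.mem_cons, List.not_mem_nil, or_false] at ht7
  replace ht7 : t7 = (190, 2, 3) ∨ t7 = (190, 3, 2) ∨ t7 = (190, 6, 1) := by
    rcases ht7 with rfl | rfl | rfl | rfl
    · exfalso
      obtain rfl := ht5
      obtain ⟨k, hk⟩ := cross_rule' 7 5 P7 (fact_one _ 5 1596 (by norm_num) (by rw [h]) (by norm_num)) 14 (by rw [hC7]; rfl) (by decide +kernel)
      rw [hv5, hN7, h] at hk
      norm_num at hk <;> omega
    · simp
    · simp
    · simp
  have a0 : 3780 ≤ Nat.card {g : G // 19 ∣ orderOf g ∧ orderOf g ∣ 19} := by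
    obtain rfl := ht19
    exact le_trans (by rw [hv19]; norm_num) (card_dvd_orderOf_ge 19 P19 hP19 1 19 hC19 (by norm_num) (by norm_num))
  have a1 : 3192 ≤ Nat.card {g : G // 5 ∣ orderOf g ∧ orderOf g ∣ 15} := by
    obtain rfl := ht5
    exact le_trans (by rw [hv5]; norm_num) (card_dvd_orderOf_ge 5 P5 hP5 3 15 hC5 (by norm_num) (by norm_num))
  have a2 : 1140 ≤ Nat.card {x : G // orderOf x = 7} := by
    rw [card_orderOf_eq_prime 7 P7 hP7, hv7]
    rcases ht7 with rfl | rfl | rfl <;> norm_num
  have tot := sum_card_le3 (G := G) (fun m => 19 ∣ m ∧ m ∣ 19) (fun m => 5 ∣ m ∧ m ∣ 15) (fun m => m = 7)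
    (fun m h1 h2 => absurd (dvd_trans h2.1 h1.2) (by norm_num))
    (fun m h1 h2 => by subst h2; exact absurd h1.1 (by norm_num))
    (fun m h1 h2 => by subst h2; exact absurd h1.1 (by norm_num))
  rw [h] at tot
  omega

theorem no_simple_8360 {G : Type*} [Group G] [Finite G] [IsSimpleGroup G]
    (h : Nat.card G = 8360) : False := by
  have hnp : ¬ (Nat.card G).Prime := by rw [h]; norm_num
  have : Fact (Nat.Prime 19) := ⟨by norm_num⟩
  obtain ⟨P19, hP19, t19, ht19, hv19, hN19, hC19⟩ := triple_mem (G := G) hnp 19 440 (by rw [h])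
    (by norm_num) 19 (by norm_num) (by norm_num) ⟨2, by norm_num, by norm_num, by norm_num⟩ qs qs_prime
  have hl19 : tripleList 19 440 19 qs = [] := by decide +kernel
  rw [hl19] at ht19
  exact absurd ht19 List.not_mem_nil

theorem no_simple_8778 {G : Type*} [Group G] [Finite G] [IsSimpleGroup G]
    (h : Nat.card G = 8778) : False := by
  have hnp : ¬ (Nat.card G).Prime := by rw [h]; norm_num
  have : Fact (Nat.Prime 7) := ⟨by norm_num⟩
  obtain ⟨P7, hP7, t7, ht7, hv7, hN7, hC7⟩ := triple_mem (G := G) hnp 7 1254 (by rw [h])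
    (by norm_num) 19 (by norm_num) (by norm_num) ⟨2, by norm_num, by norm_num, by norm_num⟩ qs qs_prime
  have hl7 : tripleList 7 1254 19 qs = [] := by decide +kernel
  rw [hl7] at ht7
  exact absurd ht7 List.not_mem_nil

theorem no_simple_11704 {G : Type*} [Group G] [Finite G] [IsSimpleGroup G]
    (h : Nat.card G = 11704) : False := by
  have hnp : ¬ (Nat.card G).Prime := by rw [h]; norm_num
  have : Fact (Nat.Prime 7) := ⟨by norm_num⟩
  obtain ⟨P7, hP7, t7, ht7, hv7, hN7, hC7⟩ := triple_mem (G := G) hnp 7 1672 (by rw [h])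
    (by norm_num) 19 (by norm_num) (by norm_num) ⟨2, by norm_num, by norm_num, by norm_num⟩ qs qs_prime
  have hl7 : tripleList 7 1672 19 qs = [] := by decide +kernel
  rw [hl7] at ht7
  exact absurd ht7 List.not_mem_nil

theorem no_simple_12540 {G : Type*} [Group G] [Finite G] [IsSimpleGroup G]
    (h : Nat.card G = 12540) : False := by
  have hnp : ¬ (Nat.card G).Prime := by rw [h]; norm_num
  have : Fact (Nat.Prime 19) := ⟨by norm_num⟩
  obtain ⟨P19, hP19, t19, ht19, hv19, hN19, hC19⟩ := triple_mem (G := G) hnp 19 660 (by rw [h])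
    (by norm_num) 19 (by norm_num) (by norm_num) ⟨2, by norm_num, by norm_num, by norm_num⟩ qs qs_prime
  have hl19 : tripleList 19 660 19 qs = [] := by decide +kernel
  rw [hl19] at ht19
  exact absurd ht19 List.not_mem_nil

theorem no_simple_14630 {G : Type*} [Group G] [Finite G] [IsSimpleGroup G]
    (h : Nat.card G = 14630) : False := by
  have hnp : ¬ (Nat.card G).Prime := by rw [h]; norm_num
  have : Fact (Nat.Prime 19) := ⟨by norm_num⟩
  obtain ⟨P19, hP19, t19, ht19, hv19, hN19, hC19⟩ := triple_mem (G := G) hnp 19 770 (by rw [h])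
    (by norm_num) 19 (by norm_num) (by norm_num) ⟨2, by norm_num, by norm_num, by norm_num⟩ qs qs_prime
  have hl19 : tripleList 19 770 19 qs = [] := by decide +kernel
  rw [hl19] at ht19
  exact absurd ht19 List.not_mem_nil

theorem no_simple_15960 {G : Type*} [Group G] [Finite G] [IsSimpleGroup G]
    (h : Nat.card G = 15960) : False := by
  have hnp : ¬ (Nat.card G).Prime := by rw [h]; norm_num
  have : Fact (Nat.Prime 19) := ⟨by norm_num⟩
  obtain ⟨P19, hP19, t19, ht19, hv19, hN19, hC19⟩ := triple_mem (G := G) hnp 19 840 (by rw [h])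
    (by norm_num) 19 (by norm_num) (by norm_num) ⟨2, by norm_num, by norm_num, by norm_num⟩ qs qs_prime
  have hl19 : tripleList 19 840 19 qs = [(210, 2, 2)] := by decide +kernel
  rw [hl19] at ht19
  simp only [List.mem_cons, List.not_mem_nil, or_false] at ht19
  have : Fact (Nat.Prime 7) := ⟨by norm_num⟩
  obtain ⟨P7, hP7, t7, ht7, hv7, hN7, hC7⟩ := triple_mem (G := G) hnp 7 2280 (by rw [h])
    (by norm_num) 19 (by norm_num) (by norm_num) ⟨2, by norm_num, by norm_num, by norm_num⟩ qs qs_prime
  have hl7 : tripleList 7 2280 19 qs = [(57, 2, 20), (190, 2, 6), (190, 3, 4), (190, 6, 2)] := by decide +kernel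
  rw [hl7] at ht7
  simp only [List.mem_cons, List.not_mem_nil, or_false] at ht7
  have : Fact (Nat.Prime 5) := ⟨by norm_num⟩
  obtain ⟨P5, hP5, t5, ht5, hv5, hN5, hC5⟩ := triple_mem (G := G) hnp 5 3192 (by rw [h])
    (by norm_num) 19 (by norm_num) (by norm_num) ⟨2, by norm_num, by norm_num, by norm_num⟩ qs qs_prime
  have hl5 : tripleList 5 3192 19 qs = [(76, 2, 21), (266, 2, 6), (266, 4, 3), (1596, 2, 1)] := by decide +kernel
  rw [hl5] at ht5
  simp only [List.mem_cons, List.not_mem_nil, or_false] at ht5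
  have : Fact (Nat.Prime 3) := ⟨by norm_num⟩
  obtain ⟨P3, hP3, t3, ht3, hv3, hN3, hC3⟩ := triple_mem (G := G) hnp 3 5320 (by rw [h])
    (by norm_num) 19 (by norm_num) (by norm_num) ⟨2, by norm_num, by norm_num, by norm_num⟩ qs qs_prime
  have hl3 : tripleList 3 5320 19 qs = [(70, 2, 38), (76, 2, 35), (133, 2, 20), (190, 2, 14), (532, 2, 5), (1330, 2, 2)] := by decide +kernel
  rw [hl3] at ht3
  simp only [List.mem_cons, List.not_mem_nil, or_false] at ht3
  replace ht7 : t7 = (190, 2, 6) ∨ t7 = (190, 3, 4) ∨ t7 = (190, 6, 2) := by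
    rcases ht7 with rfl | rfl | rfl | rfl
    · exfalso
      rcases ht5 with rfl | rfl | rfl | rfl
      · obtain ⟨k, hk⟩ := cross_rule' 7 5 P7 (fact_one _ 5 3192 (by norm_num) (by rw [h]) (by norm_num)) 28 (by rw [hC7]; rfl) (by decide +kernel)
        rw [hv5, hN7, h] at hk
        norm_num at hk <;> omega
      · obtain ⟨k, hk⟩ := cross_rule' 7 5 P7 (fact_one _ 5 3192 (by norm_num) (by rw [h]) (by norm_num)) 28 (by rw [hC7]; rfl) (by decide +kernel)
        rw [hv5, hN7, h] at hk
        norm_num at hk <;> omega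
      · obtain ⟨k, hk⟩ := cross_rule' 7 5 P7 (fact_one _ 5 3192 (by norm_num) (by rw [h]) (by norm_num)) 28 (by rw [hC7]; rfl) (by decide +kernel)
        rw [hv5, hN7, h] at hk
        norm_num at hk <;> omega
      · obtain ⟨k, hk⟩ := cross_rule' 7 5 P7 (fact_one _ 5 3192 (by norm_num) (by rw [h]) (by norm_num)) 28 (by rw [hC7]; rfl) (by decide +kernel)
        rw [hv5, hN7, h] at hk
        norm_num at hk <;> omega
    · simp
    · simp
    · simp
  rcases ht5 with rfl | rfl | rfl | rfl
  · have a0 : 7560 ≤ Nat.card {g : G // 19 ∣ orderOf g ∧ orderOf g ∣ 38} := by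
      obtain rfl := ht19
      exact le_trans (by rw [hv19]; norm_num) (card_dvd_orderOf_ge 19 P19 hP19 2 38 hC19 (by norm_num) (by norm_num))
    have a1 : 6384 ≤ Nat.card {g : G // 5 ∣ orderOf g ∧ orderOf g ∣ 105} := by
      exact le_trans (by rw [hv5]; norm_num) (card_dvd_orderOf_ge 5 P5 hP5 21 105 hC5 (by norm_num) (by norm_num))
    have a2 : 2280 ≤ Nat.card {g : G // 7 ∣ orderOf g ∧ orderOf g ∣ 84} := by
      rcases ht7 with rfl | rfl | rfl
      · exact le_trans (by rw [hv7]; norm_num) (card_dvd_orderOf_ge 7 P7 hP7 6 84 hC7 (by norm_num) (by norm_num))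
      · exact le_trans (by rw [hv7]; norm_num) (card_dvd_orderOf_ge 7 P7 hP7 4 84 hC7 (by norm_num) (by norm_num))
      · exact le_trans (by rw [hv7]; norm_num) (card_dvd_orderOf_ge 7 P7 hP7 2 84 hC7 (by norm_num) (by norm_num))
    have tot := sum_card_le3 (G := G) (fun m => 19 ∣ m ∧ m ∣ 38) (fun m => 5 ∣ m ∧ m ∣ 105) (fun m => 7 ∣ m ∧ m ∣ 84)
      (fun m h1 h2 => absurd (dvd_trans h2.1 h1.2) (by norm_num))
      (fun m h1 h2 => absurd (dvd_trans h2.1 h1.2) (by norm_num))
      (fun m h1 h2 => absurd (dvd_trans h1.1 h2.2) (by norm_num))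
    rw [h] at tot
    omega
  · have a0 : 7560 ≤ Nat.card {g : G // 19 ∣ orderOf g ∧ orderOf g ∣ 38} := by
      obtain rfl := ht19
      exact le_trans (by rw [hv19]; norm_num) (card_dvd_orderOf_ge 19 P19 hP19 2 38 hC19 (by norm_num) (by norm_num))
    have a1 : 6384 ≤ Nat.card {g : G // 5 ∣ orderOf g ∧ orderOf g ∣ 30} := by
      exact le_trans (by rw [hv5]; norm_num) (card_dvd_orderOf_ge 5 P5 hP5 6 30 hC5 (by norm_num) (by norm_num))
    have a2 : 2280 ≤ Nat.card {g : G // 7 ∣ orderOf g ∧ orderOf g ∣ 84} := by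
      rcases ht7 with rfl | rfl | rfl
      · exact le_trans (by rw [hv7]; norm_num) (card_dvd_orderOf_ge 7 P7 hP7 6 84 hC7 (by norm_num) (by norm_num))
      · exact le_trans (by rw [hv7]; norm_num) (card_dvd_orderOf_ge 7 P7 hP7 4 84 hC7 (by norm_num) (by norm_num))
      · exact le_trans (by rw [hv7]; norm_num) (card_dvd_orderOf_ge 7 P7 hP7 2 84 hC7 (by norm_num) (by norm_num))
    have tot := sum_card_le3 (G := G) (fun m => 19 ∣ m ∧ m ∣ 38) (fun m => 5 ∣ m ∧ m ∣ 30) (fun m => 7 ∣ m ∧ m ∣ 84)
      (fun m h1 h2 => absurd (dvd_trans h2.1 h1.2) (by norm_num))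
      (fun m h1 h2 => absurd (dvd_trans h2.1 h1.2) (by norm_num))
      (fun m h1 h2 => absurd (dvd_trans h2.1 h1.2) (by norm_num))
    rw [h] at tot
    omega
  · replace ht3 : t3 = (133, 2, 20) := by
      rcases ht3 with rfl | rfl | rfl | rfl | rfl | rfl
      · exfalso
        obtain ⟨k, hk⟩ := cross_rule' 5 3 P5 (fact_one _ 3 5320 (by norm_num) (by rw [h]) (by norm_num)) 5 (by rw [hC5]; rfl) (by decide +kernel)
        rw [hv3, hN5, h] at hk
        norm_num at hk <;> omega
      · exfalso
        obtain ⟨k, hk⟩ := cross_rule' 5 3 P5 (fact_one _ 3 5320 (by norm_num) (by rw [h]) (by norm_num)) 5 (by rw [hC5]; rfl) (by decide +kernel)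
        rw [hv3, hN5, h] at hk
        norm_num at hk <;> omega
      · simp
      · exfalso
        obtain ⟨k, hk⟩ := cross_rule' 5 3 P5 (fact_one _ 3 5320 (by norm_num) (by rw [h]) (by norm_num)) 5 (by rw [hC5]; rfl) (by decide +kernel)
        rw [hv3, hN5, h] at hk
        norm_num at hk <;> omega
      · exfalso
        obtain ⟨k, hk⟩ := cross_rule' 5 3 P5 (fact_one _ 3 5320 (by norm_num) (by rw [h]) (by norm_num)) 5 (by rw [hC5]; rfl) (by decide +kernel)
        rw [hv3, hN5, h] at hk
        norm_num at hk <;> omega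
      · exfalso
        obtain ⟨k, hk⟩ := cross_rule' 5 3 P5 (fact_one _ 3 5320 (by norm_num) (by rw [h]) (by norm_num)) 5 (by rw [hC5]; rfl) (by decide +kernel)
        rw [hv3, hN5, h] at hk
        norm_num at hk <;> omega
    have a0 : 5320 ≤ Nat.card {g : G // 3 ∣ orderOf g ∧ orderOf g ∣ 60} := by
      obtain rfl := ht3
      exact le_trans (by rw [hv3]; norm_num) (card_dvd_orderOf_ge 3 P3 hP3 20 60 hC3 (by norm_num) (by norm_num))
    have a1 : 1064 ≤ Nat.card {x : G // orderOf x = 5} := by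
      rw [card_orderOf_eq_prime 5 P5 hP5, hv5]
      norm_num
    have a2 : 7560 ≤ Nat.card {g : G // 19 ∣ orderOf g ∧ orderOf g ∣ 38} := by
      obtain rfl := ht19
      exact le_trans (by rw [hv19]; norm_num) (card_dvd_orderOf_ge 19 P19 hP19 2 38 hC19 (by norm_num) (by norm_num))
    have a3 : 2280 ≤ Nat.card {g : G // 7 ∣ orderOf g ∧ orderOf g ∣ 84} := by
      rcases ht7 with rfl | rfl | rfl
      · exact le_trans (by rw [hv7]; norm_num) (card_dvd_orderOf_ge 7 P7 hP7 6 84 hC7 (by norm_num) (by norm_num))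
      · exact le_trans (by rw [hv7]; norm_num) (card_dvd_orderOf_ge 7 P7 hP7 4 84 hC7 (by norm_num) (by norm_num))
      · exact le_trans (by rw [hv7]; norm_num) (card_dvd_orderOf_ge 7 P7 hP7 2 84 hC7 (by norm_num) (by norm_num))
    have tot := sum_card_le4 (G := G) (fun m => 3 ∣ m ∧ m ∣ 60) (fun m => m = 5) (fun m => 19 ∣ m ∧ m ∣ 38) (fun m => 7 ∣ m ∧ m ∣ 84)
      (fun m h1 h2 => by subst h2; exact absurd h1.1 (by norm_num))
      (fun m h1 h2 => absurd (dvd_trans h2.1 h1.2) (by norm_num))
      (fun m h1 h2 => absurd (dvd_trans h2.1 h1.2) (by norm_num))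
      (fun m h1 h2 => by subst h1; exact absurd h2.1 (by norm_num))
      (fun m h1 h2 => by subst h1; exact absurd h2.1 (by norm_num))
      (fun m h1 h2 => absurd (dvd_trans h2.1 h1.2) (by norm_num))
    rw [h] at tot
    omega
  · have a0 : 7560 ≤ Nat.card {g : G // 19 ∣ orderOf g ∧ orderOf g ∣ 38} := by
      obtain rfl := ht19
      exact le_trans (by rw [hv19]; norm_num) (card_dvd_orderOf_ge 19 P19 hP19 2 38 hC19 (by norm_num) (by norm_num))
    have a1 : 6384 ≤ Nat.card {g : G // 5 ∣ orderOf g ∧ orderOf g ∣ 5} := by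
      exact le_trans (by rw [hv5]; norm_num) (card_dvd_orderOf_ge 5 P5 hP5 1 5 hC5 (by norm_num) (by norm_num))
    have a2 : 2280 ≤ Nat.card {g : G // 7 ∣ orderOf g ∧ orderOf g ∣ 84} := by
      rcases ht7 with rfl | rfl | rfl
      · exact le_trans (by rw [hv7]; norm_num) (card_dvd_orderOf_ge 7 P7 hP7 6 84 hC7 (by norm_num) (by norm_num))
      · exact le_trans (by rw [hv7]; norm_num) (card_dvd_orderOf_ge 7 P7 hP7 4 84 hC7 (by norm_num) (by norm_num))
      · exact le_trans (by rw [hv7]; norm_num) (card_dvd_orderOf_ge 7 P7 hP7 2 84 hC7 (by norm_num) (by norm_num))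
    have tot := sum_card_le3 (G := G) (fun m => 19 ∣ m ∧ m ∣ 38) (fun m => 5 ∣ m ∧ m ∣ 5) (fun m => 7 ∣ m ∧ m ∣ 84)
      (fun m h1 h2 => absurd (dvd_trans h2.1 h1.2) (by norm_num))
      (fun m h1 h2 => absurd (dvd_trans h2.1 h1.2) (by norm_num))
      (fun m h1 h2 => absurd (dvd_trans h2.1 h1.2) (by norm_num))
    rw [h] at tot
    omega

theorem no_simple_17556 {G : Type*} [Group G] [Finite G] [IsSimpleGroup G]
    (h : Nat.card G = 17556) : False := by
  have hnp : ¬ (Nat.card G).Prime := by rw [h]; norm_num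
  have : Fact (Nat.Prime 19) := ⟨by norm_num⟩
  obtain ⟨P19, hP19, t19, ht19, hv19, hN19, hC19⟩ := triple_mem (G := G) hnp 19 924 (by rw [h])
    (by norm_num) 19 (by norm_num) (by norm_num) ⟨2, by norm_num, by norm_num, by norm_num⟩ qs qs_prime
  have hl19 : tripleList 19 924 19 qs = [(77, 2, 6), (77, 3, 4), (77, 6, 2)] := by decide +kernel
  rw [hl19] at ht19
  simp only [List.mem_cons, List.not_mem_nil, or_false] at ht19
  have : Fact (Nat.Prime 11) := ⟨by norm_num⟩
  obtain ⟨P11, hP11, t11, ht11, hv11, hN11, hC11⟩ := triple_mem (G := G) hnp 11 1596 (by rw [h])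
    (by norm_num) 19 (by norm_num) (by norm_num) ⟨2, by norm_num, by norm_num, by norm_num⟩ qs qs_prime
  have hl11 : tripleList 11 1596 19 qs = [(133, 2, 6)] := by decide +kernel
  rw [hl11] at ht11
  simp only [List.mem_cons, List.not_mem_nil, or_false] at ht11
  have : Fact (Nat.Prime 7) := ⟨by norm_num⟩
  obtain ⟨P7, hP7, t7, ht7, hv7, hN7, hC7⟩ := triple_mem (G := G) hnp 7 2508 (by rw [h])
    (by norm_num) 19 (by norm_num) (by norm_num) ⟨2, by norm_num, by norm_num, by norm_num⟩ qs qs_prime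
  have hl7 : tripleList 7 2508 19 qs = [(1254, 2, 1)] := by decide +kernel
  rw [hl7] at ht7
  simp only [List.mem_cons, List.not_mem_nil, or_false] at ht7
  have a0 : 7524 ≤ Nat.card {g : G // 7 ∣ orderOf g ∧ orderOf g ∣ 7} := by
    obtain rfl := ht7
    exact le_trans (by rw [hv7]; norm_num) (card_dvd_orderOf_ge 7 P7 hP7 1 7 hC7 (by norm_num) (by norm_num))
  have a1 : 7980 ≤ Nat.card {g : G // 11 ∣ orderOf g ∧ orderOf g ∣ 66} := by
    obtain rfl := ht11
    exact le_trans (by rw [hv11]; norm_num) (card_dvd_orderOf_ge 11 P11 hP11 6 66 hC11 (by norm_num) (by norm_num))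
  have a2 : 2772 ≤ Nat.card {g : G // 19 ∣ orderOf g ∧ orderOf g ∣ 228} := by
    rcases ht19 with rfl | rfl | rfl
    · exact le_trans (by rw [hv19]; norm_num) (card_dvd_orderOf_ge 19 P19 hP19 6 228 hC19 (by norm_num) (by norm_num))
    · exact le_trans (by rw [hv19]; norm_num) (card_dvd_orderOf_ge 19 P19 hP19 4 228 hC19 (by norm_num) (by norm_num))
    · exact le_trans (by rw [hv19]; norm_num) (card_dvd_orderOf_ge 19 P19 hP19 2 228 hC19 (by norm_num) (by norm_num))
  have tot := sum_card_le3 (G := G) (fun m => 7 ∣ m ∧ m ∣ 7) (fun m => 11 ∣ m ∧ m ∣ 66) (fun m => 19 ∣ m ∧ m ∣ 228)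
    (fun m h1 h2 => absurd (dvd_trans h2.1 h1.2) (by norm_num))
    (fun m h1 h2 => absurd (dvd_trans h2.1 h1.2) (by norm_num))
    (fun m h1 h2 => absurd (dvd_trans h2.1 h1.2) (by norm_num))
  rw [h] at tot
  omega

theorem no_simple_21945 {G : Type*} [Group G] [Finite G] [IsSimpleGroup G]
    (h : Nat.card G = 21945) : False := by
  have hnp : ¬ (Nat.card G).Prime := by rw [h]; norm_num
  have : Fact (Nat.Prime 19) := ⟨by norm_num⟩
  obtain ⟨P19, hP19, t19, ht19, hv19, hN19, hC19⟩ := triple_mem (G := G) hnp 19 1155 (by rw [h])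
    (by norm_num) 19 (by norm_num) (by norm_num) ⟨3, by norm_num, by norm_num, by norm_num⟩ qs qs_prime
  have hl19 : tripleList 19 1155 19 qs = [] := by decide +kernel
  rw [hl19] at ht19
  exact absurd ht19 List.not_mem_nil

theorem no_simple_25080 {G : Type*} [Group G] [Finite G] [IsSimpleGroup G]
    (h : Nat.card G = 25080) : False := by
  have hnp : ¬ (Nat.card G).Prime := by rw [h]; norm_num
  have : Fact (Nat.Prime 19) := ⟨by norm_num⟩
  obtain ⟨P19, hP19, t19, ht19, hv19, hN19, hC19⟩ := triple_mem (G := G) hnp 19 1320 (by rw [h])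
    (by norm_num) 19 (by norm_num) (by norm_num) ⟨2, by norm_num, by norm_num, by norm_num⟩ qs qs_prime
  have hl19 : tripleList 19 1320 19 qs = [] := by decide +kernel
  rw [hl19] at ht19
  exact absurd ht19 List.not_mem_nil

theorem no_simple_29260 {G : Type*} [Group G] [Finite G] [IsSimpleGroup G]
    (h : Nat.card G = 29260) : False := by
  have hnp : ¬ (Nat.card G).Prime := by rw [h]; norm_num
  have : Fact (Nat.Prime 19) := ⟨by norm_num⟩
  obtain ⟨P19, hP19, t19, ht19, hv19, hN19, hC19⟩ := triple_mem (G := G) hnp 19 1540 (by rw [h])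
    (by norm_num) 19 (by norm_num) (by norm_num) ⟨2, by norm_num, by norm_num, by norm_num⟩ qs qs_prime
  have hl19 : tripleList 19 1540 19 qs = [] := by decide +kernel
  rw [hl19] at ht19
  exact absurd ht19 List.not_mem_nil

theorem no_simple_35112 {G : Type*} [Group G] [Finite G] [IsSimpleGroup G]
    (h : Nat.card G = 35112) : False := by
  have hnp : ¬ (Nat.card G).Prime := by rw [h]; norm_num
  have : Fact (Nat.Prime 19) := ⟨by norm_num⟩
  obtain ⟨P19, hP19, t19, ht19, hv19, hN19, hC19⟩ := triple_mem (G := G) hnp 19 1848 (by rw [h])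
    (by norm_num) 19 (by norm_num) (by norm_num) ⟨2, by norm_num, by norm_num, by norm_num⟩ qs qs_prime
  have hl19 : tripleList 19 1848 19 qs = [(77, 2, 12), (77, 3, 8), (77, 6, 4)] := by decide +kernel
  rw [hl19] at ht19
  simp only [List.mem_cons, List.not_mem_nil, or_false] at ht19
  have : Fact (Nat.Prime 11) := ⟨by norm_num⟩
  obtain ⟨P11, hP11, t11, ht11, hv11, hN11, hC11⟩ := triple_mem (G := G) hnp 11 3192 (by rw [h])
    (by norm_num) 19 (by norm_num) (by norm_num) ⟨2, by norm_num, by norm_num, by norm_num⟩ qs qs_prime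
  have hl11 : tripleList 11 3192 19 qs = [(133, 2, 12), (1596, 2, 1)] := by decide +kernel
  rw [hl11] at ht11
  simp only [List.mem_cons, List.not_mem_nil, or_false] at ht11
  have : Fact (Nat.Prime 7) := ⟨by norm_num⟩
  obtain ⟨P7, hP7, t7, ht7, hv7, hN7, hC7⟩ := triple_mem (G := G) hnp 7 5016 (by rw [h])
    (by norm_num) 19 (by norm_num) (by norm_num) ⟨2, by norm_num, by norm_num, by norm_num⟩ qs qs_prime
  have hl7 : tripleList 7 5016 19 qs = [(1254, 2, 2)] := by decide +kernel
  rw [hl7] at ht7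
  simp only [List.mem_cons, List.not_mem_nil, or_false] at ht7
  have a0 : 15048 ≤ Nat.card {g : G // 7 ∣ orderOf g ∧ orderOf g ∣ 14} := by
    obtain rfl := ht7
    exact le_trans (by rw [hv7]; norm_num) (card_dvd_orderOf_ge 7 P7 hP7 2 14 hC7 (by norm_num) (by norm_num))
  have a1 : 15960 ≤ Nat.card {g : G // 11 ∣ orderOf g ∧ orderOf g ∣ 132} := by
    rcases ht11 with rfl | rfl
    · exact le_trans (by rw [hv11]; norm_num) (card_dvd_orderOf_ge 11 P11 hP11 12 132 hC11 (by norm_num) (by norm_num))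
    · exact le_trans (by rw [hv11]; norm_num) (card_dvd_orderOf_ge 11 P11 hP11 1 132 hC11 (by norm_num) (by norm_num))
  have a2 : 5544 ≤ Nat.card {g : G // 19 ∣ orderOf g ∧ orderOf g ∣ 456} := by
    rcases ht19 with rfl | rfl | rfl
    · exact le_trans (by rw [hv19]; norm_num) (card_dvd_orderOf_ge 19 P19 hP19 12 456 hC19 (by norm_num) (by norm_num))
    · exact le_trans (by rw [hv19]; norm_num) (card_dvd_orderOf_ge 19 P19 hP19 8 456 hC19 (by norm_num) (by norm_num))
    · exact le_trans (by rw [hv19]; norm_num) (card_dvd_orderOf_ge 19 P19 hP19 4 456 hC19 (by norm_num) (by norm_num))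
  have tot := sum_card_le3 (G := G) (fun m => 7 ∣ m ∧ m ∣ 14) (fun m => 11 ∣ m ∧ m ∣ 132) (fun m => 19 ∣ m ∧ m ∣ 456)
    (fun m h1 h2 => absurd (dvd_trans h2.1 h1.2) (by norm_num))
    (fun m h1 h2 => absurd (dvd_trans h2.1 h1.2) (by norm_num))
    (fun m h1 h2 => absurd (dvd_trans h2.1 h1.2) (by norm_num))
  rw [h] at tot
  omega

theorem no_simple_43890 {G : Type*} [Group G] [Finite G] [IsSimpleGroup G]
    (h : Nat.card G = 43890) : False := by
  have hnp : ¬ (Nat.card G).Prime := by rw [h]; norm_num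
  have : Fact (Nat.Prime 19) := ⟨by norm_num⟩
  obtain ⟨P19, hP19, t19, ht19, hv19, hN19, hC19⟩ := triple_mem (G := G) hnp 19 2310 (by rw [h])
    (by norm_num) 19 (by norm_num) (by norm_num) ⟨2, by norm_num, by norm_num, by norm_num⟩ qs qs_prime
  have hl19 : tripleList 19 2310 19 qs = [] := by decide +kernel
  rw [hl19] at ht19
  exact absurd ht19 List.not_mem_nil

theorem no_simple_58520 {G : Type*} [Group G] [Finite G] [IsSimpleGroup G]
    (h : Nat.card G = 58520) : False := by
  have hnp : ¬ (Nat.card G).Prime := by rw [h]; norm_num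
  have : Fact (Nat.Prime 19) := ⟨by norm_num⟩
  obtain ⟨P19, hP19, t19, ht19, hv19, hN19, hC19⟩ := triple_mem (G := G) hnp 19 3080 (by rw [h])
    (by norm_num) 19 (by norm_num) (by norm_num) ⟨2, by norm_num, by norm_num, by norm_num⟩ qs qs_prime
  have hl19 : tripleList 19 3080 19 qs = [(1540, 2, 1)] := by decide +kernel
  rw [hl19] at ht19
  simp only [List.mem_cons, List.not_mem_nil, or_false] at ht19
  have : Fact (Nat.Prime 7) := ⟨by norm_num⟩
  obtain ⟨P7, hP7, t7, ht7, hv7, hN7, hC7⟩ := triple_mem (G := G) hnp 7 8360 (by rw [h])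
    (by norm_num) 19 (by norm_num) (by norm_num) ⟨2, by norm_num, by norm_num, by norm_num⟩ qs qs_prime
  have hl7 : tripleList 7 8360 19 qs = [(190, 2, 22), (4180, 2, 1)] := by decide +kernel
  rw [hl7] at ht7
  simp only [List.mem_cons, List.not_mem_nil, or_false] at ht7
  have : Fact (Nat.Prime 11) := ⟨by norm_num⟩
  obtain ⟨P11, hP11, t11, ht11, hv11, hN11, hC11⟩ := triple_mem (G := G) hnp 11 5320 (by rw [h])
    (by norm_num) 19 (by norm_num) (by norm_num) ⟨2, by norm_num, by norm_num, by norm_num⟩ qs qs_prime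
  have hl11 : tripleList 11 5320 19 qs = [(133, 2, 20), (133, 5, 8), (133, 10, 4)] := by decide +kernel
  rw [hl11] at ht11
  simp only [List.mem_cons, List.not_mem_nil, or_false] at ht11
  have : Fact (Nat.Prime 5) := ⟨by norm_num⟩
  obtain ⟨P5, hP5, t5, ht5, hv5, hN5, hC5⟩ := triple_mem (G := G) hnp 5 11704 (by rw [h])
    (by norm_num) 19 (by norm_num) (by norm_num) ⟨2, by norm_num, by norm_num, by norm_num⟩ qs qs_prime
  have hl5 : tripleList 5 11704 19 qs = [(76, 2, 77), (266, 2, 22), (266, 4, 11), (836, 2, 7), (2926, 2, 2), (2926, 4, 1)] := by decide +kernel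
  rw [hl5] at ht5
  simp only [List.mem_cons, List.not_mem_nil, or_false] at ht5
  replace ht7 : t7 = (4180, 2, 1) := by
    rcases ht7 with rfl | rfl
    · exfalso
      rcases ht11 with rfl | rfl | rfl
      · obtain ⟨k, hk⟩ := cross_rule' 7 11 P7 (fact_one _ 11 5320 (by norm_num) (by rw [h]) (by norm_num)) 14 (by rw [hC7]; rfl) (by decide +kernel)
        rw [hv11, hN7, h] at hk
        norm_num at hk <;> omega
      · obtain ⟨k, hk⟩ := cross_rule' 7 11 P7 (fact_one _ 11 5320 (by norm_num) (by rw [h]) (by norm_num)) 14 (by rw [hC7]; rfl) (by decide +kernel)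
        rw [hv11, hN7, h] at hk
        norm_num at hk <;> omega
      · obtain ⟨k, hk⟩ := cross_rule' 7 11 P7 (fact_one _ 11 5320 (by norm_num) (by rw [h]) (by norm_num)) 14 (by rw [hC7]; rfl) (by decide +kernel)
        rw [hv11, hN7, h] at hk
        norm_num at hk <;> omega
    · simp
  replace ht5 : t5 = (266, 2, 22) ∨ t5 = (266, 4, 11) ∨ t5 = (836, 2, 7) ∨ t5 = (2926, 2, 2) ∨ t5 = (2926, 4, 1) := by
    rcases ht5 with rfl | rfl | rfl | rfl | rfl | rfl
    · exfalso
      obtain rfl := ht7
      obtain ⟨k, hk⟩ := cross_rule' 5 7 P5 (fact_one _ 7 8360 (by norm_num) (by rw [h]) (by norm_num)) 55 (by rw [hC5]; rfl) (by decide +kernel)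
      rw [hv7, hN5, h] at hk
      norm_num at hk <;> omega
    · simp
    · simp
    · simp
    · simp
    · simp
  have a0 : 27720 ≤ Nat.card {g : G // 19 ∣ orderOf g ∧ orderOf g ∣ 19} := by
    obtain rfl := ht19
    exact le_trans (by rw [hv19]; norm_num) (card_dvd_orderOf_ge 19 P19 hP19 1 19 hC19 (by norm_num) (by norm_num))
  have a1 : 25080 ≤ Nat.card {g : G // 7 ∣ orderOf g ∧ orderOf g ∣ 7} := by
    obtain rfl := ht7
    exact le_trans (by rw [hv7]; norm_num) (card_dvd_orderOf_ge 7 P7 hP7 1 7 hC7 (by norm_num) (by norm_num))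
  have a2 : 5320 ≤ Nat.card {g : G // 11 ∣ orderOf g ∧ orderOf g ∣ 440} := by
    rcases ht11 with rfl | rfl | rfl
    · exact le_trans (by rw [hv11]; norm_num) (card_dvd_orderOf_ge 11 P11 hP11 20 440 hC11 (by norm_num) (by norm_num))
    · exact le_trans (by rw [hv11]; norm_num) (card_dvd_orderOf_ge 11 P11 hP11 8 440 hC11 (by norm_num) (by norm_num))
    · exact le_trans (by rw [hv11]; norm_num) (card_dvd_orderOf_ge 11 P11 hP11 4 440 hC11 (by norm_num) (by norm_num))
  have a3 : 1064 ≤ Nat.card {x : G // orderOf x = 5} := by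
    rw [card_orderOf_eq_prime 5 P5 hP5, hv5]
    rcases ht5 with rfl | rfl | rfl | rfl | rfl <;> norm_num
  have tot := sum_card_le4 (G := G) (fun m => 19 ∣ m ∧ m ∣ 19) (fun m => 7 ∣ m ∧ m ∣ 7) (fun m => 11 ∣ m ∧ m ∣ 440) (fun m => m = 5)
    (fun m h1 h2 => absurd (dvd_trans h2.1 h1.2) (by norm_num))
    (fun m h1 h2 => absurd (dvd_trans h2.1 h1.2) (by norm_num))
    (fun m h1 h2 => by subst h2; exact absurd h1.1 (by norm_num))
    (fun m h1 h2 => absurd (dvd_trans h2.1 h1.2) (by norm_num))
    (fun m h1 h2 => by subst h2; exact absurd h1.1 (by norm_num))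
    (fun m h1 h2 => by subst h2; exact absurd h1.1 (by norm_num))
  rw [h] at tot
  omega

theorem no_simple_87780 {G : Type*} [Group G] [Finite G] [IsSimpleGroup G]
    (h : Nat.card G = 87780) : False := by
  have hnp : ¬ (Nat.card G).Prime := by rw [h]; norm_num
  have : Fact (Nat.Prime 19) := ⟨by norm_num⟩
  obtain ⟨P19, hP19, t19, ht19, hv19, hN19, hC19⟩ := triple_mem (G := G) hnp 19 4620 (by rw [h])
    (by norm_num) 19 (by norm_num) (by norm_num) ⟨2, by norm_num, by norm_num, by norm_num⟩ qs qs_prime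
  have hl19 : tripleList 19 4620 19 qs = [(210, 2, 11), (1540, 3, 1)] := by decide +kernel
  rw [hl19] at ht19
  simp only [List.mem_cons, List.not_mem_nil, or_false] at ht19
  have : Fact (Nat.Prime 7) := ⟨by norm_num⟩
  obtain ⟨P7, hP7, t7, ht7, hv7, hN7, hC7⟩ := triple_mem (G := G) hnp 7 12540 (by rw [h])
    (by norm_num) 19 (by norm_num) (by norm_num) ⟨2, by norm_num, by norm_num, by norm_num⟩ qs qs_prime
  have hl7 : tripleList 7 12540 19 qs = [(190, 2, 33), (190, 3, 22), (190, 6, 11), (330, 2, 19), (1254, 2, 5), (4180, 3, 1)] := by decide +kernel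
  rw [hl7] at ht7
  simp only [List.mem_cons, List.not_mem_nil, or_false] at ht7
  have : Fact (Nat.Prime 5) := ⟨by norm_num⟩
  obtain ⟨P5, hP5, t5, ht5, hv5, hN5, hC5⟩ := triple_mem (G := G) hnp 5 17556 (by rw [h])
    (by norm_num) 19 (by norm_num) (by norm_num) ⟨2, by norm_num, by norm_num, by norm_num⟩ qs qs_prime
  have hl5 : tripleList 5 17556 19 qs = [(231, 2, 38), (231, 4, 19), (266, 2, 33), (2926, 2, 3)] := by decide +kernel
  rw [hl5] at ht5
  simp only [List.mem_cons, List.not_mem_nil, or_false] at ht5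
  have : Fact (Nat.Prime 11) := ⟨by norm_num⟩
  obtain ⟨P11, hP11, t11, ht11, hv11, hN11, hC11⟩ := triple_mem (G := G) hnp 11 7980 (by rw [h])
    (by norm_num) 19 (by norm_num) (by norm_num) ⟨2, by norm_num, by norm_num, by norm_num⟩ qs qs_prime
  have hl11 : tripleList 11 7980 19 qs = [(133, 2, 30), (133, 5, 12), (133, 10, 6), (210, 2, 19), (1596, 5, 1)] := by decide +kernel
  rw [hl11] at ht11
  simp only [List.mem_cons, List.not_mem_nil, or_false] at ht11
  replace ht7 : t7 = (4180, 3, 1) := by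
    rcases ht7 with rfl | rfl | rfl | rfl | rfl | rfl
    · exfalso
      rcases ht11 with rfl | rfl | rfl | rfl | rfl
      · obtain ⟨k, hk⟩ := cross_rule' 7 11 P7 (fact_one _ 11 7980 (by norm_num) (by rw [h]) (by norm_num)) 21 (by rw [hC7]; rfl) (by decide +kernel)
        rw [hv11, hN7, h] at hk
        norm_num at hk <;> omega
      · obtain ⟨k, hk⟩ := cross_rule' 7 11 P7 (fact_one _ 11 7980 (by norm_num) (by rw [h]) (by norm_num)) 21 (by rw [hC7]; rfl) (by decide +kernel)
        rw [hv11, hN7, h] at hk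
        norm_num at hk <;> omega
      · obtain ⟨k, hk⟩ := cross_rule' 7 11 P7 (fact_one _ 11 7980 (by norm_num) (by rw [h]) (by norm_num)) 21 (by rw [hC7]; rfl) (by decide +kernel)
        rw [hv11, hN7, h] at hk
        norm_num at hk <;> omega
      · obtain ⟨k, hk⟩ := cross_rule' 7 11 P7 (fact_one _ 11 7980 (by norm_num) (by rw [h]) (by norm_num)) 21 (by rw [hC7]; rfl) (by decide +kernel)
        rw [hv11, hN7, h] at hk
        norm_num at hk <;> omega
      · obtain ⟨k, hk⟩ := cross_rule' 7 11 P7 (fact_one _ 11 7980 (by norm_num) (by rw [h]) (by norm_num)) 21 (by rw [hC7]; rfl) (by decide +kernel)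
        rw [hv11, hN7, h] at hk
        norm_num at hk <;> omega
    · exfalso
      rcases ht11 with rfl | rfl | rfl | rfl | rfl
      · obtain ⟨k, hk⟩ := cross_rule' 7 11 P7 (fact_one _ 11 7980 (by norm_num) (by rw [h]) (by norm_num)) 14 (by rw [hC7]; rfl) (by decide +kernel)
        rw [hv11, hN7, h] at hk
        norm_num at hk <;> omega
      · obtain ⟨k, hk⟩ := cross_rule' 7 11 P7 (fact_one _ 11 7980 (by norm_num) (by rw [h]) (by norm_num)) 14 (by rw [hC7]; rfl) (by decide +kernel)
        rw [hv11, hN7, h] at hk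
        norm_num at hk <;> omega
      · obtain ⟨k, hk⟩ := cross_rule' 7 11 P7 (fact_one _ 11 7980 (by norm_num) (by rw [h]) (by norm_num)) 14 (by rw [hC7]; rfl) (by decide +kernel)
        rw [hv11, hN7, h] at hk
        norm_num at hk <;> omega
      · obtain ⟨k, hk⟩ := cross_rule' 7 11 P7 (fact_one _ 11 7980 (by norm_num) (by rw [h]) (by norm_num)) 14 (by rw [hC7]; rfl) (by decide +kernel)
        rw [hv11, hN7, h] at hk
        norm_num at hk <;> omega
      · obtain ⟨k, hk⟩ := cross_rule' 7 11 P7 (fact_one _ 11 7980 (by norm_num) (by rw [h]) (by norm_num)) 14 (by rw [hC7]; rfl) (by decide +kernel)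
        rw [hv11, hN7, h] at hk
        norm_num at hk <;> omega
    · exfalso
      rcases ht11 with rfl | rfl | rfl | rfl | rfl
      · obtain ⟨k, hk⟩ := cross_rule' 7 11 P7 (fact_one _ 11 7980 (by norm_num) (by rw [h]) (by norm_num)) 7 (by rw [hC7]; rfl) (by decide +kernel)
        rw [hv11, hN7, h] at hk
        norm_num at hk <;> omega
      · obtain ⟨k, hk⟩ := cross_rule' 7 11 P7 (fact_one _ 11 7980 (by norm_num) (by rw [h]) (by norm_num)) 7 (by rw [hC7]; rfl) (by decide +kernel)
        rw [hv11, hN7, h] at hk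
        norm_num at hk <;> omega
      · obtain ⟨k, hk⟩ := cross_rule' 7 11 P7 (fact_one _ 11 7980 (by norm_num) (by rw [h]) (by norm_num)) 7 (by rw [hC7]; rfl) (by decide +kernel)
        rw [hv11, hN7, h] at hk
        norm_num at hk <;> omega
      · obtain ⟨k, hk⟩ := cross_rule' 7 11 P7 (fact_one _ 11 7980 (by norm_num) (by rw [h]) (by norm_num)) 7 (by rw [hC7]; rfl) (by decide +kernel)
        rw [hv11, hN7, h] at hk
        norm_num at hk <;> omega
      · obtain ⟨k, hk⟩ := cross_rule' 7 11 P7 (fact_one _ 11 7980 (by norm_num) (by rw [h]) (by norm_num)) 7 (by rw [hC7]; rfl) (by decide +kernel)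
        rw [hv11, hN7, h] at hk
        norm_num at hk <;> omega
    · exfalso
      rcases ht19 with rfl | rfl
      · obtain ⟨k, hk⟩ := cross_rule' 7 19 P7 (fact_one _ 19 4620 (by norm_num) (by rw [h]) (by norm_num)) 7 (by rw [hC7]; rfl) (by decide +kernel)
        rw [hv19, hN7, h] at hk
        norm_num at hk <;> omega
      · obtain ⟨k, hk⟩ := cross_rule' 7 19 P7 (fact_one _ 19 4620 (by norm_num) (by rw [h]) (by norm_num)) 7 (by rw [hC7]; rfl) (by decide +kernel)
        rw [hv19, hN7, h] at hk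
        norm_num at hk <;> omega
    · exfalso
      rcases ht5 with rfl | rfl | rfl | rfl
      · obtain ⟨k, hk⟩ := cross_rule' 7 5 P7 (fact_one _ 5 17556 (by norm_num) (by rw [h]) (by norm_num)) 7 (by rw [hC7]; rfl) (by decide +kernel)
        rw [hv5, hN7, h] at hk
        norm_num at hk <;> omega
      · obtain ⟨k, hk⟩ := cross_rule' 7 5 P7 (fact_one _ 5 17556 (by norm_num) (by rw [h]) (by norm_num)) 7 (by rw [hC7]; rfl) (by decide +kernel)
        rw [hv5, hN7, h] at hk
        norm_num at hk <;> omega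
      · obtain ⟨k, hk⟩ := cross_rule' 7 5 P7 (fact_one _ 5 17556 (by norm_num) (by rw [h]) (by norm_num)) 7 (by rw [hC7]; rfl) (by decide +kernel)
        rw [hv5, hN7, h] at hk
        norm_num at hk <;> omega
      · obtain ⟨k, hk⟩ := cross_rule' 7 5 P7 (fact_one _ 5 17556 (by norm_num) (by rw [h]) (by norm_num)) 7 (by rw [hC7]; rfl) (by decide +kernel)
        rw [hv5, hN7, h] at hk
        norm_num at hk <;> omega
    · simp
  replace ht5 : t5 = (266, 2, 33) ∨ t5 = (2926, 2, 3) := by
    rcases ht5 with rfl | rfl | rfl | rfl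
    · exfalso
      rcases ht19 with rfl | rfl
      · obtain ⟨k, hk⟩ := cross_rule' 5 19 P5 (fact_one _ 19 4620 (by norm_num) (by rw [h]) (by norm_num)) 10 (by rw [hC5]; rfl) (by decide +kernel)
        rw [hv19, hN5, h] at hk
        norm_num at hk <;> omega
      · obtain ⟨k, hk⟩ := cross_rule' 5 19 P5 (fact_one _ 19 4620 (by norm_num) (by rw [h]) (by norm_num)) 10 (by rw [hC5]; rfl) (by decide +kernel)
        rw [hv19, hN5, h] at hk
        norm_num at hk <;> omega
    · exfalso
      rcases ht19 with rfl | rfl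
      · obtain ⟨k, hk⟩ := cross_rule' 5 19 P5 (fact_one _ 19 4620 (by norm_num) (by rw [h]) (by norm_num)) 5 (by rw [hC5]; rfl) (by decide +kernel)
        rw [hv19, hN5, h] at hk
        norm_num at hk <;> omega
      · obtain ⟨k, hk⟩ := cross_rule' 5 19 P5 (fact_one _ 19 4620 (by norm_num) (by rw [h]) (by norm_num)) 5 (by rw [hC5]; rfl) (by decide +kernel)
        rw [hv19, hN5, h] at hk
        norm_num at hk <;> omega
    · simp
    · simp
  have a0 : 25080 ≤ Nat.card {g : G // 7 ∣ orderOf g ∧ orderOf g ∣ 7} := by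
    obtain rfl := ht7
    exact le_trans (by rw [hv7]; norm_num) (card_dvd_orderOf_ge 7 P7 hP7 1 7 hC7 (by norm_num) (by norm_num))
  have a1 : 27720 ≤ Nat.card {g : G // 19 ∣ orderOf g ∧ orderOf g ∣ 209} := by
    rcases ht19 with rfl | rfl
    · exact le_trans (by rw [hv19]; norm_num) (card_dvd_orderOf_ge 19 P19 hP19 11 209 hC19 (by norm_num) (by norm_num))
    · exact le_trans (by rw [hv19]; norm_num) (card_dvd_orderOf_ge 19 P19 hP19 1 209 hC19 (by norm_num) (by norm_num))
  have a2 : 35112 ≤ Nat.card {g : G // 5 ∣ orderOf g ∧ orderOf g ∣ 165} := by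
    rcases ht5 with rfl | rfl
    · exact le_trans (by rw [hv5]; norm_num) (card_dvd_orderOf_ge 5 P5 hP5 33 165 hC5 (by norm_num) (by norm_num))
    · exact le_trans (by rw [hv5]; norm_num) (card_dvd_orderOf_ge 5 P5 hP5 3 165 hC5 (by norm_num) (by norm_num))
  have tot := sum_card_le3 (G := G) (fun m => 7 ∣ m ∧ m ∣ 7) (fun m => 19 ∣ m ∧ m ∣ 209) (fun m => 5 ∣ m ∧ m ∣ 165)
    (fun m h1 h2 => absurd (dvd_trans h2.1 h1.2) (by norm_num))
    (fun m h1 h2 => absurd (dvd_trans h2.1 h1.2) (by norm_num))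
    (fun m h1 h2 => absurd (dvd_trans h2.1 h1.2) (by norm_num))
  rw [h] at tot
  omega

theorem no_simple_proper {G : Type*} [Group G] [Finite G] [IsSimpleGroup G] (m : ℕ) (hm : m ∣ 9240)
    (hm1 : m ≠ 1) (hm2 : m ≠ 9240) (h : Nat.card G = 19 * m) : False := by
  have hmem : m ∈ Nat.divisors 9240 := Nat.mem_divisors.mpr ⟨hm, by norm_num⟩
  have hl : Nat.divisors 9240 = {1, 2, 3, 4, 5, 6, 7, 8, 10, 11, 12, 14, 15, 20, 21, 22, 24, 28, 30, 33, 35, 40, 42, 44, 55, 56, 60, 66, 70, 77, 84, 88, 105, 110, 120, 132, 140, 154, 165, 168, 210, 220, 231, 264, 280, 308, 330, 385, 420, 440, 462, 616, 660, 770, 840, 924, 1155, 1320, 1540, 1848, 2310, 3080, 4620, 9240} := by decide +kernel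
  rw [hl] at hmem
  simp only [Finset.mem_insert, Finset.mem_singleton] at hmem
  rcases hmem with rfl | rfl | rfl | rfl | rfl | rfl | rfl | rfl | rfl | rfl | rfl | rfl | rfl | rfl | rfl | rfl | rfl | rfl | rfl | rfl | rfl | rfl | rfl | rfl | rfl | rfl | rfl | rfl | rfl | rfl | rfl | rfl | rfl | rfl | rfl | rfl | rfl | rfl | rfl | rfl | rfl | rfl | rfl | rfl | rfl | rfl | rfl | rfl | rfl | rfl | rfl | rfl | rfl | rfl | rfl | rfl | rfl | rfl | rfl | rfl | rfl | rfl | rfl | rfl
  · exact hm1 rfl
  · exact no_simple_38 h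
  · exact no_simple_57 h
  · exact no_simple_76 h
  · exact no_simple_95 h
  · exact no_simple_114 h
  · exact no_simple_133 h
  · exact no_simple_152 h
  · exact no_simple_190 h
  · exact no_simple_209 h
  · exact no_simple_228 h
  · exact no_simple_266 h
  · exact no_simple_285 h
  · exact no_simple_380 h
  · exact no_simple_399 h
  · exact no_simple_418 h
  · exact no_simple_456 h
  · exact no_simple_532 h
  · exact no_simple_570 h
  · exact no_simple_627 h
  · exact no_simple_665 h
  · exact no_simple_760 h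
  · exact no_simple_798 h
  · exact no_simple_836 h
  · exact no_simple_1045 h
  · exact no_simple_1064 h
  · exact no_simple_1140 h
  · exact no_simple_1254 h
  · exact no_simple_1330 h
  · exact no_simple_1463 h
  · exact no_simple_1596 h
  · exact no_simple_1672 h
  · exact no_simple_1995 h
  · exact no_simple_2090 h
  · exact no_simple_2280 h
  · exact no_simple_2508 h
  · exact no_simple_2660 h
  · exact no_simple_2926 h
  · exact no_simple_3135 h
  · exact no_simple_3192 h
  · exact no_simple_3990 h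
  · exact no_simple_4180 h
  · exact no_simple_4389 h
  · exact no_simple_5016 h
  · exact no_simple_5320 h
  · exact no_simple_5852 h
  · exact no_simple_6270 h
  · exact no_simple_7315 h
  · exact no_simple_7980 h
  · exact no_simple_8360 h
  · exact no_simple_8778 h
  · exact no_simple_11704 h
  · exact no_simple_12540 h
  · exact no_simple_14630 h
  · exact no_simple_15960 h
  · exact no_simple_17556 h
  · exact no_simple_21945 h
  · exact no_simple_25080 h
  · exact no_simple_29260 h
  · exact no_simple_35112 h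
  · exact no_simple_43890 h
  · exact no_simple_58520 h
  · exact no_simple_87780 h
  · exact hm2 rfl

end Cfsg.Agent.Lib.Helper5.Syl
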