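import Mathlib
import Cfsg.Agent.Lib.Helper5.SylOrders

set_option autoImplicit false

namespace Cfsg.Agent.Lib.Helper5.Syl

open Cfsg.Agent.Lib.Helper17

/-- a prime power dividing `9240` is less than `19` -/
theorem primePow_dvd_9240_lt (q k : ℕ) (hq : q.Prime) (h : q ^ k ∣ 9240) : q ^ k < 19 := by
  rcases Nat.eq_zero_or_pos k with rfl | hk
  · norm_num
  have hpp : IsPrimePow (q ^ k) := hq.isPrimePow.pow hk.ne'
  have h1 : q ^ k ∣ 8 * (3 * (5 * (7 * 11))) := by
    have e : (8 * (3 * (5 * (7 * 11))) : ℕ) = 9240 := by norm_num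
    rw [e]; exact h
  rw [Nat.Coprime.isPrimePow_dvd_mul (by norm_num) hpp,
    Nat.Coprime.isPrimePow_dvd_mul (by norm_num) hpp,
    Nat.Coprime.isPrimePow_dvd_mul (by norm_num) hpp,
    Nat.Coprime.isPrimePow_dvd_mul (by norm_num) hpp] at h1
  rcases h1 with h1 | h1 | h1 | h1 | h1 <;>
  · have := Nat.le_of_dvd (by norm_num) h1
    omega

/-- an element of order `19` normalizing a subgroup of order `< 19` centralizes it -/
theorem mem_centralizer_of_mem_normalizer_19 {H : Type*} [Group H] [Finite H] (Q : Subgroup H)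
    (hQ : Nat.card Q < 19) (x : H) (hx : x ∈ Subgroup.normalizer (Q : Set H))
    (hox : orderOf x = 19) : x ∈ Subgroup.centralizer (Q : Set H) := by
  have h19 : Nat.Prime 19 := by norm_num
  set y : Subgroup.normalizer (Q : Set H) := ⟨x, hx⟩ with hy
  have hoy : orderOf y = 19 := by
    rw [← hox, ← Subgroup.orderOf_coe]
  set σ : Equiv.Perm Q := MulAut.toPerm Q (Q.normalizerMonoidHom y) with hσ
  have h1 : orderOf σ ∣ 19 := by
    rw [← hoy]
    exact dvd_trans (orderOf_map_dvd _ _) (orderOf_map_dvd _ y)
  have h2 : orderOf σ ∣ (Nat.card Q).factorial := by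
    rw [← Nat.card_perm]; exact orderOf_dvd_natCard σ
  have h3 : orderOf σ = 1 := by
    rcases (Nat.dvd_prime h19).mp h1 with h | h
    · exact h
    · rw [h] at h2
      have := (h19.dvd_factorial).mp h2
      omega
  have h4 : σ = 1 := orderOf_eq_one_iff.mp h3
  have h5 : Q.normalizerMonoidHom y = 1 := by
    apply MulEquiv.ext; intro z
    have := congrArg (fun τ : Equiv.Perm Q => τ z) h4
    exact this
  have h6 : y ∈ Q.normalizerMonoidHom.ker := h5
  rw [Subgroup.normalizerMonoidHom_ker, Subgroup.mem_subgroupOf] at h6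
  exact h6

/-- **Lemma C.** If `H = P N` with `N` normal of order dividing `9240` and `P` a Sylow
`19`-subgroup of order `19`, then `P` is normal (indeed central). -/
theorem sylow19_normal_of_sup {H : Type*} [Group H] [Finite H] (N : Subgroup H) [N.Normal]
    (P : Sylow 19 H) (hP : Nat.card (P : Subgroup H) = 19)
    (hPN : (P : Subgroup H) ⊔ N = ⊤) (hN : Nat.card N ∣ 9240) :
    (P : Subgroup H).Normal := by
  have h19 : Nat.Prime 19 := by norm_num
  have : Fact (Nat.Prime 19) := ⟨h19⟩
  have h19N : ¬ 19 ∣ Nat.card N := fun h => absurd (dvd_trans h hN) (by norm_num)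
  have hidx : N.index ∣ 19 := by
    have h1 := Subgroup.relIndex_sup_right (H := (P : Subgroup H)) (K := N)
    rw [hPN, Subgroup.relIndex_top_right] at h1
    rw [h1]
    have h2 := Subgroup.relIndex_dvd_card N (P : Subgroup H)
    rw [hP] at h2
    exact h2
  have hcard : Nat.card N * N.index = Nat.card H := N.card_mul_index
  have h19H : 19 ∣ Nat.card H := by rw [← hP]; exact Subgroup.card_subgroup_dvd_card _
  have hidx' : N.index = 19 := by
    rcases (Nat.dvd_prime h19).mp hidx with h | h
    · rw [h, mul_one] at hcard; rw [← hcard] at h19H; exact absurd h19H h19N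
    · exact h
  rw [hidx'] at hcard
  set C := Subgroup.centralizer ((P : Subgroup H) : Set H) with hC
  have hPc : (P : Subgroup H) ≤ C := by
    have : IsMulCommutative (P : Subgroup H) := by
      have hcyc : IsCyclic (P : Subgroup H) := isCyclic_of_prime_card hP
      exact ⟨⟨fun a b => (IsCyclic.commGroup (α := (P : Subgroup H))).mul_comm a b⟩⟩
    exact Subgroup.le_centralizer (P : Subgroup H)
  have key : ∀ q : ℕ, q.Prime → q ^ (Nat.card N).factorization q ∣ Nat.card C := by
    intro q hq
    have : Fact q.Prime := ⟨hq⟩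
    obtain ⟨Q⟩ := (Sylow.nonempty : Nonempty (Sylow q N))
    have hQc : Nat.card (Q : Subgroup N) = q ^ (Nat.card N).factorization q :=
      Q.card_eq_multiplicity
    set Q' : Subgroup H := (Q : Subgroup N).map N.subtype with hQ'
    have hQ'c : Nat.card Q' = q ^ (Nat.card N).factorization q := by
      rw [← hQc]; exact Subgroup.card_map_of_injective (Subgroup.subtype_injective N)
    have hlt : Nat.card Q' < 19 := by
      rw [hQ'c]
      exact primePow_dvd_9240_lt q _ hq (dvd_trans (Nat.ordProj_dvd _ _) hN)
    have hfr := Sylow.normalizer_sup_eq_top Q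
    have h19n : 19 ∣ Nat.card (Subgroup.normalizer (Q' : Set H)) := by
      have h1 := Subgroup.relIndex_sup_right (H := Subgroup.normalizer (Q' : Set H)) (K := N)
      rw [hfr, Subgroup.relIndex_top_right, hidx'] at h1
      rw [h1]; exact Subgroup.relIndex_dvd_card _ _
    obtain ⟨y, hy⟩ := exists_prime_orderOf_dvd_card' 19 h19n
    have hx : orderOf (y : H) = 19 := by rw [Subgroup.orderOf_coe]; exact hy
    have hxc := mem_centralizer_of_mem_normalizer_19 Q' hlt (y : H) y.2 hx
    let R : Sylow 19 H := Sylow.ofCard (Subgroup.zpowers (y : H)) (by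
      rw [Nat.card_zpowers, hx, ← P.card_eq_multiplicity, hP])
    have hQR : Q' ≤ Subgroup.centralizer ((R : Subgroup H) : Set H) := by
      intro g hg
      rw [Subgroup.mem_centralizer_iff]
      intro z hz
      obtain ⟨k, rfl⟩ := Subgroup.mem_zpowers_iff.mp hz
      have hc : Commute (y : H) g := ((Subgroup.mem_centralizer_iff.mp hxc) g hg).symm
      exact (hc.zpow_left k).eq
    rw [hC, ← card_centralizer_sylow_eq 19 P R, ← hQ'c]
    exact Subgroup.card_dvd_of_le hQR
  have hdvd : Nat.card H ∣ Nat.card C := by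
    rw [← Nat.factorization_prime_le_iff_dvd Nat.card_pos.ne' Nat.card_pos.ne']
    intro q hq
    by_cases hq19 : q = 19
    · subst hq19
      have e1 : (Nat.card H).factorization 19 = 1 := by
        have := P.card_eq_multiplicity
        rw [hP] at this
        have h2 : (19 : ℕ) ^ 1 = 19 ^ (Nat.card H).factorization 19 := by simpa using this
        exact (Nat.pow_right_injective (by norm_num : 2 ≤ 19) h2).symm
      rw [e1]
      exact (h19.factorization_pos_of_dvd Nat.card_pos.ne'
        (by rw [← hP]; exact Subgroup.card_dvd_of_le hPc))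
    · have e1 : (Nat.card H).factorization q = (Nat.card N).factorization q := by
        rw [← hcard, Nat.factorization_mul Nat.card_pos.ne' (by norm_num)]
        simp only [Finsupp.coe_add, Pi.add_apply]
        rw [Nat.factorization_eq_zero_of_not_dvd (n := 19) (p := q)
          (fun h => hq19 ((Nat.prime_dvd_prime_iff_eq hq h19).mp h)), add_zero]
      rw [e1]
      exact (hq.pow_dvd_iff_le_factorization Nat.card_pos.ne').mp (key q hq)
  have hCtop : C = ⊤ := by
    apply Subgroup.eq_top_of_card_eq
    exact le_antisymm (Subgroup.card_le_card_group C) (Nat.le_of_dvd Nat.card_pos hdvd)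
  constructor
  intro n hn g
  have hg : g ∈ C := by rw [hCtop]; exact Subgroup.mem_top g
  have hcomm : n * g = g * n := (Subgroup.mem_centralizer_iff.mp hg) n hn
  rw [← hcomm, mul_inv_cancel_right]
  exact hn

universe u

/-- **The non-simple step.** -/
theorem sylow19_step {H : Type u} [Group H] [Finite H] (hdvd : Nat.card H ∣ 175560)
    (hns : ¬ IsSimpleGroup H)
    (IH : ∀ (K : Type u) [Group K] [Finite K], Nat.card K < Nat.card H → Nat.card K ∣ 175560 →
      ∀ P : Sylow 19 K, (P : Subgroup K).Normal) :
    ∀ P : Sylow 19 H, (P : Subgroup H).Normal := by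
  have h19 : Nat.Prime 19 := by norm_num
  have : Fact (Nat.Prime 19) := ⟨h19⟩
  intro P
  by_cases hd : 19 ∣ Nat.card H
  swap
  · have hc : Nat.card (P : Subgroup H) = 1 := by
      rw [P.card_eq_multiplicity, Nat.factorization_eq_zero_of_not_dvd hd, pow_zero]
    rw [Subgroup.eq_bot_of_card_eq _ hc]
    exact Subgroup.normal_bot
  obtain ⟨m, hm⟩ := hd
  have hm9 : m ∣ 9240 := by
    have h1 : (19 : ℕ) * m ∣ 19 * 9240 := by rw [← hm]; exact hdvd
    exact (Nat.mul_dvd_mul_iff_left (by norm_num)).mp h1
  have h19m : ¬ 19 ∣ m := fun h => absurd (dvd_trans h hm9) (by norm_num)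
  have hfac : (Nat.card H).factorization 19 = 1 := fact_one _ 19 m h19 hm h19m
  have hP : Nat.card (P : Subgroup H) = 19 := by
    rw [P.card_eq_multiplicity, hfac, pow_one]
  have hnt : Nontrivial H := by
    rw [← Finite.one_lt_card_iff_nontrivial]
    have := Nat.le_of_dvd Nat.card_pos (Dvd.intro m hm.symm)
    omega
  obtain ⟨N, hNn, hNb, hNt⟩ : ∃ N : Subgroup H, N.Normal ∧ N ≠ ⊥ ∧ N ≠ ⊤ := by
    by_contra hcon
    push Not at hcon
    exact hns
      { exists_pair_ne := hnt.exists_pair_ne
        eq_bot_or_eq_top_of_normal := fun N hN => by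
          by_contra h
          push Not at h
          exact h.2 (hcon N hN h.1) }
  have hNlt : Nat.card N < Nat.card H :=
    lt_of_le_of_ne (Subgroup.card_le_card_group N) (fun h => hNt (Subgroup.eq_top_of_card_eq N h))
  have hNdvd : Nat.card N ∣ Nat.card H := Subgroup.card_subgroup_dvd_card N
  by_cases hN19 : 19 ∣ Nat.card N
  · obtain ⟨Q⟩ := (Sylow.nonempty : Nonempty (Sylow 19 N))
    have hQn : (Q : Subgroup N).Normal := IH N hNlt (dvd_trans hNdvd hdvd) Q
    have hQch : (Q : Subgroup N).Characteristic := Sylow.characteristic_of_normal Q hQn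
    have hKn : ((Q : Subgroup N).map N.subtype).Normal :=
      ConjAct.normal_of_characteristic_of_normal
    have hQc : Nat.card (Q : Subgroup N) = 19 := by
      obtain ⟨m', hm'⟩ := hN19
      have h19m' : ¬ 19 ∣ m' := by
        intro h
        apply h19m
        have h1 : 19 * m' ∣ 19 * m := by rw [← hm', ← hm]; exact hNdvd
        exact dvd_trans h ((Nat.mul_dvd_mul_iff_left (by norm_num)).mp h1)
      rw [Q.card_eq_multiplicity, fact_one _ 19 m' h19 hm' h19m', pow_one]
    have hKc : Nat.card ((Q : Subgroup N).map N.subtype) = 19 := by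
      rw [Subgroup.card_map_of_injective (Subgroup.subtype_injective N)]; exact hQc
    have hKP : (Q : Subgroup N).map N.subtype ≤ (P : Subgroup H) :=
      IsPGroup.le_sylow_of_normal (IsPGroup.of_card (n := 1) (by rw [hKc, pow_one])) P
    have hEq : (Q : Subgroup N).map N.subtype = (P : Subgroup H) :=
      Subgroup.eq_of_le_of_card_ge hKP (by rw [hKc, hP])
    rw [← hEq]; exact hKn
  · have hNgt : 1 < Nat.card N := N.one_lt_card_iff_ne_bot.mpr hNb
    have hqc : Nat.card H = Nat.card (H ⧸ N) * Nat.card N :=
      Subgroup.card_eq_card_quotient_mul_card_subgroup N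
    have hq_pos : 0 < Nat.card (H ⧸ N) := Nat.card_pos
    have hq_lt : Nat.card (H ⧸ N) < Nat.card H := by nlinarith
    have hq_dvd : Nat.card (H ⧸ N) ∣ 175560 :=
      dvd_trans (Subgroup.card_quotient_dvd_card N) hdvd
    have hPbar : ((P.mapSurjective (QuotientGroup.mk'_surjective N) : Sylow 19 (H ⧸ N)) :
        Subgroup (H ⧸ N)).Normal := IH (H ⧸ N) hq_lt hq_dvd _
    have hMn : ((P : Subgroup H) ⊔ N).Normal := by
      have h1 := hPbar.comap (QuotientGroup.mk' N)
      rw [Sylow.coe_mapSurjective, Subgroup.comap_map_eq, QuotientGroup.ker_mk'] at h1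
      exact h1
    by_cases hM : (P : Subgroup H) ⊔ N = ⊤
    · have hNm : Nat.card N ∣ m := by
        have h1 : Nat.card N ∣ 19 * m := by rw [← hm]; exact hNdvd
        have hcop : Nat.Coprime (Nat.card N) 19 :=
          (Nat.Coprime.symm ((Nat.Prime.coprime_iff_not_dvd h19).mpr hN19))
        exact hcop.dvd_of_dvd_mul_left h1
      exact sylow19_normal_of_sup N P hP hM (dvd_trans hNm hm9)
    · have hPM : (P : Subgroup H) ≤ (P : Subgroup H) ⊔ N := le_sup_left
      have hMlt : Nat.card ((P : Subgroup H) ⊔ N : Subgroup H) < Nat.card H :=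
        lt_of_le_of_ne (Subgroup.card_le_card_group _)
          (fun h => hM (Subgroup.eq_top_of_card_eq _ h))
      have hPs : ((P.subtype hPM : Sylow 19 ((P : Subgroup H) ⊔ N : Subgroup H)) :
          Subgroup ((P : Subgroup H) ⊔ N : Subgroup H)).Normal :=
        IH _ hMlt (dvd_trans (Subgroup.card_subgroup_dvd_card _) hdvd) _
      have hch := Sylow.characteristic_of_normal _ hPs
      have hn : (((P.subtype hPM : Sylow 19 ((P : Subgroup H) ⊔ N : Subgroup H)) :
          Subgroup ((P : Subgroup H) ⊔ N : Subgroup H)).map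
            ((P : Subgroup H) ⊔ N : Subgroup H).subtype).Normal :=
        ConjAct.normal_of_characteristic_of_normal
      rw [Sylow.coe_subtype, Subgroup.map_subgroupOf_eq_of_le hPM] at hn
      exact hn

/-- In a group whose order is a proper divisor of `175560 = |J₁|`, the Sylow `19`-subgroups
are normal. -/
theorem sylow19_normal_of_proper : ∀ n : ℕ, ∀ (H : Type u) [Group H] [Finite H],
    Nat.card H = n → n ∣ 175560 → n ≠ 175560 → ∀ P : Sylow 19 H, (P : Subgroup H).Normal := by
  intro n
  induction n using Nat.strong_induction_on with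
  | _ n ih =>
    intro H _ _ hH hdvd hne P
    have h19 : Nat.Prime 19 := by norm_num
    have : Fact (Nat.Prime 19) := ⟨h19⟩
    by_cases hs : IsSimpleGroup H
    · by_cases hd : 19 ∣ Nat.card H
      swap
      · have hc : Nat.card (P : Subgroup H) = 1 := by
          rw [P.card_eq_multiplicity, Nat.factorization_eq_zero_of_not_dvd hd, pow_zero]
        rw [Subgroup.eq_bot_of_card_eq _ hc]
        exact Subgroup.normal_bot
      obtain ⟨m, hm⟩ := hd
      have hm9 : m ∣ 9240 := by
        have h1 : (19 : ℕ) * m ∣ 19 * 9240 := by rw [← hm, hH]; exact hdvd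
        exact (Nat.mul_dvd_mul_iff_left (by norm_num)).mp h1
      by_cases hm1 : m = 1
      · have h19m : ¬ 19 ∣ m := by rw [hm1]; norm_num
        have hfac : (Nat.card H).factorization 19 = 1 := fact_one _ 19 m h19 hm h19m
        have hP : Nat.card (P : Subgroup H) = 19 := by
          rw [P.card_eq_multiplicity, hfac, pow_one]
        have hPt : (P : Subgroup H) = ⊤ :=
          Subgroup.eq_top_of_card_eq _ (by rw [hP, hm, hm1])
        rw [hPt]; exact Subgroup.normal_top
      · exact (no_simple_proper m hm9 hm1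
          (by rintro rfl; exact hne (by rw [← hH, hm])) hm).elim
    · subst hH
      exact sylow19_step hdvd hs (fun K _ _ hlt hd => ih (Nat.card K) hlt K rfl hd (by
        have := Nat.le_of_dvd (by norm_num) hdvd
        omega)) P

/-- A group of order `175560 = |J₁|` is simple or has a normal Sylow `19`-subgroup. -/
theorem simple_or_sylow19_normal_175560 {G : Type u} [Group G] [Finite G]
    (hG : Nat.card G = 175560) :
    IsSimpleGroup G ∨ ∀ P : Sylow 19 G, (P : Subgroup G).Normal := by
  by_cases hs : IsSimpleGroup G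
  · exact Or.inl hs
  · right
    exact sylow19_step (by rw [hG]) hs (fun K _ _ hlt hd =>
      sylow19_normal_of_proper (Nat.card K) K rfl hd (by rw [hG] at hlt; omega))

end Cfsg.Agent.Lib.Helper5.Syl
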