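import Mathlib
import Cfsg.Agent.Lib.Helper5.ZassIso

/-!
# Simple groups of order `1092` are isomorphic to `PSL(2, 13)`

The finite check `Zass.Check` for `p = 13` (by kernel computation) and its consequence.
-/

set_option autoImplicit false

namespace Cfsg.Agent.Lib.Helper5.Zass

set_option maxRecDepth 1000000 in
theorem check13 : Check 13 6 10 2 := by decide +kernel

theorem gen13 : ∀ x : ZMod 13, x ≠ 0 →
    ∃ i < 6, x = (4 : ZMod 13) ^ i ∨ x = 2 * (4 : ZMod 13) ^ i := by
  decide

/-- A simple group of order `1092` is isomorphic to `PSL(2, 13)`. -/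
theorem iso_psl_13 {G : Type*} [Group G] [Finite G] [IsSimpleGroup G]
    (h : 2 * Nat.card G = 13 * (13 ^ 2 - 1))
    {F : Type*} [Field F] [Fintype F] (hF : Fintype.card F = 13) :
    Nonempty (G ≃* Matrix.ProjectiveSpecialLinearGroup (Fin 2) F) := by
  have hg : (4 : ZMod 13) * 10 = 1 := by decide
  have hg₁ : (4 : ZMod 13) ^ 6 = 1 := by decide
  have hr : (2 : ZMod 13) ≠ 0 := by decide
  have : Fact (Nat.Prime 13) := ⟨by norm_num⟩
  exact iso_psl (p := 13) (m := 6) (by norm_num) rfl hg hg₁ hr gen13 check13 h hF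

end Cfsg.Agent.Lib.Helper5.Zass
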